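import Mathlib
import Cfsg.Agent.Helper15.B42Defs
import Cfsg.Agent.Helper65.D1IF
import Cfsg.Agent.Helper66.B42GAL

/-!
# S4504, sub-CALL STRUCT, piece GALC (helper82): the `p`-conjugate of an irreducible character
-/

universe u
set_option autoImplicit false
open Cfsg Cfsg.Agent.Helper77 Cfsg.Agent.Helper15
open scoped ComplexConjugate

namespace Cfsg.Agent.Helper82

variable {G : Type u} [Group G] [Finite G]

/-- GALC: the `p`-conjugate of an irreducible character. -/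
theorem s4504s_galc (p : ℕ) [Fact p.Prime] (x : G) (K : Subgroup G) (h : D1Hyp p x K)
    (ψ : Cfsg.IrrCharacter G) (v : (ZMod p)ˣ) :
    ∃ (ψ' : Cfsg.IrrCharacter G) (τ : ℂ ≃+* ℂ), (∀ g : G, (ψ' : G → ℂ) g = τ ((ψ : G → ℂ) g)) ∧
      (∀ g : G, ¬ p ∣ orderOf g → (ψ' : G → ℂ) g = (ψ : G → ℂ) g) ∧
      ∀ b : ℕ, (ψ' : G → ℂ) (x ^ b) = (ψ : G → ℂ) (x ^ (b * (v : ZMod p).val)) := by
  classical
  have hp : p.Prime := Fact.out
  have hpG : p ∣ Nat.card G := by rw [← h.hx]; exact orderOf_dvd_natCard x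
  obtain ⟨M₀, hM₀⟩ := hpG
  have hM₀p : ¬ p ∣ M₀ := by
    rintro ⟨c, hc⟩
    exact h.hsq ⟨c, by rw [hM₀, hc]; ring⟩
  have hM₀0 : M₀ ≠ 0 := by rintro rfl; exact hM₀p (dvd_zero p)
  obtain ⟨-, h2, -⟩ := Cfsg.Agent.Helper65.d1_inertial p x K h M₀ hM₀p (by rw [hM₀])
  obtain ⟨τ, hτ, -, hτχ⟩ := h2 v
  refine ⟨⟨fun g => τ ((ψ : G → ℂ) g), Cfsg.Agent.Helper75.isIrrCharacter_ringEquiv τ ψ.2⟩, τ,
    fun g => rfl, ?_, ?_⟩
  · intro g hg
    show τ ((ψ : G → ℂ) g) = _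
    apply Cfsg.Agent.Helper66.b42gal_fix τ M₀ hM₀0 hτ ψ g
    have h1 : orderOf g ∣ p * M₀ := by rw [← hM₀]; exact orderOf_dvd_natCard g
    have h3 : (orderOf g).Coprime p := ((Nat.Prime.coprime_iff_not_dvd hp).mpr hg).symm
    exact orderOf_dvd_iff_pow_eq_one.mp (h3.dvd_of_dvd_mul_left h1)
  · intro b
    show τ ((ψ : G → ℂ) (x ^ b)) = _
    have h4 := hτχ ψ b (1 : K)
    simpa using h4

end Cfsg.Agent.Helper82
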