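import Mathlib
import Cfsg.Agent.Helper15.B42Defs
import Cfsg.Agent.Helper88.B42SHAPE

/-!
# S4504, sub-CALL STRUCT, piece HALFINT (helper82): twice a character value at an element of
prime order is never an odd integer
-/

universe u
set_option autoImplicit false
open Cfsg Cfsg.Agent.Helper77 Cfsg.Agent.Helper15 Cfsg.Agent.Helper88
open scoped ComplexConjugate

namespace Cfsg.Agent.Helper82

variable {G : Type u} [Group G] [Finite G]

/-- HALFINT: twice a character value at `x` is never an odd integer. -/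
theorem s4504s_halfint (p : ℕ) [Fact p.Prime] (x : G) (hx : orderOf x = p) (ψ : G → ℂ)
    (hψ : Cfsg.IsCharacter G ψ) (r : ℤ) (h : 2 * ψ x = (r : ℂ)) : Even r := by
  classical
  obtain ⟨n, ρ, rfl⟩ := hψ
  have hp : p.Prime := Fact.out
  have hζ : IsPrimitiveRoot (d1zeta p) p := Complex.isPrimitiveRoot_exp p hp.ne_zero
  have hf : (ρ x) ^ p = 1 := by rw [← map_pow, ← hx, pow_orderOf_eq_one, map_one]
  obtain ⟨s, hs1, -, hs3⟩ := Helper75.exists_eigen_multiset (ρ x) p hp.ne_zero hf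
  have hchar : ρ.character x = (s.map (fun μ => μ ^ 1)).sum := by
    rw [← hs3 1, pow_one]; rfl
  set m : ZMod p → ℕ := fun j => s.count (d1zeta p ^ j.val) with hm
  have hx1 : ρ.character x = ∑ j : ZMod p, (m j : ℂ) * d1zeta p ^ j.val := by
    rw [hchar, mult_expand88 p (d1zeta p) hζ s hs1]
    refine Finset.sum_congr rfl (fun j _ => ?_)
    rw [pow_one]
  let c : ZMod p → ℤ := fun j => 2 * (m j : ℤ) - (if j = 0 then r else 0)
  have hsum : ∑ j : ZMod p, (c j : ℂ) * d1zeta p ^ j.val = 0 := by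
    have h1 : ∀ j : ZMod p, (c j : ℂ) * d1zeta p ^ j.val
        = 2 * ((m j : ℂ) * d1zeta p ^ j.val)
          - (if j = 0 then (r : ℂ) else 0) * d1zeta p ^ j.val := by
      intro j
      show ((2 * (m j : ℤ) - (if j = 0 then r else 0) : ℤ) : ℂ) * d1zeta p ^ j.val = _
      split_ifs <;> push_cast <;> ring
    rw [Finset.sum_congr rfl (fun j _ => h1 j), Finset.sum_sub_distrib, ← Finset.mul_sum, ← hx1, h]
    simp [ite_mul]
  have h10 := coeff_const88 p (d1zeta p) hζ c hsum 1
  have hne : (1 : ZMod p) ≠ 0 := one_ne_zero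
  have hc1 : c 1 = 2 * (m 1 : ℤ) := by
    show 2 * (m 1 : ℤ) - (if (1 : ZMod p) = 0 then r else 0) = _
    rw [if_neg hne, sub_zero]
  have hc0 : c 0 = 2 * (m 0 : ℤ) - r := by
    show 2 * (m 0 : ℤ) - (if (0 : ZMod p) = 0 then r else 0) = _
    rw [if_pos rfl]
  rw [hc1, hc0] at h10
  exact ⟨(m 0 : ℤ) - (m 1 : ℤ), by linarith⟩

end Cfsg.Agent.Helper82
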