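import Mathlib
import Cfsg.Prelude.Def_Characters
import Cfsg.Prelude.Def_Blocks
import Cfsg.Prelude.Def_CharExt
import Cfsg.Agent.Helper75.AlperinDade
import Cfsg.Agent.Helper39.AbelDual
import Cfsg.Agent.Helper15.DetChar
import Cfsg.Agent.Helper79.Basic
import Cfsg.Agent.Helper80.LinChar
import Cfsg.Agent.Helper81.LocalRing
import Cfsg.Agent.Helper81.CharBasic
import Cfsg.Agent.Helper77.LocalRing

/-!
# Faithful principal block characters of degree `< 2p` in perfect groups (helper82)

* `faithDeg_det_diag`: the determinantal character of a sum of linear characters.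
* `faithDeg_pRegular`: if `G` is perfect, `χ` lies in the principal `p`-block and has degree
  `< 2p`, then `χ(k) = χ(1)` for every `p`-regular `k ∈ C_G(P)`.
* `faithDeg_isPGroup`: hence if `χ` is moreover faithful, `C_G(P)` is a `p`-group.
-/

set_option autoImplicit false

namespace Cfsg.Agent.Helper82

open scoped ComplexConjugate

universe u

/-- The determinantal character of a sum of linear characters. -/
theorem faithDeg_det_diag {A : Type u} [Group A] [Finite A] [Fintype (A →* ℂˣ)] {θ : A → ℂ}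
    (hθ : Cfsg.IsCharacter A θ) (n : (A →* ℂˣ) → ℕ)
    (h2 : ∀ a : A, θ a = ∑ f : A →* ℂˣ, (n f : ℂ) * ((f a : ℂˣ) : ℂ)) (a : A) :
    Cfsg.detChar θ a = ∏ f : A →* ℂˣ, ((f a : ℂˣ) : ℂ) ^ (n f) := by
  classical
  let ρ : Representation ℂ A ((Σ f : A →* ℂˣ, Fin (n f)) → ℂ) :=
    { toFun := fun x => Matrix.toLin' (Matrix.diagonal
        (fun i : (Σ f : A →* ℂˣ, Fin (n f)) => ((i.1 x : ℂˣ) : ℂ)))
      map_one' := by
        have : (fun i : (Σ f : A →* ℂˣ, Fin (n f)) => ((i.1 1 : ℂˣ) : ℂ)) = fun _ => 1 := by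
          funext i; simp
        rw [this, Matrix.diagonal_one, Matrix.toLin'_one]
        rfl
      map_mul' := by
        intro x y
        rw [Module.End.mul_eq_comp, ← Matrix.toLin'_mul, Matrix.diagonal_mul_diagonal]
        congr 2
        funext i
        simp }
  have hρ : ∀ x : A, ρ x = Matrix.toLin' (Matrix.diagonal
      (fun i : (Σ f : A →* ℂˣ, Fin (n f)) => ((i.1 x : ℂˣ) : ℂ))) := fun _ => rfl
  have hchar : ρ.character = θ := by
    funext x
    unfold Representation.character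
    rw [hρ, Matrix.trace_toLin'_eq, Matrix.trace_diagonal, Fintype.sum_sigma, h2]
    apply Finset.sum_congr rfl
    intro f _
    simp
  rw [Helper15.detChar_of_rep ρ θ hθ hchar]
  show LinearMap.det (ρ a) = _
  rw [hρ, LinearMap.det_toLin', Matrix.det_diagonal, Fintype.prod_sigma]
  apply Finset.prod_congr rfl
  intro f _
  simp

/-- A homomorphism from a perfect group to `ℂˣ` is trivial. -/
theorem faithDeg_hom_trivial {G : Type u} [Group G] (hperf : commutator G = ⊤) (f : G →* ℂˣ)
    (g : G) : f g = 1 := by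
  have h1 : commutator G ≤ f.ker := Abelianization.commutator_subset_ker f
  rw [hperf] at h1
  exact MonoidHom.mem_ker.mp (h1 (Subgroup.mem_top g))

/-- If `G` is perfect and `χ` lies in the principal `p`-block and has degree `< 2p`, then
`χ(k) = χ(1)` for every `p`-regular `k ∈ C_G(P)`. -/
theorem faithDeg_pRegular {G : Type u} [Group G] [Fintype G] {p : ℕ} [Fact p.Prime]
    {M : Ideal Cfsg.AlgInt} (hM : Cfsg.IsPModular p M) (hperf : commutator G = ⊤) (P : Sylow p G)
    (χ : Cfsg.IrrCharacter G) (hχ : χ ∈ Cfsg.principalBlock M G)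
    (hdeg : Cfsg.charDegree (χ : G → ℂ) < 2 * p) {k : G}
    (hk : k ∈ Subgroup.centralizer ((P : Subgroup G) : Set G)) (hkp : ¬ p ∣ orderOf k) :
    (χ : G → ℂ) k = (χ : G → ℂ) 1 := by
  classical
  have hp : p.Prime := Fact.out
  have hMm := hM.2.1
  have hMp : M.IsPrime := hMm.isPrime
  have hMt : M ≠ ⊤ := hMm.ne_top
  obtain ⟨H, hH⟩ : ∃ H : Subgroup G, H = Subgroup.zpowers k := ⟨_, rfl⟩
  have hkH : k ∈ H := by rw [hH]; exact Subgroup.mem_zpowers k
  have hHle : H ≤ Subgroup.centralizer ((P : Subgroup G) : Set G) := by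
    rw [hH, Subgroup.zpowers_le]; exact hk
  have hcomm : ∀ a b : H, a * b = b * a := by
    intro a b
    have ha : (a : G) ∈ Subgroup.zpowers k := hH ▸ a.2
    have hb : (b : G) ∈ Subgroup.zpowers k := hH ▸ b.2
    obtain ⟨i, hi⟩ := ha
    obtain ⟨j, hj⟩ := hb
    apply Subtype.ext
    show (a : G) * (b : G) = (b : G) * (a : G)
    rw [← hi, ← hj]
    simp only
    rw [← zpow_add, ← zpow_add, add_comm]
  have hfinhom : Finite (H →* ℂˣ) := Helper80.finite_hom
  have hfthom : Fintype (H →* ℂˣ) := Fintype.ofFinite _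
  have hχc : Cfsg.IsCharacter G (χ : G → ℂ) := Helper79.irr_isCharacter χ
  have hθ : Cfsg.IsCharacter H (fun x : H => (χ : G → ℂ) x) :=
    Helper79.isCharacter_restrict hχc H
  obtain ⟨n, hn1, hn2⟩ := Helper39.comm_char_decomp hcomm hθ
  have hcardH : Nat.card H = orderOf k := by rw [hH]; exact Nat.card_zpowers k
  obtain ⟨d, hd⟩ : ∃ d : ℕ, d = Cfsg.charDegree (χ : G → ℂ) := ⟨_, rfl⟩
  have hχ1 : (χ : G → ℂ) 1 = d := by rw [hd]; exact Helper81.irr_one_eq_charDegree χ
  have hdpos : 0 < d := by rw [hd]; exact Helper81.charDegree_pos χ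
  have hd0 : (d : ℂ) ≠ 0 := by exact_mod_cast hdpos.ne'
  have hd2 : d < 2 * p := by rw [hd]; exact hdeg
  -- sum of multiplicities
  have hsum : ∑ f : H →* ℂˣ, n f = d := by
    have h := Helper39.comm_char_degree hn2
    have h' : (χ : G → ℂ) 1 = ((∑ f : H →* ℂˣ, n f : ℕ) : ℂ) := h
    rw [hχ1] at h'
    exact_mod_cast h'.symm
  -- the congruence
  have hcong : ∀ f : H →* ℂˣ, f ≠ 1 → Cfsg.MemLocalIdeal M ((n f : ℂ) / d) := by
    intro f hf
    have horth : ∑ a : H, conj ((f a : ℂˣ) : ℂ) = 0 := by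
      have h := Helper80.hom_orthogonality (1 : H →* ℂˣ) f
      rw [if_neg (Ne.symm hf)] at h
      simpa using h
    have h1 : (n f : ℂ) / d = (Nat.card H : ℂ)⁻¹ *
        ∑ a : H, ((χ : G → ℂ) a / (χ : G → ℂ) 1 - 1) * conj ((f a : ℂˣ) : ℂ) := by
      rw [hn1 f]
      have h3 : ∑ a : H, ((χ : G → ℂ) a / (χ : G → ℂ) 1 - 1) * conj ((f a : ℂˣ) : ℂ)
          = (∑ a : H, (χ : G → ℂ) a * conj ((f a : ℂˣ) : ℂ)) / d := by
        rw [hχ1]
        have h4 : ∀ a : H, ((χ : G → ℂ) a / d - 1) * conj ((f a : ℂˣ) : ℂ)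
            = ((χ : G → ℂ) a * conj ((f a : ℂˣ) : ℂ)) / d - conj ((f a : ℂˣ) : ℂ) := by
          intro a
          field_simp
        rw [Finset.sum_congr rfl (fun a _ => h4 a), Finset.sum_sub_distrib, horth, sub_zero,
          Finset.sum_div]
      rw [h3]
      ring
    rw [h1]
    apply Helper81.memLocalIdeal_mul_left
      (Helper77.memLocalRing_natCast_inv hM (by rw [hcardH]; exact hkp))
    apply Helper81.memLocalIdeal_sum
    intro a _
    apply Helper81.memLocalIdeal_mul_right
      (Helper75.irr_div_sub_one_memLocalIdeal hM P χ hχ (hHle a.2))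
    apply Helper81.memLocalRing_of_isIntegral hMt
    have hpow : (conj ((f a : ℂˣ) : ℂ)) ^ Nat.card H = 1 := by
      rw [← map_pow, ← Units.val_pow_eq_pow_val, ← map_pow, pow_card_eq_one', map_one,
        Units.val_one, map_one]
    exact IsIntegral.of_pow Nat.card_pos (by rw [hpow]; exact isIntegral_one)
  have hdvd : ∀ f : H →* ℂˣ, f ≠ 1 → p ∣ n f := by
    intro f hf
    rw [← Helper81.memLocalIdeal_natCast_iff hM]
    have h1 : (n f : ℂ) = (d : ℂ) * ((n f : ℂ) / d) := by field_simp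
    rw [h1]
    exact Helper81.memLocalIdeal_mul_left (Helper81.memLocalRing_natCast hMt d) (hcong f hf)
  -- the determinant
  have hdet : ∀ a : H, ∏ f : H →* ℂˣ, ((f a : ℂˣ) : ℂ) ^ (n f) = 1 := by
    intro a
    rw [← faithDeg_det_diag hθ n hn2 a, Helper15.detChar_restrict H (χ : G → ℂ) hχc a]
    obtain ⟨F, hF⟩ := Helper15.detChar_exists_hom (χ : G → ℂ) hχc
    rw [hF, faithDeg_hom_trivial hperf F, Units.val_one]
  -- all nontrivial multiplicities vanish
  have hzero : ∀ f : H →* ℂˣ, f ≠ 1 → n f = 0 := by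
    intro f₀ hf₀
    by_contra hne
    have hpos : 0 < n f₀ := Nat.pos_of_ne_zero hne
    have hle : ∀ f : H →* ℂˣ, f ≠ f₀ → n f + n f₀ ≤ d := by
      intro f hf
      rw [← hsum, ← Finset.add_sum_erase Finset.univ n (Finset.mem_univ f₀), add_comm]
      exact Nat.add_le_add_left (Finset.single_le_sum (f := n) (fun _ _ => Nat.zero_le _)
        (Finset.mem_erase.mpr ⟨hf, Finset.mem_univ f⟩)) _
    have hf₀le : n f₀ ≤ d := by
      rw [← hsum]
      exact Finset.single_le_sum (f := n) (fun _ _ => Nat.zero_le _) (Finset.mem_univ f₀)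
    have hnp : n f₀ = p := by
      obtain ⟨c, hc⟩ := hdvd f₀ hf₀
      have hc1 : c = 1 := by
        have hc0 : 0 < c := by
          rcases Nat.eq_zero_or_pos c with h | h
          · rw [h, mul_zero] at hc; omega
          · exact h
        have : p * c < 2 * p := by rw [← hc]; omega
        have : p * c < p * 2 := by rw [mul_comm p 2]; exact this
        have := Nat.lt_of_mul_lt_mul_left this
        omega
      rw [hc, hc1, mul_one]
    have hothers : ∀ f : H →* ℂˣ, f ≠ f₀ → f ≠ 1 → n f = 0 := by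
      intro f hf hf1
      obtain ⟨c, hc⟩ := hdvd f hf1
      have h1 := hle f hf
      rw [hnp, hc] at h1
      have hc0 : c = 0 := by
        by_contra hc0
        have : p * 1 ≤ p * c := Nat.mul_le_mul_left p (Nat.one_le_iff_ne_zero.mpr hc0)
        omega
      rw [hc, hc0, mul_zero]
    have hpow : ∀ a : H, ((f₀ a : ℂˣ) : ℂ) ^ p = 1 := by
      intro a
      have h := hdet a
      rw [Finset.prod_eq_single f₀] at h
      · rw [hnp] at h; exact h
      · intro f _ hf
        by_cases hf1 : f = 1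
        · rw [hf1]; simp
        · rw [hothers f hf hf1, pow_zero]
      · intro h; exact absurd (Finset.mem_univ f₀) h
    apply hf₀
    ext a
    have h1 : (f₀ a) ^ p = 1 := by
      apply Units.ext
      rw [Units.val_pow_eq_pow_val, hpow a, Units.val_one]
    have h2 : (f₀ a) ^ Nat.card H = 1 := by
      rw [← map_pow, pow_card_eq_one', map_one]
    have hcop : Nat.Coprime p (Nat.card H) := by
      rw [hcardH]; exact (Nat.Prime.coprime_iff_not_dvd hp).mpr hkp
    have h3 : orderOf (f₀ a) ∣ 1 := by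
      rw [← Nat.Coprime.gcd_eq_one hcop]
      exact Nat.dvd_gcd (orderOf_dvd_of_pow_eq_one h1) (orderOf_dvd_of_pow_eq_one h2)
    have h4 : f₀ a = 1 := orderOf_eq_one_iff.mp (Nat.dvd_one.mp h3)
    rw [h4]
    rfl
  -- conclusion
  have hval : ∀ a : H, (χ : G → ℂ) a = (n 1 : ℂ) := by
    intro a
    have h := hn2 a
    rw [Finset.sum_eq_single (1 : H →* ℂˣ)] at h
    · rw [h]; simp
    · intro f _ hf
      rw [hzero f hf]; simp
    · intro h; exact absurd (Finset.mem_univ _) h
  have h1 := hval ⟨k, hkH⟩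
  have h2 := hval 1
  simp only [Subgroup.coe_one] at h1 h2
  rw [h1, h2]

/-- If `G` is perfect and the principal `p`-block contains a faithful irreducible character of
degree `< 2p`, then `C_G(P)` is a `p`-group. -/
theorem faithDeg_isPGroup {G : Type u} [Group G] [Finite G] {p : ℕ} [Fact p.Prime]
    {M : Ideal Cfsg.AlgInt} (hM : Cfsg.IsPModular p M) (hperf : commutator G = ⊤) (P : Sylow p G)
    (χ : Cfsg.IrrCharacter G) (hχ : χ ∈ Cfsg.principalBlock M G)
    (hfaith : ∀ g : G, (χ : G → ℂ) g = (χ : G → ℂ) 1 → g = 1)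
    (hdeg : Cfsg.charDegree (χ : G → ℂ) < 2 * p) :
    IsPGroup p ↥(Subgroup.centralizer ((P : Subgroup G) : Set G)) := by
  classical
  have := Fintype.ofFinite G
  have hp : p.Prime := Fact.out
  intro c
  have hpos : orderOf (c : G) ≠ 0 := (orderOf_pos (c : G)).ne'
  obtain ⟨j, m, hm, hjm⟩ := Nat.exists_eq_pow_mul_and_not_dvd hpos p hp.ne_one
  refine ⟨j, ?_⟩
  have hk : (c : G) ^ p ^ j ∈ Subgroup.centralizer ((P : Subgroup G) : Set G) := pow_mem c.2 _
  have hord : orderOf ((c : G) ^ p ^ j) = m := by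
    rw [orderOf_pow' _ (pow_ne_zero j hp.ne_zero), hjm, Nat.gcd_eq_right (Dvd.intro _ rfl)]
    exact Nat.mul_div_cancel_left m (pow_pos hp.pos j)
  have h1 := faithDeg_pRegular hM hperf P χ hχ hdeg hk (by rw [hord]; exact hm)
  have h2 := hfaith _ h1
  apply Subtype.ext
  rw [Subgroup.coe_pow, h2]
  rfl

end Cfsg.Agent.Helper82
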