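import Cfsg.Agent.Helper73.BrauerFeit
import Cfsg.Agent.Helper82.SubsectionCount

/-!
# `2`-blocks of defect one

A `2`-block of defect one consists of exactly two irreducible characters, which agree on the
elements of odd order.
-/

set_option autoImplicit false
open Cfsg
open scoped ComplexConjugate

namespace Cfsg.Agent.Helper82

universe u

/-- The rank of a nonempty set of irreducible characters is positive. -/
theorem blockRank_pos {G : Type u} [Group G] [Finite G] {p : ℕ} (hp : p.Prime)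
    {b : Set (Cfsg.IrrCharacter G)} {ξ : Cfsg.IrrCharacter G} (hξ : ξ ∈ b) :
    0 < Cfsg.blockRank p b := by
  unfold Cfsg.blockRank
  rw [Module.finrank_pos_iff_exists_ne_zero]
  refine ⟨⟨Cfsg.pRegularPart p (ξ : G → ℂ), Submodule.subset_span ⟨ξ, hξ, rfl⟩⟩, ?_⟩
  intro h
  have h1 : Cfsg.pRegularPart p (ξ : G → ℂ) = 0 := congrArg Subtype.val h
  have h2 := congrFun h1 1
  rw [Helper77.pRegularPart_apply, orderOf_one,
    if_pos (by rw [Nat.dvd_one]; exact hp.ne_one)] at h2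
  exact Helper81.irr_one_ne_zero ξ h2

variable {G : Type u} [Group G] [Fintype G]

/-- **`2`-blocks of defect one.** -/
theorem defect_one_two {M : Ideal Cfsg.AlgInt} (hM : Cfsg.IsPModular 2 M)
    {B : Set (Cfsg.IrrCharacter G)} (hB : Cfsg.IsPBlock M B) (hd : Cfsg.blockDefect 2 B = 1) :
    ∃ χ₁ χ₂ : Cfsg.IrrCharacter G, χ₁ ≠ χ₂ ∧ B = {χ₁, χ₂} ∧
      ∀ g : G, ¬ 2 ∣ orderOf g → (χ₁ : G → ℂ) g = (χ₂ : G → ℂ) g := by
  classical
  have := Fintype.ofFinite (Cfsg.IrrCharacter G)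
  have hMm := hM.2.1
  have hcard : (Nat.card G : ℂ) ≠ 0 := by
    have : 0 < Nat.card G := Nat.card_pos
    exact_mod_cast this.ne'
  obtain ⟨χ₀, hχ₀, h0⟩ := Helper16.exists_height_zero (p := 2) hMm hB
  obtain ⟨m, hm, hm0, hmB⟩ := Helper73.exists_mult_of_height_zero hM hB hχ₀ h0
  rw [hd] at hm
  have hsum := Helper73.sum_sq_classInner_pregScal 2 (2 ^ 1) χ₀ m hm
  have hmχ := hmB χ₀ hχ₀
  rw [h0] at hmχ
  have hm1 : m χ₀ = 1 := by
    have h1 : (m χ₀) ^ 2 ≤ ∑ ψ : Cfsg.IrrCharacter G, (m ψ) ^ 2 :=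
      Finset.single_le_sum (f := fun ψ => (m ψ) ^ 2) (fun ψ _ => sq_nonneg _)
        (Finset.mem_univ χ₀)
    rw [hsum] at h1
    push_cast at h1
    have h3 : m χ₀ ≤ 2 := by nlinarith
    have h4 : 0 < m χ₀ := by
      rcases lt_trichotomy (m χ₀) 0 with h | h | h
      · nlinarith
      · exact absurd h hmχ.1
      · exact h
    have h5 : m χ₀ = 1 ∨ m χ₀ = 2 := by omega
    rcases h5 with h5 | h5
    · exact h5
    · exfalso
      have h6 := hmχ.2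
      rw [h5] at h6
      have h7 : padicValInt 2 2 = 1 := padicValInt.self (by norm_num)
      omega
  have hrest : ∑ ψ ∈ Finset.univ.erase χ₀, (m ψ) ^ 2 = 1 := by
    have h1 := Finset.add_sum_erase Finset.univ (fun ψ => (m ψ) ^ 2) (Finset.mem_univ χ₀)
    rw [hsum, hm1] at h1
    push_cast at h1
    linarith
  obtain ⟨ψ₁, hψ₁, hψ₁ne⟩ : ∃ ψ₁ ∈ Finset.univ.erase χ₀, (m ψ₁) ^ 2 ≠ 0 := by
    apply Finset.exists_ne_zero_of_sum_ne_zero
    rw [hrest]
    exact one_ne_zero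
  have hψ₁χ : ψ₁ ≠ χ₀ := (Finset.mem_erase.mp hψ₁).1
  have hmψ₁ : m ψ₁ ≠ 0 := fun h => hψ₁ne (by rw [h]; rfl)
  have hrest2 : (m ψ₁) ^ 2 + ∑ ψ ∈ (Finset.univ.erase χ₀).erase ψ₁, (m ψ) ^ 2 = 1 := by
    rw [Finset.add_sum_erase _ (fun ψ => (m ψ) ^ 2) hψ₁]
    exact hrest
  have hnn : 0 ≤ ∑ ψ ∈ (Finset.univ.erase χ₀).erase ψ₁, (m ψ) ^ 2 :=
    Finset.sum_nonneg fun ψ _ => sq_nonneg _
  have hsq1 : (m ψ₁) ^ 2 = 1 := by
    have h1 : 1 ≤ (m ψ₁) ^ 2 := by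
      have : 0 < (m ψ₁) ^ 2 := by positivity
      omega
    omega
  have hzero : ∑ ψ ∈ (Finset.univ.erase χ₀).erase ψ₁, (m ψ) ^ 2 = 0 := by omega
  have hothers : ∀ ψ : Cfsg.IrrCharacter G, ψ ≠ χ₀ → ψ ≠ ψ₁ → m ψ = 0 := by
    intro ψ h1 h2
    have h3 := (Finset.sum_eq_zero_iff_of_nonneg (fun ψ _ => sq_nonneg (m ψ))).mp hzero ψ
      (Finset.mem_erase.mpr ⟨h2, Finset.mem_erase.mpr ⟨h1, Finset.mem_univ ψ⟩⟩)
    exact pow_eq_zero_iff (two_ne_zero) |>.mp h3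
  have hψ₁B : ψ₁ ∈ B := by
    by_contra h
    exact hmψ₁ (hm0 ψ₁ h)
  have hBeq : B = {χ₀, ψ₁} := by
    ext ψ
    simp only [Set.mem_insert_iff, Set.mem_singleton_iff]
    constructor
    · intro hψ
      by_contra hcon
      rw [not_or] at hcon
      exact (hmB ψ hψ).1 (hothers ψ hcon.1 hcon.2)
    · rintro (h | h)
      · rw [h]; exact hχ₀
      · rw [h]; exact hψ₁B
  -- the expansion of `2 χ₀°`
  have hcl := Helper73.pregScal_isClassFunction 2 (((2 ^ 1 : ℕ)) : ℂ)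
    (Helper81.irr_isClassFunction χ₀)
  have hexp : ∀ h : G, Helper73.pregScal 2 (((2 ^ 1 : ℕ)) : ℂ) (χ₀ : G → ℂ) h
      = (χ₀ : G → ℂ) h + (m ψ₁ : ℂ) * (ψ₁ : G → ℂ) h := by
    intro h
    have h1 := Helper77.classFunction_expand hcl h
    have h2 : ∀ ψ : Cfsg.IrrCharacter G,
        (∑ g : G, Helper73.pregScal 2 (((2 ^ 1 : ℕ)) : ℂ) (χ₀ : G → ℂ) g * conj ((ψ : G → ℂ) g))
          = (Nat.card G : ℂ) * (m ψ : ℂ) := by
      intro ψ
      rw [← hm ψ, Cfsg.classInner, ← mul_assoc, mul_inv_cancel₀ hcard, one_mul]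
    simp only [h2] at h1
    have h3 : ∑ ψ : Cfsg.IrrCharacter G, (Nat.card G : ℂ) * (m ψ : ℂ) * (ψ : G → ℂ) h
        = (Nat.card G : ℂ) * ((χ₀ : G → ℂ) h + (m ψ₁ : ℂ) * (ψ₁ : G → ℂ) h) := by
      rw [← Finset.add_sum_erase _ _ (Finset.mem_univ χ₀),
        ← Finset.add_sum_erase _ _ hψ₁, Finset.sum_eq_zero, hm1]
      · push_cast; ring
      · intro ψ hψ
        have h4 := Finset.mem_erase.mp hψ
        have h5 := Finset.mem_erase.mp h4.2
        rw [hothers ψ h5.1 h4.1]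
        push_cast; ring
    rw [h3] at h1
    exact mul_left_cancel₀ hcard h1
  have hreg : ∀ h : G, ¬ 2 ∣ orderOf h →
      (χ₀ : G → ℂ) h = (m ψ₁ : ℂ) * (ψ₁ : G → ℂ) h := by
    intro h hh
    have h1 := hexp h
    rw [Helper73.pregScal, if_neg hh] at h1
    push_cast at h1
    linear_combination h1
  have hmψ₁1 : m ψ₁ = 1 := by
    have h1 : m ψ₁ = 1 ∨ m ψ₁ = -1 := by
      apply eq_or_eq_neg_of_sq_eq_sq
      rw [hsq1]; norm_num
    rcases h1 with h1 | h1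
    · exact h1
    · exfalso
      have h2 := hreg 1 (by rw [orderOf_one]; norm_num)
      rw [h1, Helper81.irr_one_eq_charDegree, Helper81.irr_one_eq_charDegree] at h2
      have h3 : ((Cfsg.charDegree (χ₀ : G → ℂ) + Cfsg.charDegree (ψ₁ : G → ℂ) : ℕ) : ℂ) = 0 := by
        push_cast
        push_cast at h2
        linear_combination h2
      have h4 : Cfsg.charDegree (χ₀ : G → ℂ) + Cfsg.charDegree (ψ₁ : G → ℂ) = 0 := by
        exact_mod_cast h3
      have h5 := Helper81.charDegree_pos χ₀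
      omega
  refine ⟨χ₀, ψ₁, hψ₁χ.symm, hBeq, fun g hg => ?_⟩
  rw [hreg g hg, hmψ₁1]
  push_cast; ring

end Cfsg.Agent.Helper82
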