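import Mathlib
import Cfsg.Agent.Helper80.CharSchur

set_option autoImplicit false

namespace Cfsg.Agent.Helper82

/-- Freshman's dream modulo `p` for a finite sum in a commutative ring. -/
theorem sum_pow_prime_pow {A : Type*} [CommRing A] (p : ℕ) (hp : p.Prime) (a : ℕ) {ι : Type*}
    (s : Finset ι) (f : ι → A) :
    ∃ w : A, (∑ i ∈ s, f i) ^ (p ^ a) = ∑ i ∈ s, f i ^ (p ^ a) + (p : A) * w := by
  classical
  induction s using Finset.induction_on with
  | empty =>
    refine ⟨0, ?_⟩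
    rw [Finset.sum_empty, Finset.sum_empty, mul_zero, add_zero]
    exact zero_pow (pow_pos hp.pos a).ne'
  | insert i s hi ih =>
    obtain ⟨w, hw⟩ := ih
    obtain ⟨r, hr⟩ := exists_add_pow_prime_pow_eq hp (f i) (∑ j ∈ s, f j) a
    refine ⟨w + f i * (∑ j ∈ s, f j) * r, ?_⟩
    rw [Finset.sum_insert hi, Finset.sum_insert hi, hr, hw]
    ring

/-- If a sum of commuting operators of `p`-power order (images of elements of a finite abelian
group) is a scalar `ω`, then `ω ^ (p ^ a)` is congruent to the number of summands modulo `p` in the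
ring of algebraic integers. -/
theorem scalar_pow_eq {A : Type*} [CommGroup A] [Finite A] {W : Type*} [AddCommGroup W]
    [Module ℂ W] [Nontrivial W] (τ : A →* Module.End ℂ W) (p : ℕ) (hp : p.Prime) (a : ℕ)
    {ι : Type*} (s : Finset ι) (f : ι → A) (hf : ∀ i ∈ s, f i ^ (p ^ a) = 1) (ω : ℂ)
    (hω : ∑ i ∈ s, τ (f i) = ω • (1 : Module.End ℂ W)) :
    ∃ r : ℂ, IsIntegral ℤ r ∧ ω ^ (p ^ a) = (s.card : ℂ) + p * r := by
  classical
  let φ : MonoidAlgebra ℤ A →ₐ[ℤ] Module.End ℂ W := MonoidAlgebra.lift ℤ (Module.End ℂ W) A τ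
  obtain ⟨w, hw⟩ := sum_pow_prime_pow (A := MonoidAlgebra ℤ A) p hp a s
    (fun i => MonoidAlgebra.of ℤ A (f i))
  have h1 : φ (∑ i ∈ s, MonoidAlgebra.of ℤ A (f i)) = ω • (1 : Module.End ℂ W) := by
    rw [map_sum, ← hω]
    refine Finset.sum_congr rfl fun i _ => ?_
    simp [φ, MonoidAlgebra.lift_of]
  have h2 : ∑ i ∈ s, (MonoidAlgebra.of ℤ A (f i)) ^ (p ^ a) = (s.card : MonoidAlgebra ℤ A) := by
    rw [Finset.sum_congr rfl (fun i hi => by rw [← map_pow, hf i hi, map_one])]
    simp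
  have h3 := congrArg φ hw
  rw [map_pow, h1, h2, map_add, map_mul, map_natCast, map_natCast] at h3
  have hp0 : (p : ℂ) ≠ 0 := Nat.cast_ne_zero.2 hp.ne_zero
  set r : ℂ := (ω ^ (p ^ a) - s.card) / p with hr
  have hφw : φ w = r • (1 : Module.End ℂ W) := by
    have h4 : (p : Module.End ℂ W) * φ w = (ω ^ (p ^ a) - s.card) • (1 : Module.End ℂ W) := by
      have h5 : (ω • (1 : Module.End ℂ W)) ^ (p ^ a) = (ω ^ (p ^ a)) • (1 : Module.End ℂ W) := by
        rw [smul_pow, one_pow]
      rw [h5] at h3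
      rw [sub_smul, h3]
      have : ((s.card : ℂ)) • (1 : Module.End ℂ W) = (s.card : Module.End ℂ W) := by
        rw [Nat.cast_smul_eq_nsmul, nsmul_eq_mul, mul_one]
      rw [this]
      abel
    have h6 : (p : Module.End ℂ W) = (p : ℂ) • (1 : Module.End ℂ W) := by
      rw [Nat.cast_smul_eq_nsmul, nsmul_eq_mul, mul_one]
    rw [h6, smul_mul_assoc, one_mul] at h4
    rw [hr, div_eq_inv_mul, mul_smul, ← h4, smul_smul, inv_mul_cancel₀ hp0, one_smul]
  have hint : IsIntegral ℤ (φ w) := (Algebra.IsIntegral.isIntegral w).map φ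
  refine ⟨r, ?_, ?_⟩
  · rw [hφw, ← Algebra.algebraMap_eq_smul_one] at hint
    exact (isIntegral_algebraMap_iff (algebraMap ℂ (Module.End ℂ W)).injective).1 hint
  · rw [hr]
    field_simp
    ring

/-- Nonvanishing: an irreducible character of a finite group `X` does not vanish on a normal
abelian `p`-subgroup `V` having a complement `G` of order prime to `p`. -/
theorem character_ne_zero_of_complement {X : Type*} [Group X] [Finite X] (p : ℕ) [Fact p.Prime]
    (V : Subgroup X) [V.Normal] (hVp : IsPGroup p V) (hab : ∀ a ∈ V, ∀ b ∈ V, a * b = b * a)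
    (G : Subgroup X) (hGV : Subgroup.IsComplement' V G) (hG : ¬ p ∣ Nat.card G)
    {W : Type*} [AddCommGroup W] [Module ℂ W] [FiniteDimensional ℂ W]
    (ρ : Representation ℂ X W) [ρ.IsIrreducible] (u : X) (hu : u ∈ V) :
    ρ.character u ≠ 0 := by
  classical
  haveI := Fintype.ofFinite G
  intro h0
  have hp : p.Prime := Fact.out
  have hdec : ∀ x : X, ∃ w ∈ V, ∃ h ∈ G, x = w * h := by
    intro x
    obtain ⟨⟨⟨w, hw⟩, ⟨h, hh⟩⟩, e⟩ := (Subgroup.isComplement_iff_existsUnique.1 hGV x).exists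
    exact ⟨w, hw, h, hh, e.symm⟩
  set P : Module.End ℂ W := ∑ g : G, ρ ((g : X) * u * (g : X)⁻¹) with hP
  have hcomm : ∀ x, P * ρ x = ρ x * P := by
    intro x
    obtain ⟨w, hw, h, hh, rfl⟩ := hdec x
    rw [hP, Finset.sum_mul, Finset.mul_sum]
    rw [← Equiv.sum_comp (Equiv.mulLeft (⟨h, hh⟩ : G))]
    refine Finset.sum_congr rfl fun g _ => ?_
    simp only [Equiv.coe_mulLeft, Subgroup.coe_mul]
    rw [← map_mul, ← map_mul]
    congr 1
    have hV : h * (g : X) * u * (h * (g : X))⁻¹ ∈ V := ‹V.Normal›.conj_mem u hu _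
    have hc : w * (h * (g : X) * u * (h * (g : X))⁻¹) = (h * (g : X) * u * (h * (g : X))⁻¹) * w :=
      hab _ hw _ hV
    calc h * (g : X) * u * (h * (g : X))⁻¹ * (w * h)
        = (h * (g : X) * u * (h * (g : X))⁻¹ * w) * h := by group
      _ = (w * (h * (g : X) * u * (h * (g : X))⁻¹)) * h := by rw [hc]
      _ = w * h * ((g : X) * u * (g : X)⁻¹) := by group
  have hPs := Cfsg.Agent.Helper80.schur_scalar_trace ρ P hcomm
  have htr : LinearMap.trace ℂ W P = 0 := by
    rw [hP, map_sum]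
    apply Finset.sum_eq_zero
    intro g _
    have h1 : ρ.character ((g : X) * u * (g : X)⁻¹) = ρ.character u := Representation.char_conj ρ u g
    rw [h0] at h1
    exact h1
  rw [htr, zero_div, zero_smul] at hPs
  obtain ⟨a, ha⟩ := hVp ⟨u, hu⟩
  letI : CommGroup ↥V := { (inferInstance : Group ↥V) with
    mul_comm := fun a b => Subtype.ext (hab a a.2 b b.2) }
  haveI : Nontrivial W :=
    Module.nontrivial_of_finrank_pos (R := ℂ) (Cfsg.Agent.Helper80.rep_finrank_pos ρ)
  have hua : u ^ p ^ a = 1 := by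
    have := congrArg Subtype.val ha
    simpa using this
  obtain ⟨r, hr, hrr⟩ := scalar_pow_eq (A := ↥V) ((ρ : X →* Module.End ℂ W).comp V.subtype) p hp a
    Finset.univ (fun g : G => (⟨(g : X) * u * (g : X)⁻¹, ‹V.Normal›.conj_mem u hu g⟩ : ↥V))
    (fun g _ => Subtype.ext (by
      show ((g : X) * u * (g : X)⁻¹) ^ p ^ a = 1
      rw [conj_pow, hua, mul_one, mul_inv_cancel])) 0
    (by rw [zero_smul]; exact hPs)
  rw [zero_pow (pow_pos hp.pos a).ne', Finset.card_univ] at hrr
  -- r = -|G| / p is an algebraic integer, so p divides |G|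
  have hp0 : (p : ℂ) ≠ 0 := Nat.cast_ne_zero.2 hp.ne_zero
  have hr' : r = algebraMap ℚ ℂ (-(Fintype.card G : ℚ) / p) := by
    have : r = -(Fintype.card G : ℂ) / p := by
      field_simp
      linear_combination -hrr
    rw [this]
    push_cast
    ring
  rw [hr'] at hr
  have hr2 : IsIntegral ℤ (-(Fintype.card G : ℚ) / p) :=
    (isIntegral_algebraMap_iff (algebraMap ℚ ℂ).injective).1 hr
  obtain ⟨z, hz⟩ := IsIntegrallyClosed.isIntegral_iff.1 hr2
  apply hG
  have hpq : (p : ℚ) ≠ 0 := Nat.cast_ne_zero.2 hp.ne_zero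
  have h3 : (Fintype.card G : ℚ) = ((p : ℤ) * (-z) : ℤ) := by
    have : (algebraMap ℤ ℚ) z = (z : ℚ) := rfl
    rw [this] at hz
    push_cast
    field_simp at hz
    linarith
  have h4 : (Fintype.card G : ℤ) = (p : ℤ) * (-z) := by exact_mod_cast h3
  rw [Nat.card_eq_fintype_card]
  exact Int.natCast_dvd_natCast.1 ⟨-z, h4⟩

end Cfsg.Agent.Helper82
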