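import Mathlib

/-!
# Irreducible representations of abelian groups: the field `F[ρ(H)]`

For an irreducible representation `ρ` of an abelian group `H` on a nonzero finite-dimensional
`F`-space `V`, the subalgebra generated by `ρ(H)` is a field `E`, and `V` is one-dimensional
over it.  The statement is packaged with an abstract field `E`.
-/

namespace Cfsg.Agent.Helper82

universe u v w

section
variable {F : Type u} [Field F] {H : Type v} [CommGroup H] {V : Type w} [AddCommGroup V]
  [Module F V]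

theorem adjoin_range_comm (ρ : Representation F H V) :
    ∀ a ∈ Algebra.adjoin F (Set.range ρ), ∀ b ∈ Algebra.adjoin F (Set.range ρ),
      a * b = b * a := by
  have hc : ∀ a ∈ Set.range ρ, ∀ b ∈ Set.range ρ, a * b = b * a := by
    rintro _ ⟨g, rfl⟩ _ ⟨h, rfl⟩
    rw [← map_mul, ← map_mul, mul_comm]
  intro a ha b hb
  letI := Algebra.adjoinCommRingOfComm F hc
  exact congrArg Subtype.val (mul_comm (⟨a, ha⟩ : Algebra.adjoin F (Set.range ρ)) ⟨b, hb⟩)

theorem ker_eq_bot_of_mem_adjoin (ρ : Representation F H V)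
    (hirr : ∀ U : Submodule F V, (∀ h : H, ∀ u ∈ U, ρ h u ∈ U) → U = ⊥ ∨ U = ⊤)
    {a : Module.End F V} (ha : a ∈ Algebra.adjoin F (Set.range ρ)) (ha0 : a ≠ 0) :
    LinearMap.ker a = ⊥ := by
  have hinv : ∀ h : H, ∀ u ∈ LinearMap.ker a, ρ h u ∈ LinearMap.ker a := by
    intro h u hu
    rw [LinearMap.mem_ker] at hu ⊢
    have h1 := adjoin_range_comm ρ a ha (ρ h) (Algebra.subset_adjoin ⟨h, rfl⟩)
    have h2 : a (ρ h u) = (a * ρ h) u := rfl
    rw [h2, h1, Module.End.mul_apply, hu, map_zero]
  rcases hirr _ hinv with h | h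
  · exact h
  · exact absurd (LinearMap.ker_eq_top.mp h) ha0

theorem exists_field_of_irreducible [FiniteDimensional F V] (ρ : Representation F H V)
    (hirr : ∀ U : Submodule F V, (∀ h : H, ∀ u ∈ U, ρ h u ∈ U) → U = ⊥ ∨ U = ⊤)
    (v₀ : V) (hv₀ : v₀ ≠ 0) :
    ∃ (E : Type w) (_ : Field E) (_ : Algebra F E) (ι : E →ₐ[F] Module.End F V) (χ : H →* E),
      (∀ h, ι (χ h) = ρ h) ∧ Function.Bijective (fun e => ι e v₀) ∧
        Algebra.adjoin F (Set.range χ) = ⊤ := by
  classical
  have hc : ∀ a ∈ Set.range ρ, ∀ b ∈ Set.range ρ, a * b = b * a := by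
    rintro _ ⟨g, rfl⟩ _ ⟨h, rfl⟩
    rw [← map_mul, ← map_mul, mul_comm]
  letI : CommRing (Algebra.adjoin F (Set.range ρ)) := Algebra.adjoinCommRingOfComm F hc
  haveI : Nontrivial V := ⟨⟨v₀, 0, hv₀⟩⟩
  have hker : ∀ a : Algebra.adjoin F (Set.range ρ), a ≠ 0 → LinearMap.ker a.1 = ⊥ := by
    intro a ha
    exact ker_eq_bot_of_mem_adjoin ρ hirr a.2 (fun h => ha (Subtype.ext h))
  haveI : IsDomain (Algebra.adjoin F (Set.range ρ)) := by
    haveI : NoZeroDivisors (Algebra.adjoin F (Set.range ρ)) := by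
      constructor
      intro a b hab
      by_contra hcon
      push_neg at hcon
      have h1 := hker a hcon.1
      apply hcon.2
      apply Subtype.ext
      apply LinearMap.ext
      intro x
      have h2 : a.1 (b.1 x) = 0 := by
        have := congrArg (fun c : Algebra.adjoin F (Set.range ρ) => c.1 x) hab
        simpa using this
      have h3 : b.1 x ∈ LinearMap.ker a.1 := h2
      rw [h1] at h3
      simpa using h3
    exact NoZeroDivisors.to_isDomain _
  letI : Field (Algebra.adjoin F (Set.range ρ)) :=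
    fieldOfFiniteDimensional F (Algebra.adjoin F (Set.range ρ))
  refine ⟨Algebra.adjoin F (Set.range ρ), inferInstance, inferInstance,
    (Algebra.adjoin F (Set.range ρ)).val,
    ⟨⟨fun h => ⟨ρ h, Algebra.subset_adjoin ⟨h, rfl⟩⟩, ?_⟩, ?_⟩, ?_, ?_, ?_⟩
  · exact Subtype.ext (map_one ρ)
  · intro a b
    exact Subtype.ext (map_mul ρ a b)
  · intro h
    rfl
  · constructor
    · intro a b hab
      by_contra hne
      have h1 := hker (a - b) (sub_ne_zero.mpr hne)
      have h2 : v₀ ∈ LinearMap.ker (a - b).1 := by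
        rw [LinearMap.mem_ker]
        have : (a - b).1 v₀ = a.1 v₀ - b.1 v₀ := rfl
        rw [this]
        exact sub_eq_zero.mpr hab
      rw [h1] at h2
      exact hv₀ (by simpa using h2)
    · -- the image is an invariant subspace
      let U : Submodule F V :=
        { carrier := {v | ∃ a : Algebra.adjoin F (Set.range ρ), a.1 v₀ = v}
          add_mem' := by
            rintro _ _ ⟨a, rfl⟩ ⟨b, rfl⟩
            exact ⟨a + b, rfl⟩
          zero_mem' := ⟨0, by simp⟩
          smul_mem' := by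
            rintro c _ ⟨a, rfl⟩
            exact ⟨c • a, rfl⟩ }
      have hU : ∀ h : H, ∀ u ∈ U, ρ h u ∈ U := by
        rintro h _ ⟨a, rfl⟩
        exact ⟨⟨ρ h, Algebra.subset_adjoin ⟨h, rfl⟩⟩ * a, rfl⟩
      rcases hirr U hU with h | h
      · exfalso
        have : v₀ ∈ U := ⟨1, rfl⟩
        rw [h] at this
        exact hv₀ (by simpa using this)
      · intro v
        have : v ∈ U := by rw [h]; trivial
        obtain ⟨a, ha⟩ := this
        exact ⟨a, ha⟩
  · have h1 : Set.range (fun h : H =>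
        (⟨ρ h, Algebra.subset_adjoin ⟨h, rfl⟩⟩ : Algebra.adjoin F (Set.range ρ))) =
        ((↑) : Algebra.adjoin F (Set.range ρ) → Module.End F V) ⁻¹' (Set.range ρ) := by
      ext a
      constructor
      · rintro ⟨h, rfl⟩
        exact ⟨h, rfl⟩
      · rintro ⟨h, hh⟩
        exact ⟨h, Subtype.ext hh⟩
    have h2 := Algebra.adjoin_adjoin_coe_preimage (R := F) (s := Set.range ρ)
    rw [← h1] at h2
    exact h2

end

section selfdual

variable {F : Type u} [Field F] [Fintype F] {H : Type v} [CommGroup H] {V : Type w}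
  [AddCommGroup V] [Module F V] [FiniteDimensional F V] {E : Type w} [Field E] [Algebra F E]

/-- The `F`-linear equivalence `E ≃ V`, `e ↦ ι e v₀`. -/
noncomputable def evalEquiv (ι : E →ₐ[F] Module.End F V) (v₀ : V)
    (hbij : Function.Bijective (fun e => ι e v₀)) : E ≃ₗ[F] V :=
  LinearEquiv.ofBijective
    ({ toFun := fun e => ι e v₀
       map_add' := fun a b => by simp
       map_smul' := fun c a => by simp } : E →ₗ[F] V) hbij

theorem evalEquiv_apply (ι : E →ₐ[F] Module.End F V) (v₀ : V)
    (hbij : Function.Bijective (fun e => ι e v₀)) (e : E) :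
    evalEquiv ι v₀ hbij e = ι e v₀ := rfl

/-- Forward direction: a nondegenerate invariant form forces the inversion on `χ(H)` to be a
power of the Frobenius of `E/F`. -/
theorem frobenius_of_invariant_form (ρ : Representation F H V)
    (ι : E →ₐ[F] Module.End F V) (χ : H →* E) (hιχ : ∀ h, ι (χ h) = ρ h) (v₀ : V)
    (hbij : Function.Bijective (fun e => ι e v₀))
    (hgen : Algebra.adjoin F (Set.range χ) = ⊤)
    (B : LinearMap.BilinForm F V) (hB : B.Nondegenerate)
    (hBinv : ∀ h : H, ∀ x y : V, B (ρ h x) (ρ h y) = B x y) :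
    ∃ k, k < Module.finrank F E ∧ Module.finrank F E ∣ 2 * k ∧
      ∀ h, χ h ^ (Fintype.card F ^ k + 1) = 1 := by
  classical
  have hιinj : Function.Injective ι := by
    intro a b hab
    apply hbij.1
    simp only [hab]
  -- uniqueness of adjoints
  have huniq : ∀ a b : E, (∀ x y, B x (ι a y) = B x (ι b y)) → a = b := by
    intro a b hab
    apply hιinj
    apply LinearMap.ext
    intro y
    have h1 : ∀ x, B x (ι a y - ι b y) = 0 := by
      intro x
      rw [map_sub, hab, sub_self]
    exact sub_eq_zero.mp (hB.2 _ h1)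
  -- existence of adjoints
  have hχadj : ∀ h x y, B (ι (χ h) x) y = B x (ι (χ h⁻¹) y) := by
    intro h x y
    rw [hιχ, hιχ, ← hBinv h x (ρ h⁻¹ y)]
    have : ρ h (ρ h⁻¹ y) = y := by
      rw [← Module.End.mul_apply, ← map_mul, mul_inv_cancel, map_one, Module.End.one_apply]
    rw [this]
  have hadj : ∀ e : E, ∃ e' : E, ∀ x y, B (ι e x) y = B x (ι e' y) := by
    let T : Subalgebra F E :=
      { carrier := {e | ∃ e' : E, ∀ x y, B (ι e x) y = B x (ι e' y)}
        mul_mem' := by
          rintro a b ⟨a', ha⟩ ⟨b', hb⟩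
          refine ⟨b' * a', fun x y => ?_⟩
          rw [map_mul, map_mul, Module.End.mul_apply, Module.End.mul_apply, ha, hb]
        add_mem' := by
          rintro a b ⟨a', ha⟩ ⟨b', hb⟩
          refine ⟨a' + b', fun x y => ?_⟩
          rw [map_add, map_add, LinearMap.add_apply, LinearMap.add_apply, map_add,
            LinearMap.add_apply, map_add, ha, hb]
        algebraMap_mem' := by
          intro c
          refine ⟨algebraMap F E c, fun x y => ?_⟩
          simp only [AlgHom.commutes, Module.algebraMap_end_apply, map_smul,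
            LinearMap.smul_apply] }
    have hT : Algebra.adjoin F (Set.range χ) ≤ T := by
      apply Algebra.adjoin_le
      rintro _ ⟨h, rfl⟩
      exact ⟨χ h⁻¹, hχadj h⟩
    rw [hgen] at hT
    intro e
    exact hT (Algebra.mem_top : e ∈ (⊤ : Subalgebra F E))
  choose τ hτ using hadj
  have hτχ : ∀ h, τ (χ h) = χ h⁻¹ := by
    intro h
    apply huniq
    intro x y
    rw [← hτ, hχadj]
  have hτadd : ∀ a b, τ (a + b) = τ a + τ b := by
    intro a b
    apply huniq
    intro x y
    rw [← hτ, map_add, LinearMap.add_apply, map_add, LinearMap.add_apply, hτ, hτ, map_add,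
      LinearMap.add_apply, map_add]
  have hτsmul : ∀ (c : F) a, τ (c • a) = c • τ a := by
    intro c a
    apply huniq
    intro x y
    rw [← hτ]
    simp only [map_smul, LinearMap.smul_apply, hτ]
  have hτone : τ 1 = 1 := by
    apply huniq
    intro x y
    rw [← hτ, map_one, Module.End.one_apply, Module.End.one_apply]
  have hτmul : ∀ a b, τ (a * b) = τ a * τ b := by
    intro a b
    apply huniq
    intro x y
    rw [← hτ, map_mul, Module.End.mul_apply, hτ, hτ, mul_comm (τ a), map_mul,
      Module.End.mul_apply]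
  let τ' : E →ₐ[F] E := AlgHom.ofLinearMap
    ({ toFun := τ, map_add' := hτadd, map_smul' := hτsmul } : E →ₗ[F] E) hτone hτmul
  have hτ'apply : ∀ e, τ' e = τ e := fun e => rfl
  have hτsq : τ' * τ' = 1 := by
    apply AlgHom.ext_of_adjoin_eq_top hgen
    rintro _ ⟨h, rfl⟩
    change τ (τ (χ h)) = χ h
    rw [hτχ, hτχ, inv_inv]
  haveI : Module.Finite F E := Module.Finite.equiv (evalEquiv ι v₀ hbij).symm
  haveI : Finite E := Module.finite_of_finite F
  obtain ⟨⟨k, hk⟩, hk'⟩ := (FiniteField.bijective_frobeniusAlgHom_pow F E).2 τ'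
  simp only at hk'
  refine ⟨k, hk, ?_, ?_⟩
  · rw [← FiniteField.orderOf_frobeniusAlgHom F E]
    apply orderOf_dvd_of_pow_eq_one
    rw [two_mul, pow_add, hk', hτsq]
  · intro h
    have h1 : τ' (χ h) = χ h ^ (Fintype.card F ^ k) := by
      rw [← hk', AlgHom.coe_pow, FiniteField.coe_frobeniusAlgHom, pow_iterate]
    rw [hτ'apply, hτχ] at h1
    rw [pow_succ, ← h1, ← map_mul, inv_mul_cancel, map_one]

/-- Backward direction: the twisted trace-like form. -/
theorem exists_invariant_form (ρ : Representation F H V)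
    (ι : E →ₐ[F] Module.End F V) (χ : H →* E) (hιχ : ∀ h, ι (χ h) = ρ h) (v₀ : V)
    (hbij : Function.Bijective (fun e => ι e v₀))
    (k : ℕ) (hn : Module.finrank F E = 2 * k)
    (hχ : ∀ h, χ h ^ (Fintype.card F ^ k + 1) = 1) :
    ∃ B : LinearMap.BilinForm F V, B.Nondegenerate ∧
      ∀ h : H, ∀ x y : V, B (ρ h x) (ρ h y) = B x y := by
  classical
  haveI : Module.Finite F E := Module.Finite.equiv (evalEquiv ι v₀ hbij).symm
  haveI : Finite E := Module.finite_of_finite F
  set ψ : V ≃ₗ[F] E := (evalEquiv ι v₀ hbij).symm with hψ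
  have hψ1 : ∀ x, ι (ψ x) v₀ = x := by
    intro x
    rw [← evalEquiv_apply ι v₀ hbij, hψ, LinearEquiv.apply_symm_apply]
  have hψρ : ∀ h x, ψ (ρ h x) = χ h * ψ x := by
    intro h x
    apply hbij.1
    change ι (ψ (ρ h x)) v₀ = ι (χ h * ψ x) v₀
    rw [hψ1, map_mul, Module.End.mul_apply, hψ1, hιχ]
  set σ : E →ₐ[F] E := FiniteField.frobeniusAlgHom F E ^ k with hσ
  have hσapply : ∀ e, σ e = e ^ (Fintype.card F ^ k) := by
    intro e
    rw [hσ, AlgHom.coe_pow, FiniteField.coe_frobeniusAlgHom, pow_iterate]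
  have hσσ : ∀ e, σ (σ e) = e := by
    intro e
    have h1 : σ * σ = 1 := by
      rw [hσ, ← pow_add, ← two_mul, ← hn, ← FiniteField.orderOf_frobeniusAlgHom F E,
        pow_orderOf_eq_one]
    have h2 := congrArg (fun f : E →ₐ[F] E => f e) h1
    simpa using h2
  obtain ⟨lam, hlam⟩ : ∃ lam : Module.Dual F E, lam 1 ≠ 0 := by
    by_contra hcon
    push_neg at hcon
    exact one_ne_zero ((Module.forall_dual_apply_eq_zero_iff F (1 : E)).mp hcon)
  let B : LinearMap.BilinForm F V := LinearMap.mk₂ F (fun x y => lam (ψ x * σ (ψ y)))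
    (fun x x' y => by simp only [map_add, add_mul])
    (fun c x y => by simp only [map_smul, smul_mul_assoc])
    (fun x y y' => by simp only [map_add, mul_add])
    (fun c x y => by simp only [map_smul, mul_smul_comm])
  have hBapply : ∀ x y, B x y = lam (ψ x * σ (ψ y)) := fun x y => rfl
  refine ⟨B, ⟨?_, ?_⟩, ?_⟩
  · intro x hx
    by_contra hx0
    have hψx : ψ x ≠ 0 := fun h0 => hx0 (by simpa using h0)
    have h1 := hx (ψ.symm (σ ((ψ x)⁻¹)))
    rw [hBapply, LinearEquiv.apply_symm_apply, hσσ, mul_inv_cancel₀ hψx] at h1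
    exact hlam h1
  · intro y hy
    by_contra hy0
    have hψy : ψ y ≠ 0 := fun h0 => hy0 (by simpa using h0)
    have hσy : σ (ψ y) ≠ 0 := by
      intro h0
      apply hψy
      rw [← hσσ (ψ y), h0, map_zero]
    have h1 := hy (ψ.symm ((σ (ψ y))⁻¹))
    rw [hBapply, LinearEquiv.apply_symm_apply, inv_mul_cancel₀ hσy] at h1
    exact hlam h1
  · intro h x y
    rw [hBapply, hBapply, hψρ, hψρ, map_mul σ, hσapply (χ h)]
    have h1 : χ h * ψ x * (χ h ^ (Fintype.card F ^ k) * σ (ψ y)) =
        χ h ^ (Fintype.card F ^ k + 1) * (ψ x * σ (ψ y)) := by ring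
    rw [h1, hχ, one_mul]

end selfdual

end Cfsg.Agent.Helper82
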