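import Mathlib
import Cfsg.Prelude.Def_Characters
import Cfsg.Prelude.Def_Blocks
import Cfsg.Agent.Helper79.ItoMichler
import Cfsg.Agent.Helper79.Basic
import Cfsg.Agent.Helper79.Quotient
import Cfsg.Agent.Helper15.CharInner
import Cfsg.Agent.Helper80.CharOrtho
import Cfsg.Agent.Helper81.CharBasic
import Cfsg.Agent.Helper81.KleinFour
import Cfsg.Agent.Helper81.Blocks

/-!
# Groups all of whose irreducible character degrees are less than `p` (helper82)

* `BDegLt p G`: every irreducible character of `G` has degree `< p`; inherited by quotients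
  (`bDeg_quotient`) and subgroups (`bDeg_subgroup`).
* `bDeg_normal_sylow`: then the Sylow `p`-subgroups are normal.
* `bDeg_final`: and abelian.

Proof: by induction the Sylow `p`-subgroup `P` is abelian and T.I.; with `N = N_G(P)` and
`m_χ = [χ_N, 1_N]` one has `∑ m_χ χ(1) = [G:N]` and `|P| (∑ m_χ² - 1) ≤ [G:N] - 1`, which with
`χ(1) ≤ |P| - 1` forces `G = N`.
-/

set_option autoImplicit false

namespace Cfsg.Agent.Helper82

universe u

/-- Every irreducible character has degree less than `p`. -/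
def BDegLt (p : ℕ) (G : Type*) [Group G] : Prop :=
  ∀ χ : G → ℂ, Cfsg.IsIrrCharacter G χ → Cfsg.charDegree χ < p

theorem bDeg_quotient {p : ℕ} {G : Type*} [Group G] (h : BDegLt p G) (N : Subgroup G)
    [N.Normal] : BDegLt p (G ⧸ N) := by
  intro χ hχ
  have h1 := Helper79.isIrrCharacter_comp (QuotientGroup.mk' N) (QuotientGroup.mk'_surjective N) hχ
  have h2 := h _ h1
  have h3 : Cfsg.charDegree (fun x : G => χ (QuotientGroup.mk' N x)) = Cfsg.charDegree χ := by
    unfold Cfsg.charDegree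
    simp
  rwa [h3] at h2

theorem bDeg_subgroup {p : ℕ} {G : Type*} [Group G] [Finite G] (h : BDegLt p G)
    (H : Subgroup G) : BDegLt p H := by
  classical
  intro θ hθ
  have hFG : Fintype G := Fintype.ofFinite G
  have hFH : Fintype H := Fintype.ofFinite H
  have hFI : Fintype (Cfsg.IrrCharacter H) := Fintype.ofFinite _
  obtain ⟨χ, hχ, hne⟩ := Helper79.exists_irr_over_normal H hθ
  have hχc : Cfsg.IsCharacter G χ := Helper15.isChar_of_irr hχ
  have hχH : Cfsg.IsCharacter H (fun n : H => χ n) := Helper79.isCharacter_restrict hχc H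
  have hdec := Helper15.classFun_eq_sum (Helper15.isClassFunction_of_isChar hχH)
  have hnat : ∀ ψ : Cfsg.IrrCharacter H, ∃ n : ℕ,
      Cfsg.classInner (fun n : H => χ n) (ψ : H → ℂ) = n := fun ψ =>
    Helper15.inner_nat hχH (Helper15.isChar_of_irr ψ.2)
  choose m hm using hnat
  have h1 : χ 1 = ∑ ψ : Cfsg.IrrCharacter H, (m ψ : ℂ) * (ψ : H → ℂ) 1 := by
    have h0 := congrFun hdec 1
    simp only [Finset.sum_apply, Pi.smul_apply, smul_eq_mul, hm] at h0
    exact h0
  have h2 : (Cfsg.charDegree χ : ℂ) = ((∑ ψ : Cfsg.IrrCharacter H,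
      m ψ * Cfsg.charDegree (ψ : H → ℂ) : ℕ) : ℂ) := by
    rw [← Helper79.isCharacter_one_eq_charDegree hχc, h1, Nat.cast_sum]
    apply Finset.sum_congr rfl
    intro ψ _
    rw [Helper79.isCharacter_one_eq_charDegree (Helper15.isChar_of_irr ψ.2)]
    push_cast
    ring
  have h3 : Cfsg.charDegree χ = ∑ ψ : Cfsg.IrrCharacter H,
      m ψ * Cfsg.charDegree (ψ : H → ℂ) := by exact_mod_cast h2
  obtain ⟨θ', hθ'⟩ : ∃ θ' : Cfsg.IrrCharacter H, (θ' : H → ℂ) = θ := ⟨⟨θ, hθ⟩, rfl⟩
  have hmθ : m θ' ≠ 0 := by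
    intro h0
    apply hne
    rw [← hθ', hm θ', h0]
    simp
  have h4 : Cfsg.charDegree θ ≤ Cfsg.charDegree χ := by
    rw [h3, ← hθ']
    calc Cfsg.charDegree (θ' : H → ℂ) ≤ m θ' * Cfsg.charDegree (θ' : H → ℂ) :=
          Nat.le_mul_of_pos_left _ (Nat.pos_of_ne_zero hmθ)
      _ ≤ _ := Finset.single_le_sum
          (f := fun ψ : Cfsg.IrrCharacter H => m ψ * Cfsg.charDegree (ψ : H → ℂ))
          (fun _ _ => Nat.zero_le _) (Finset.mem_univ θ')
  exact lt_of_le_of_lt h4 (h χ hχ)

/-- Under `BDegLt p G` the Sylow `p`-subgroups are abelian. -/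
theorem bDeg_sylow_comm {p : ℕ} [Fact p.Prime] {G : Type u} [Group G] [Finite G]
    (h : BDegLt p G) (Q : Sylow p G) : ∀ a b : (Q : Subgroup G), a * b = b * a := by
  have hPP : Helper79.PPrimeDeg p (Q : Subgroup G) := by
    intro θ hθ hdvd
    have h1 := bDeg_subgroup h (Q : Subgroup G) θ hθ
    have h2 : 0 < Cfsg.charDegree θ := Helper81.charDegree_pos ⟨θ, hθ⟩
    exact absurd (Nat.le_of_dvd h2 hdvd) (not_le.mpr h1)
  exact Helper79.comm_of_isPGroup_of_pPrimeDeg Q.isPGroup' hPP

/-- Under the induction hypothesis, a non-normal Sylow `p`-subgroup is T.I. -/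
theorem bDeg_ti {p : ℕ} [Fact p.Prime] {G : Type u} [Group G] [Finite G]
    (ih : ∀ (H : Type u) [Group H] [Finite H], Nat.card H < Nat.card G → BDegLt p H →
      ∀ Q : Sylow p H, (Q : Subgroup H).Normal)
    (hdeg : BDegLt p G) (P : Sylow p G) (hPn : ¬ (P : Subgroup G).Normal)
    {g : G} (hg : g ∉ Subgroup.normalizer ((P : Subgroup G) : Set G)) {x : G}
    (hx : x ∈ (P : Subgroup G)) (hgx : g * x * g⁻¹ ∈ (P : Subgroup G)) : x = 1 := by
  classical
  by_contra hx1
  have hab := bDeg_sylow_comm hdeg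
  obtain ⟨Q, hQ⟩ : ∃ Q : Sylow p G, Q = g⁻¹ • P := ⟨_, rfl⟩
  have hxQ : x ∈ (Q : Subgroup G) := by
    rw [hQ, Sylow.coe_subgroup_smul, Subgroup.mem_pointwise_smul_iff_inv_smul_mem]
    have e : (MulAut.conj g⁻¹)⁻¹ • x = g * x * g⁻¹ := by
      rw [← map_inv, inv_inv, MulAut.smul_def, MulAut.conj_apply]
    rw [e]
    exact hgx
  obtain ⟨D, hD⟩ : ∃ D : Subgroup G, D = (P : Subgroup G) ⊓ (Q : Subgroup G) := ⟨_, rfl⟩
  have hxD : x ∈ D := by rw [hD]; exact ⟨hx, hxQ⟩
  have hDbot : D ≠ ⊥ := by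
    intro h
    rw [h, Subgroup.mem_bot] at hxD
    exact hx1 hxD
  have hDP : D ≤ (P : Subgroup G) := by rw [hD]; exact inf_le_left
  have hDQ : D ≤ (Q : Subgroup G) := by rw [hD]; exact inf_le_right
  have hDp : IsPGroup p D := P.isPGroup'.to_le hDP
  have hcent : ∀ R : Sylow p G, D ≤ (R : Subgroup G) →
      (R : Subgroup G) ≤ Subgroup.normalizer (D : Set G) := by
    intro R hDR y hy
    apply Subgroup.centralizer_le_normalizer
    rw [Subgroup.mem_centralizer_iff]
    intro d hd
    have h1 := hab R ⟨d, hDR hd⟩ ⟨y, hy⟩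
    exact congrArg Subtype.val h1
  have hPH := hcent P hDP
  have hQH := hcent Q hDQ
  by_cases hH : Subgroup.normalizer (D : Set G) = ⊤
  · have hDn : D.Normal := Subgroup.normalizer_eq_top_iff.mp hH
    have hlt : Nat.card (G ⧸ D) < Nat.card G := Helper79.card_quotient_lt D hDbot
    obtain ⟨P'⟩ : Nonempty (Sylow p (G ⧸ D)) := inferInstance
    have hP'n := ih (G ⧸ D) hlt (bDeg_quotient hdeg D) P'
    have hSn : ((P' : Subgroup (G ⧸ D)).comap (QuotientGroup.mk' D)).Normal := hP'n.comap _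
    have hSp : IsPGroup p ((P' : Subgroup (G ⧸ D)).comap (QuotientGroup.mk' D)) :=
      P'.isPGroup'.comap_of_ker_isPGroup _ (by rw [QuotientGroup.ker_mk']; exact hDp)
    have hSi : ¬ p ∣ ((P' : Subgroup (G ⧸ D)).comap (QuotientGroup.mk' D)).index := by
      rw [Subgroup.index_comap_of_surjective _ (QuotientGroup.mk'_surjective _)]
      exact P'.not_dvd_index
    have h1 := Helper79.sylow_coe_eq_of_normal P _ hSn hSp hSi
    exact hPn (h1 ▸ hSn)
  · obtain ⟨H, hHdef⟩ : ∃ H : Subgroup G, H = Subgroup.normalizer (D : Set G) := ⟨_, rfl⟩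
    rw [← hHdef] at hH hPH hQH
    have hlt : Nat.card H < Nat.card G :=
      lt_of_le_of_ne (Subgroup.card_le_card_group H) (fun h => hH (Subgroup.eq_top_of_card_eq H h))
    obtain ⟨R⟩ : Nonempty (Sylow p H) := inferInstance
    have hRn := ih H hlt (bDeg_subgroup hdeg H) R
    have hle : ∀ S : Sylow p G, (S : Subgroup G) ≤ H →
        (R : Subgroup H).map H.subtype = (S : Subgroup G) := by
      intro S hS
      have h1 : IsPGroup p ((S : Subgroup G).subgroupOf H) :=
        S.isPGroup'.comap_of_injective H.subtype H.subtype_injective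
      obtain ⟨R', hR'⟩ := h1.exists_le_sylow
      have hu := Sylow.unique_of_normal R hRn
      have hRR : R' = R := Subsingleton.elim _ _
      rw [hRR] at hR'
      apply S.is_maximal' (R.isPGroup'.map H.subtype)
      intro y hy
      exact ⟨⟨y, hS hy⟩, hR' (Subgroup.mem_subgroupOf.mpr hy), rfl⟩
    have hPQ : (P : Subgroup G) = (Q : Subgroup G) := (hle P hPH).symm.trans (hle Q hQH)
    have hPQ' : Q = P := Sylow.ext hPQ.symm
    rw [hQ, Sylow.smul_eq_iff_mem_normalizer] at hPQ'
    exact hg (by simpa using Subgroup.inv_mem _ hPQ')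

/-- The counting argument: a T.I. Sylow `p`-subgroup is normal when all irreducible character
degrees are less than `p`. -/
theorem bDeg_count {p : ℕ} [Fact p.Prime] {G : Type u} [Group G] [Finite G]
    (hdeg : BDegLt p G) (P : Sylow p G)
    (hTI : ∀ g : G, g ∉ Subgroup.normalizer ((P : Subgroup G) : Set G) →
      ∀ x ∈ (P : Subgroup G), g * x * g⁻¹ ∈ (P : Subgroup G) → x = 1) :
    (P : Subgroup G).Normal := by
  classical
  have hp : p.Prime := Fact.out
  have hFG : Fintype G := Fintype.ofFinite G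
  have hFI : Fintype (Cfsg.IrrCharacter G) := Fintype.ofFinite _
  obtain ⟨N, hN⟩ : ∃ N : Subgroup G, N = Subgroup.normalizer ((P : Subgroup G) : Set G) :=
    ⟨_, rfl⟩
  have hFN : Fintype N := Fintype.ofFinite N
  rw [← hN] at hTI
  have hPN : (P : Subgroup G) ≤ N := by rw [hN]; exact Subgroup.le_normalizer
  have hmex : ∀ χ : Cfsg.IrrCharacter G, ∃ m : ℕ,
      ∑ x : N, (χ : G → ℂ) x = (Nat.card N : ℂ) * m := fun χ =>
    Helper81.exists_nat_sum_subgroup χ N
  choose m hm using hmex
  obtain ⟨a, ha⟩ : ∃ a : ℕ, a = Nat.card (P : Subgroup G) := ⟨_, rfl⟩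
  obtain ⟨n, hn⟩ : ∃ n : ℕ, n = Nat.card N := ⟨_, rfl⟩
  have hn0 : 0 < n := by rw [hn]; exact Nat.card_pos
  have hnC : (n : ℂ) ≠ 0 := by exact_mod_cast hn0.ne'
  -- (i) degrees
  have hi : n * ∑ χ : Cfsg.IrrCharacter G, m χ * Cfsg.charDegree (χ : G → ℂ) = Nat.card G := by
    have h1 : ∑ χ : Cfsg.IrrCharacter G, (χ : G → ℂ) 1 * ∑ x : N, (χ : G → ℂ) x
        = (Nat.card G : ℂ) := by
      simp only [Finset.mul_sum]
      rw [Finset.sum_comm]
      have h0 : ∀ x : N, ∑ χ : Cfsg.IrrCharacter G, (χ : G → ℂ) 1 * (χ : G → ℂ) x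
          = if (x : G) = 1 then (Nat.card G : ℂ) else 0 := fun x =>
        Helper81.sum_irr_one_mul (x : G)
      rw [Finset.sum_congr rfl (fun x _ => h0 x), Finset.sum_eq_single (1 : N)]
      · simp
      · intro x _ hx
        rw [if_neg]
        intro h
        exact hx (Subtype.ext h)
      · intro h
        exact absurd (Finset.mem_univ _) h
    have h2 : ((n * ∑ χ : Cfsg.IrrCharacter G, m χ * Cfsg.charDegree (χ : G → ℂ) : ℕ) : ℂ)
        = (Nat.card G : ℂ) := by
      rw [← h1]
      push_cast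
      rw [Finset.mul_sum]
      apply Finset.sum_congr rfl
      intro χ _
      rw [hm χ, Helper81.irr_one_eq_charDegree, ← hn]
      ring
    exact_mod_cast h2
  -- (ii) squares
  have hii : n ^ 2 * ∑ χ : Cfsg.IrrCharacter G, (m χ) ^ 2
      = ∑ u : G, (Finset.univ.filter (fun x : N => u * (x : G) * u⁻¹ ∈ N)).card := by
    have h1 : ∀ χ : Cfsg.IrrCharacter G, ((n : ℂ) * m χ) * ((n : ℂ) * m χ)
        = ∑ x : N, ∑ y : N, (χ : G → ℂ) x * (χ : G → ℂ) (y : G)⁻¹ := by
      intro χ
      rw [hn, ← hm χ, Finset.sum_mul_sum]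
      apply Finset.sum_congr rfl
      intro x _
      exact (Equiv.sum_comp (Equiv.inv N)
        (fun y : N => (χ : G → ℂ) x * (χ : G → ℂ) (y : G))).symm
    have h2 : ∀ x y : N, ∑ χ : Cfsg.IrrCharacter G, (χ : G → ℂ) x * (χ : G → ℂ) (y : G)⁻¹
        = ∑ u : G, if u * (x : G) * u⁻¹ = (y : G) then (1 : ℂ) else 0 := by
      intro x y
      rw [Helper80.irr_sum_mul_inv (x : G) (y : G), Finset.natCast_card_filter]
    have h4 : ∀ (w : G), ∑ y : N, (if w = (y : G) then (1 : ℂ) else 0)
        = if w ∈ N then (1 : ℂ) else 0 := by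
      intro w
      by_cases hw : w ∈ N
      · rw [if_pos hw, Finset.sum_eq_single (⟨w, hw⟩ : N)]
        · simp
        · intro y _ hy
          rw [if_neg]
          intro h
          exact hy (Subtype.ext h.symm)
        · intro h
          exact absurd (Finset.mem_univ _) h
      · rw [if_neg hw]
        apply Finset.sum_eq_zero
        intro y _
        rw [if_neg]
        intro h
        exact hw (h ▸ y.2)
    have h3 : ((n ^ 2 * ∑ χ : Cfsg.IrrCharacter G, (m χ) ^ 2 : ℕ) : ℂ)
        = ((∑ u : G, (Finset.univ.filter (fun x : N => u * (x : G) * u⁻¹ ∈ N)).card : ℕ) : ℂ) := by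
      push_cast
      rw [Finset.mul_sum]
      calc ∑ χ : Cfsg.IrrCharacter G, (n : ℂ) ^ 2 * (m χ : ℂ) ^ 2
          = ∑ χ : Cfsg.IrrCharacter G, ∑ x : N, ∑ y : N,
              (χ : G → ℂ) x * (χ : G → ℂ) (y : G)⁻¹ := by
            apply Finset.sum_congr rfl
            intro χ _
            rw [← h1 χ]
            ring
        _ = ∑ x : N, ∑ y : N, ∑ χ : Cfsg.IrrCharacter G,
              (χ : G → ℂ) x * (χ : G → ℂ) (y : G)⁻¹ := by
            rw [Finset.sum_comm]
            apply Finset.sum_congr rfl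
            intro x _
            rw [Finset.sum_comm]
        _ = ∑ x : N, ∑ y : N, ∑ u : G,
              if u * (x : G) * u⁻¹ = (y : G) then (1 : ℂ) else 0 := by
            apply Finset.sum_congr rfl
            intro x _
            apply Finset.sum_congr rfl
            intro y _
            exact h2 x y
        _ = ∑ x : N, ∑ u : G, if u * (x : G) * u⁻¹ ∈ N then (1 : ℂ) else 0 := by
            apply Finset.sum_congr rfl
            intro x _
            rw [Finset.sum_comm]
            apply Finset.sum_congr rfl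
            intro u _
            exact h4 _
        _ = ∑ u : G, ∑ x : N, if u * (x : G) * u⁻¹ ∈ N then (1 : ℂ) else 0 := Finset.sum_comm
        _ = ∑ u : G, ((Finset.univ.filter (fun x : N => u * (x : G) * u⁻¹ ∈ N)).card : ℂ) := by
            apply Finset.sum_congr rfl
            intro u _
            rw [Finset.natCast_card_filter]
    exact_mod_cast h3
  -- the counts `c(u)`
  have hcN : ∀ u : G, u ∈ N →
      (Finset.univ.filter (fun x : N => u * (x : G) * u⁻¹ ∈ N)).card = n := by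
    intro u hu
    rw [Finset.filter_true_of_mem, Finset.card_univ, hn, Nat.card_eq_fintype_card]
    intro x _
    exact N.mul_mem (N.mul_mem hu x.2) (N.inv_mem hu)
  have hcO : ∀ u : G, u ∉ N →
      a * (Finset.univ.filter (fun x : N => u * (x : G) * u⁻¹ ∈ N)).card ≤ n := by
    intro u hu
    obtain ⟨K, hK⟩ : ∃ K : Subgroup G, K = N ⊓ N.comap (MulAut.conj u).toMonoidHom := ⟨_, rfl⟩
    have hmemK : ∀ x : G, x ∈ K ↔ x ∈ N ∧ u * x * u⁻¹ ∈ N := by
      intro x
      rw [hK, Subgroup.mem_inf, Subgroup.mem_comap]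
      rfl
    have hcardK : (Finset.univ.filter (fun x : N => u * (x : G) * u⁻¹ ∈ N)).card
        = Nat.card K := by
      rw [← Fintype.card_subtype, ← Nat.card_eq_fintype_card]
      exact Nat.card_congr
        { toFun := fun x => ⟨x.1.1, (hmemK _).mpr ⟨x.1.2, x.2⟩⟩
          invFun := fun k => ⟨⟨k.1, ((hmemK _).mp k.2).1⟩, ((hmemK _).mp k.2).2⟩
          left_inv := fun x => rfl
          right_inv := fun k => rfl }
    have hKp : ¬ p ∣ Nat.card K := by
      intro hdvd
      obtain ⟨k, hk⟩ := exists_prime_orderOf_dvd_card' p hdvd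
      have hkG : orderOf (k : G) = p := by rw [Subgroup.orderOf_coe, hk]
      have hkm := (hmemK _).mp k.2
      have hpel : ∀ y : G, orderOf y = p → y ∈ N → y ∈ (P : Subgroup G) := by
        intro y hy hyN
        have hz : IsPGroup p (Subgroup.zpowers y) := by
          apply IsPGroup.of_card (n := 1)
          rw [Nat.card_zpowers, hy, pow_one]
        have h1 := hz.inf_normalizer_sylow P
        have h2 : y ∈ Subgroup.zpowers y ⊓ Subgroup.normalizer ((P : Subgroup G) : Set G) :=
          ⟨Subgroup.mem_zpowers y, hN ▸ hyN⟩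
        have h3 : y ∈ Subgroup.zpowers y ⊓ (P : Subgroup G) := by
          rw [← h1]
          exact h2
        exact h3.2
      have h1 := hpel _ hkG hkm.1
      have ho := (MulAut.conj u).orderOf_eq (k : G)
      rw [MulAut.conj_apply] at ho
      have h2 := hpel _ (ho.trans hkG) hkm.2
      have h3 := hTI u hu _ h1 h2
      rw [h3, orderOf_one] at hkG
      exact hp.one_lt.ne hkG
    have hKN : Nat.card K ∣ Nat.card N :=
      Subgroup.card_dvd_of_le (by rw [hK]; exact inf_le_left)
    have hPNd : Nat.card (P : Subgroup G) ∣ Nat.card N := Subgroup.card_dvd_of_le hPN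
    have hcop : Nat.Coprime (Nat.card (P : Subgroup G)) (Nat.card K) := by
      obtain ⟨e, he⟩ := IsPGroup.iff_card.mp P.isPGroup'
      rw [he]
      exact Nat.Coprime.pow_left e ((Nat.Prime.coprime_iff_not_dvd hp).mpr hKp)
    have h5 := Nat.Coprime.mul_dvd_of_dvd_of_dvd hcop hPNd hKN
    rw [hcardK, ha, hn]
    exact Nat.le_of_dvd Nat.card_pos h5
  -- `P = ⊥` is trivial
  by_cases hPbot : (P : Subgroup G) = ⊥
  · rw [hPbot]
    infer_instance
  have hap : p ≤ a := by
    obtain ⟨e, he⟩ := IsPGroup.iff_card.mp P.isPGroup'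
    have he0 : e ≠ 0 := by
      intro h0
      rw [h0, pow_zero] at he
      exact hPbot ((Subgroup.card_eq_one).mp he)
    rw [ha, he]
    exact Nat.le_self_pow he0 p
  -- the trivial character
  have hm1 : m (Helper81.trivIrr G) = 1 := by
    have h := hm (Helper81.trivIrr G)
    simp only [Helper81.trivIrr_apply, Finset.sum_const, Finset.card_univ, nsmul_eq_mul,
      mul_one] at h
    rw [← Nat.card_eq_fintype_card, ← hn] at h
    have h' : (n : ℂ) * 1 = (n : ℂ) * (m (Helper81.trivIrr G) : ℂ) := by rw [mul_one]; exact h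
    have h'' := mul_left_cancel₀ hnC h'
    exact_mod_cast h''.symm
  have hd1 : Cfsg.charDegree ((Helper81.trivIrr G : Cfsg.IrrCharacter G) : G → ℂ) = 1 := by
    have h := Helper81.irr_one_eq_charDegree (Helper81.trivIrr G)
    rw [Helper81.trivIrr_apply] at h
    exact_mod_cast h.symm
  obtain ⟨b, hb⟩ : ∃ b : ℕ, a = b + 1 := ⟨a - 1, by have := hp.pos; omega⟩
  have hdb : ∀ χ : Cfsg.IrrCharacter G, Cfsg.charDegree (χ : G → ℂ) ≤ b := by
    intro χ
    have := hdeg χ χ.2
    omega
  obtain ⟨U, hU⟩ : ∃ U : ℕ, U = ∑ χ ∈ Finset.univ.erase (Helper81.trivIrr G),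
      m χ * Cfsg.charDegree (χ : G → ℂ) := ⟨_, rfl⟩
  obtain ⟨T, hT⟩ : ∃ T : ℕ, T = ∑ χ ∈ Finset.univ.erase (Helper81.trivIrr G), (m χ) ^ 2 :=
    ⟨_, rfl⟩
  have hS1 : ∑ χ : Cfsg.IrrCharacter G, m χ * Cfsg.charDegree (χ : G → ℂ) = 1 + U := by
    rw [hU, ← Finset.add_sum_erase Finset.univ _ (Finset.mem_univ (Helper81.trivIrr G)), hm1, hd1]
  have hS2 : ∑ χ : Cfsg.IrrCharacter G, (m χ) ^ 2 = 1 + T := by
    rw [hT, ← Finset.add_sum_erase Finset.univ _ (Finset.mem_univ (Helper81.trivIrr G)), hm1,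
      one_pow]
  have hUT : U ≤ b * T := by
    rw [hU, hT, Finset.mul_sum]
    apply Finset.sum_le_sum
    intro χ _
    calc m χ * Cfsg.charDegree (χ : G → ℂ) ≤ m χ * b := Nat.mul_le_mul_left _ (hdb χ)
      _ ≤ m χ ^ 2 * b := Nat.mul_le_mul_right _ (Nat.le_self_pow (by norm_num) _)
      _ = b * m χ ^ 2 := Nat.mul_comm _ _
  -- split the sum over `u`
  obtain ⟨X, hX⟩ : ∃ X : ℕ, X = ∑ u ∈ Finset.univ.filter (fun u : G => ¬ u ∈ N),
      (Finset.univ.filter (fun x : N => u * (x : G) * u⁻¹ ∈ N)).card := ⟨_, rfl⟩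
  obtain ⟨cO, hcOdef⟩ : ∃ cO : ℕ, cO = (Finset.univ.filter (fun u : G => ¬ u ∈ N)).card :=
    ⟨_, rfl⟩
  have hcardN : (Finset.univ.filter (fun u : G => u ∈ N)).card = n := by
    rw [hn, Nat.card_eq_fintype_card, ← Fintype.card_subtype]
  have hsplit : ∑ u : G, (Finset.univ.filter (fun x : N => u * (x : G) * u⁻¹ ∈ N)).card
      = n * n + X := by
    rw [← Finset.sum_filter_add_sum_filter_not Finset.univ (fun u : G => u ∈ N), ← hX]
    congr 1
    rw [Finset.sum_congr rfl (fun u hu => hcN u (Finset.mem_filter.mp hu).2), Finset.sum_const,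
      hcardN, smul_eq_mul]
  have hXle : a * X ≤ cO * n := by
    rw [hX, hcOdef, Finset.mul_sum, ← smul_eq_mul, ← Finset.sum_const]
    apply Finset.sum_le_sum
    intro u hu
    exact hcO u (Finset.mem_filter.mp hu).2
  have hcards : n + cO = Nat.card G := by
    rw [← hcardN, hcOdef, Finset.card_filter_add_card_filter_not, Finset.card_univ,
      Nat.card_eq_fintype_card]
  -- arithmetic
  rw [hS1] at hi
  rw [hS2, hsplit] at hii
  have hcOU : cO = n * U := by
    have : n + cO = n * (1 + U) := by rw [hcards, hi]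
    rw [Nat.mul_add, mul_one] at this
    omega
  have hkey : n ^ 2 * (a * T) ≤ n ^ 2 * U := by
    have h1 : a * (n ^ 2 * (1 + T)) = a * (n * n + X) := by rw [hii]
    have h2 : a * X ≤ n * U * n := by rw [← hcOU]; exact hXle
    nlinarith
  have hkey' : a * T ≤ U := Nat.le_of_mul_le_mul_left hkey (by positivity)
  have hT0 : T = 0 := by
    rw [hb] at hkey'
    have : (b + 1) * T = b * T + T := by ring
    omega
  have hU0 : U = 0 := by
    rw [hT0] at hUT
    simpa using hUT
  have hGN : Nat.card G = Nat.card N := by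
    rw [← hi, hU0, ← hn]
    ring
  have htop : N = ⊤ := Subgroup.eq_top_of_card_eq N hGN.symm
  rw [hN] at htop
  exact Subgroup.normalizer_eq_top_iff.mp htop

/-- If all irreducible character degrees of `G` are less than `p`, the Sylow `p`-subgroups are
normal. -/
theorem bDeg_normal_sylow (p : ℕ) [Fact p.Prime] :
    ∀ (n : ℕ) (G : Type u) [Group G] [Finite G], Nat.card G = n → BDegLt p G →
      ∀ P : Sylow p G, (P : Subgroup G).Normal := by
  intro n
  induction n using Nat.strong_induction_on with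
  | _ n ih =>
    intro G _ _ hn hdeg P
    by_contra hPn
    have ih' : ∀ (H : Type u) [Group H] [Finite H], Nat.card H < Nat.card G → BDegLt p H →
        ∀ Q : Sylow p H, (Q : Subgroup H).Normal := by
      intro H _ _ hlt hH Q
      exact ih (Nat.card H) (hn ▸ hlt) H rfl hH Q
    exact hPn (bDeg_count hdeg P (fun g hg x hx hgx => bDeg_ti ih' hdeg P hPn hg hx hgx))

/-- `S4464`: if all irreducible character degrees of `G` are less than the prime `p`, then `G`
has a normal abelian Sylow `p`-subgroup. -/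
theorem bDeg_final {G : Type u} [Group G] [Finite G] (p : ℕ) (hp : p.Prime)
    (hb : ∀ χ : Cfsg.IrrCharacter G, Cfsg.charDegree (χ : G → ℂ) < p) :
    ∃ P : Subgroup G, P.Normal ∧ (∀ x ∈ P, ∀ y ∈ P, x * y = y * x) ∧ IsPGroup p P ∧
      ¬ p ∣ P.index := by
  have hf : Fact p.Prime := ⟨hp⟩
  have hdeg : BDegLt p G := fun χ hχ => hb ⟨χ, hχ⟩
  obtain ⟨P⟩ : Nonempty (Sylow p G) := inferInstance
  refine ⟨(P : Subgroup G), bDeg_normal_sylow p (Nat.card G) G rfl hdeg P, ?_, P.isPGroup',
    P.not_dvd_index⟩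
  intro x hx y hy
  exact congrArg Subtype.val (bDeg_sylow_comm hdeg P ⟨x, hx⟩ ⟨y, hy⟩)

end Cfsg.Agent.Helper82
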