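import Mathlib

/-!
# CALL C3O, piece POLY1 (helper82): over a finite field of odd order, every element of the field
is a square modulo an irreducible polynomial of even degree
-/

set_option autoImplicit false

namespace Cfsg.Agent.Helper82

open Matrix Module Polynomial

universe u

/-- PIECE POLY1 -/
theorem c3o_poly1 {F : Type*} [Field F] [Fintype F] (hodd : Odd (Fintype.card F)) (P : F[X])
    (hP : Irreducible P) (hdeg : Even P.natDegree) (n : F) : ∃ f : F[X], P ∣ f ^ 2 - C n := by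
  classical
  by_cases hn : n = 0
  · exact ⟨0, by simp [hn]⟩
  have : Fact (Irreducible P) := ⟨hP⟩
  have hP0 : P ≠ 0 := hP.ne_zero
  have : Module.Finite F (AdjoinRoot P) := (AdjoinRoot.powerBasis hP0).finite
  have : Finite (AdjoinRoot P) := Module.finite_of_finite F
  let _ : Fintype (AdjoinRoot P) := Fintype.ofFinite _
  have hfin : Module.finrank F (AdjoinRoot P) = P.natDegree := by
    rw [(AdjoinRoot.powerBasis hP0).finrank, AdjoinRoot.powerBasis_dim]
  have hcardK : Fintype.card (AdjoinRoot P) = Fintype.card F ^ P.natDegree := by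
    rw [← hfin]; exact Module.card_eq_pow_finrank
  obtain ⟨m, hm⟩ := hdeg
  obtain ⟨q, hq⟩ : ∃ q : ℕ, q = Fintype.card F := ⟨_, rfl⟩
  rw [← hq] at hcardK hodd
  have hNodd : Odd (q ^ (m + m)) := hodd.pow
  have hchar : ringChar (AdjoinRoot P) ≠ 2 := by
    intro h2
    have h3 := (FiniteField.even_card_iff_char_two (F := AdjoinRoot P)).mp h2
    rw [hcardK, hm] at h3
    have h4 := Nat.odd_iff.mp hNodd
    omega
  have hexp : ∃ t, q ^ (m + m) / 2 = (q - 1) * t := by
    obtain ⟨a, ha⟩ : (q - 1) ∣ q ^ m - 1 := Nat.sub_one_dvd_pow_sub_one q m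
    obtain ⟨c, hc⟩ : 2 ∣ q ^ m + 1 := by
      have h5 : Odd (q ^ m) := hodd.pow
      exact (h5.add_odd odd_one).two_dvd
    refine ⟨a * c, ?_⟩
    have h1 : 1 ≤ q ^ m := Nat.one_le_pow _ _ (by rw [hq]; exact Fintype.card_pos)
    obtain ⟨k, hk⟩ : ∃ k, q ^ m = k + 1 := ⟨q ^ m - 1, by omega⟩
    have hk1 : q ^ m - 1 = k := by omega
    rw [hk1] at ha
    have h2 : q ^ (m + m) = 2 * ((q - 1) * (a * c)) + 1 := by
      rw [pow_add, hk]
      have h6 : (k + 1) * (k + 1) = k * (k + 1 + 1) + 1 := by ring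
      rw [h6, ← hk, hc, ha]
      ring
    rw [h2]
    omega
  obtain ⟨t, ht⟩ := hexp
  have hn' : (AdjoinRoot.of P n) ≠ 0 := by
    intro h0
    apply hn
    exact (AdjoinRoot.of P).injective (by rw [h0, map_zero])
  have hsq : IsSquare (AdjoinRoot.of P n) := by
    rw [FiniteField.isSquare_iff hchar hn', hcardK, hm, ht, ← map_pow, pow_mul, hq,
      FiniteField.pow_card_sub_one_eq_one n hn, one_pow, map_one]
  obtain ⟨y, hy⟩ := hsq
  obtain ⟨f, rfl⟩ := AdjoinRoot.mk_surjective y
  refine ⟨f, ?_⟩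
  rw [← AdjoinRoot.mk_eq_zero, map_sub, map_pow, AdjoinRoot.mk_C, hy]
  ring

end Cfsg.Agent.Helper82
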