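import Mathlib

/-!
# CALL C3O, piece POLYCRT (helper82): gluing square roots of `n` modulo pairwise coprime
polynomials
-/

set_option autoImplicit false

namespace Cfsg.Agent.Helper82

open Matrix Module Polynomial

universe u

/-- PIECE POLYCRT -/
theorem c3o_polycrt {F : Type*} [Field F] (s : Finset F[X])
    (hs : ∀ P ∈ s, ∀ P' ∈ s, P ≠ P' → IsCoprime P P') (n : F)
    (h : ∀ P ∈ s, ∃ f : F[X], P ∣ f ^ 2 - C n) : ∃ f : F[X], (∏ P ∈ s, P) ∣ f ^ 2 - C n := by
  classical
  induction s using Finset.induction_on with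
  | empty => exact ⟨0, by simp⟩
  | insert P s hPs ih =>
    obtain ⟨f', hf'⟩ := ih (fun A hA A' hA' hne =>
        hs A (Finset.mem_insert_of_mem hA) A' (Finset.mem_insert_of_mem hA') hne)
      (fun A hA => h A (Finset.mem_insert_of_mem hA))
    obtain ⟨fP, hfP⟩ := h P (Finset.mem_insert_self P s)
    have hcop : IsCoprime P (∏ A ∈ s, A) := by
      apply IsCoprime.prod_right
      intro A hA
      exact hs P (Finset.mem_insert_self P s) A (Finset.mem_insert_of_mem hA)
        (fun heq => hPs (heq ▸ hA))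
    have hcop' := hcop
    obtain ⟨a, b, hab⟩ := hcop'
    refine ⟨fP + P * (a * (f' - fP)), ?_⟩
    rw [Finset.prod_insert hPs]
    apply hcop.mul_dvd
    · have h1 : (fP + P * (a * (f' - fP))) ^ 2 - C n
          = (fP ^ 2 - C n) + P * (2 * fP * (a * (f' - fP)) + P * (a * (f' - fP)) ^ 2) := by
        ring
      rw [h1]
      exact dvd_add hfP (dvd_mul_right _ _)
    · have h2 : fP + P * (a * (f' - fP)) = f' + (∏ A ∈ s, A) * (b * (fP - f')) := by
        linear_combination (f' - fP) * hab
      have h1 : (fP + P * (a * (f' - fP))) ^ 2 - C n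
          = (f' ^ 2 - C n) + (∏ A ∈ s, A) * (2 * f' * (b * (fP - f'))
            + (∏ A ∈ s, A) * (b * (fP - f')) ^ 2) := by
        rw [h2]; ring
      rw [h1]
      exact dvd_add hf' (dvd_mul_right _ _)

end Cfsg.Agent.Helper82
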