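import Mathlib

/-!
# CALL C3O, piece ZADJ (helper82): the adjoint of a polynomial in an isometry of finite order
-/

set_option autoImplicit false

namespace Cfsg.Agent.Helper82

open Matrix Module Polynomial

universe u

/-- PIECE ZADJ -/
theorem c3o_zadj {F : Type*} [Field F] {V : Type*} [AddCommGroup V] [Module F V]
    (B : LinearMap.BilinForm F V) (r : ℕ) (hr : 0 < r) (z : V →ₗ[F] V) (hz : z ^ r = 1)
    (hiso : ∀ u v, B (z u) (z v) = B u v) (R : F[X]) (u v : V) :
    B (aeval z R u) v = B u (aeval (z ^ (r - 1)) R v) := by
  have hzz : z * z ^ (r - 1) = 1 := by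
    rw [← pow_succ', Nat.sub_add_cancel hr, hz]
  have hadj1 : ∀ u v : V, B (z u) v = B u ((z ^ (r - 1)) v) := by
    intro u v
    have h1 : v = z ((z ^ (r - 1)) v) := by
      have := congrArg (fun f : V →ₗ[F] V => f v) hzz
      simpa using this.symm
    conv_lhs => rw [h1]
    exact hiso u _
  have hadjk : ∀ (k : ℕ) (u v : V), B ((z ^ k) u) v = B u (((z ^ (r - 1)) ^ k) v) := by
    intro k
    induction k with
    | zero => intro u v; simp
    | succ k ih =>
      intro u v
      rw [pow_succ', pow_succ, Module.End.mul_apply, hadj1, ih, Module.End.mul_apply]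
  induction R using Polynomial.induction_on' generalizing u v with
  | add p q hp hq =>
    rw [map_add, map_add, LinearMap.add_apply, LinearMap.add_apply, map_add, map_add,
      LinearMap.add_apply, hp, hq]
  | monomial n a =>
    rw [aeval_monomial, aeval_monomial, Module.End.mul_apply, Module.End.mul_apply,
      Module.algebraMap_end_apply, Module.algebraMap_end_apply, map_smul, map_smul,
      LinearMap.smul_apply, hadjk]

end Cfsg.Agent.Helper82
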