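import Mathlib

/-!
# The arithmetic of the involution relations for `|N : C| = 3` (helper82)

Three relations between the degrees `F₂, F₃, F₄`, the values `V₂, V₃, V₄` at an involution and the
signs `b₂, b₃, b₄` force exactly two of the signs to be `-1` and `F₂ F₃ F₄` to be a square.
-/

set_option autoImplicit false

namespace Cfsg.Agent.Helper82

/-- One negative sign (at `c`) is impossible unless `u_a = u_b = 0`. -/
theorem excAlg_one_neg (Fa Fb Fc ua ub uc : ℤ) (hFa : 0 < Fa) (hFb : 0 < Fb)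
    (hR1 : 1 + Fa + Fb - Fc = 0) (hE1 : ua + ub - uc = 0)
    (hE2 : ua ^ 2 * Fb * Fc + ub ^ 2 * Fa * Fc - uc ^ 2 * Fa * Fb = 0) : ua = 0 ∧ ub = 0 := by
  have hFc : Fc = 1 + Fa + Fb := by linarith
  have huc : uc = ua + ub := by linarith
  subst hFc huc
  have key : ua ^ 2 * Fb + ub ^ 2 * Fa + (ua * Fb - ub * Fa) ^ 2 = 0 := by
    linear_combination hE2
  have h1 : 0 ≤ ua ^ 2 * Fb := mul_nonneg (sq_nonneg ua) hFb.le
  have h2 : 0 ≤ ub ^ 2 * Fa := mul_nonneg (sq_nonneg ub) hFa.le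
  have h3 : 0 ≤ (ua * Fb - ub * Fa) ^ 2 := sq_nonneg _
  have h4 : ua ^ 2 * Fb = 0 := by linarith
  have h5 : ub ^ 2 * Fa = 0 := by linarith
  constructor
  · rcases mul_eq_zero.mp h4 with h | h
    · exact pow_eq_zero_iff (by norm_num) |>.mp h
    · omega
  · rcases mul_eq_zero.mp h5 with h | h
    · exact pow_eq_zero_iff (by norm_num) |>.mp h
    · omega

/-- Two negative signs (at `a`, `b`): the product of the degrees is a square. -/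
theorem excAlg_two_neg (Fa Fb Fc ua ub uc : ℤ) (hFa : 0 < Fa) (hFb : 0 < Fb)
    (hR1 : 1 - Fa - Fb + Fc = 0) (hE1 : -ua - ub + uc = 0)
    (hE2 : -(ua ^ 2 * Fb * Fc) - ub ^ 2 * Fa * Fc + uc ^ 2 * Fa * Fb = 0)
    (hne : ua ≠ 0 ∨ ub ≠ 0) : IsSquare (Fa * Fb * Fc) := by
  have hFc : Fc = Fa + Fb - 1 := by linarith
  have huc : uc = ua + ub := by linarith
  subst hFc huc
  have key1 : (ua * Fb - ub * Fa) ^ 2 = ua ^ 2 * Fb + ub ^ 2 * Fa := by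
    linear_combination (-1 : ℤ) * hE2
  have key2 : (ua * Fb - ub * Fa) ^ 2 * (Fa + Fb - 1) = (ua + ub) ^ 2 * Fa * Fb := by
    linear_combination (Fa + Fb - 1) * key1 - hE2
  have hw : ua * Fb - ub * Fa ≠ 0 := by
    intro hw
    rw [hw] at key1
    have h1 : 0 ≤ ua ^ 2 * Fb := mul_nonneg (sq_nonneg ua) hFb.le
    have h2 : 0 ≤ ub ^ 2 * Fa := mul_nonneg (sq_nonneg ub) hFa.le
    have h4 : ua ^ 2 * Fb = 0 := by linarith
    have h5 : ub ^ 2 * Fa = 0 := by linarith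
    rcases hne with h | h
    · apply h
      rcases mul_eq_zero.mp h4 with h' | h'
      · exact pow_eq_zero_iff (by norm_num) |>.mp h'
      · omega
    · apply h
      rcases mul_eq_zero.mp h5 with h' | h'
      · exact pow_eq_zero_iff (by norm_num) |>.mp h'
      · omega
  have key3 : Fa * Fb * (Fa + Fb - 1) * (ua * Fb - ub * Fa) ^ 2 = ((ua + ub) * Fa * Fb) ^ 2 := by
    linear_combination Fa * Fb * key2
  have hdvd : (ua * Fb - ub * Fa) ∣ (ua + ub) * Fa * Fb := by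
    rw [← Int.pow_dvd_pow_iff (n := 2) (by norm_num)]
    exact Dvd.intro_left _ key3
  obtain ⟨k, hk⟩ := hdvd
  refine ⟨k, ?_⟩
  have hw2 : (ua * Fb - ub * Fa) ^ 2 ≠ 0 := pow_ne_zero 2 hw
  apply mul_right_cancel₀ hw2
  rw [key3, hk]
  ring

/-- The arithmetic lemma: exactly two of the three signs are `-1` and the product of the degrees
is a square. -/
theorem excAlg_main (F₂ F₃ F₄ : ℕ) (hF₂ : 0 < F₂) (hF₃ : 0 < F₃) (hF₄ : 0 < F₄)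
    (V₂ V₃ V₄ b₂ b₃ b₄ : ℤ) (hb₂ : b₂ = 1 ∨ b₂ = -1) (hb₃ : b₃ = 1 ∨ b₃ = -1)
    (hb₄ : b₄ = 1 ∨ b₄ = -1)
    (hR1 : 1 + b₂ * F₂ + b₃ * F₃ + b₄ * F₄ = 0)
    (hR2 : 1 + b₂ * V₂ + b₃ * V₃ + b₄ * V₄ = 0)
    (hR3 : (F₂ : ℤ) * F₃ * F₄ + b₂ * V₂ ^ 2 * F₃ * F₄ + b₃ * V₃ ^ 2 * F₂ * F₄
      + b₄ * V₄ ^ 2 * F₂ * F₃ = 0)
    (h2 : V₂ ≠ F₂) (h3 : V₃ ≠ F₃) :
    ((b₂ = -1 ∧ b₃ = -1 ∧ b₄ = 1) ∨ (b₂ = -1 ∧ b₃ = 1 ∧ b₄ = -1) ∨
      (b₂ = 1 ∧ b₃ = -1 ∧ b₄ = -1)) ∧ IsSquare (F₂ * F₃ * F₄) := by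
  have hF₂' : (0 : ℤ) < F₂ := by exact_mod_cast hF₂
  have hF₃' : (0 : ℤ) < F₃ := by exact_mod_cast hF₃
  have hF₄' : (0 : ℤ) < F₄ := by exact_mod_cast hF₄
  have hu2 : V₂ - F₂ ≠ 0 := sub_ne_zero.mpr h2
  have hu3 : V₃ - F₃ ≠ 0 := sub_ne_zero.mpr h3
  have hE1 : b₂ * (V₂ - F₂) + b₃ * (V₃ - F₃) + b₄ * (V₄ - F₄) = 0 := by
    linear_combination hR2 - hR1
  have hE2 : b₂ * (V₂ - F₂) ^ 2 * F₃ * F₄ + b₃ * (V₃ - F₃) ^ 2 * F₂ * F₄
      + b₄ * (V₄ - F₄) ^ 2 * F₂ * F₃ = 0 := by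
    linear_combination hR3 - 2 * (F₂ : ℤ) * F₃ * F₄ * hR2 + (F₂ : ℤ) * F₃ * F₄ * hR1
  have hsq : ∀ n : ℕ, IsSquare ((n : ℤ)) → IsSquare n := fun n h => Int.isSquare_natCast_iff.mp h
  rcases hb₂ with rfl | rfl <;> rcases hb₃ with rfl | rfl <;> rcases hb₄ with rfl | rfl
  · exfalso
    linarith
  · exfalso
    exact hu2 (excAlg_one_neg F₂ F₃ F₄ (V₂ - F₂) (V₃ - F₃) (V₄ - F₄) hF₂' hF₃'
      (by linear_combination hR1) (by linear_combination hE1) (by linear_combination hE2)).1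
  · exfalso
    exact hu2 (excAlg_one_neg F₂ F₄ F₃ (V₂ - F₂) (V₄ - F₄) (V₃ - F₃) hF₂' hF₄'
      (by linear_combination hR1) (by linear_combination hE1) (by linear_combination hE2)).1
  · refine ⟨Or.inr (Or.inr ⟨rfl, rfl, rfl⟩), ?_⟩
    apply hsq
    have h := excAlg_two_neg F₃ F₄ F₂ (V₃ - F₃) (V₄ - F₄) (V₂ - F₂) hF₃' hF₄'
      (by linear_combination hR1) (by linear_combination hE1) (by linear_combination hE2)
      (Or.inl hu3)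
    have e : ((F₂ * F₃ * F₄ : ℕ) : ℤ) = (F₃ : ℤ) * F₄ * F₂ := by push_cast; ring
    rw [e]
    exact h
  · exfalso
    exact hu3 (excAlg_one_neg F₃ F₄ F₂ (V₃ - F₃) (V₄ - F₄) (V₂ - F₂) hF₃' hF₄'
      (by linear_combination hR1) (by linear_combination hE1) (by linear_combination hE2)).1
  · refine ⟨Or.inr (Or.inl ⟨rfl, rfl, rfl⟩), ?_⟩
    apply hsq
    have h := excAlg_two_neg F₂ F₄ F₃ (V₂ - F₂) (V₄ - F₄) (V₃ - F₃) hF₂' hF₄'
      (by linear_combination hR1) (by linear_combination hE1) (by linear_combination hE2)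
      (Or.inl hu2)
    have e : ((F₂ * F₃ * F₄ : ℕ) : ℤ) = (F₂ : ℤ) * F₄ * F₃ := by push_cast; ring
    rw [e]
    exact h
  · refine ⟨Or.inl ⟨rfl, rfl, rfl⟩, ?_⟩
    apply hsq
    have h := excAlg_two_neg F₂ F₃ F₄ (V₂ - F₂) (V₃ - F₃) (V₄ - F₄) hF₂' hF₃'
      (by linear_combination hR1) (by linear_combination hE1) (by linear_combination hE2)
      (Or.inl hu2)
    have e : ((F₂ * F₃ * F₄ : ℕ) : ℤ) = (F₂ : ℤ) * F₃ * F₄ := by push_cast; ring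
    rw [e]
    exact h
  · exfalso
    have h1 : 0 ≤ (V₃ - F₃) ^ 2 * F₂ * F₄ :=
      mul_nonneg (mul_nonneg (sq_nonneg _) hF₂'.le) hF₄'.le
    have h2 : 0 ≤ (V₄ - F₄) ^ 2 * F₂ * F₃ :=
      mul_nonneg (mul_nonneg (sq_nonneg _) hF₂'.le) hF₃'.le
    have h3 : 0 < (V₂ - F₂) ^ 2 * F₃ * F₄ :=
      mul_pos (mul_pos (by positivity) hF₃') hF₄'
    linarith
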