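import Cfsg.Agent.Helper82.ExcAction
import Cfsg.Agent.Helper82.KleinGroup
import Cfsg.Agent.Helper16.PPart

/-!
# Involutions and an abelian Sylow subgroup with `|N : C| = 3` (helper82)

Group-theoretic lemmas for the involution part of Brauer's theorem on the principal block of a
group with an abelian Sylow `p`-subgroup `P` with `|N_G(P) : C_G(P)| = 3` acting freely:
the `p`-part of a product of two conjugates of an involution `t` is never conjugate to a
nontrivial element `y` of `P` (for `p = 2`: unless `t` itself is conjugate to `y`).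
-/

set_option autoImplicit false
open Cfsg

namespace Cfsg.Agent.Helper82

universe u

variable {G : Type u} [Group G]

/-- `n ^ |N : C| ∈ C` for `n ∈ N`. -/
theorem excInv_pow_mem (P : Subgroup G) {m : ℕ}
    (hCN : (Subgroup.centralizer (P : Set G)).relIndex (Subgroup.normalizer (P : Set G)) = m)
    (n : Subgroup.normalizer (P : Set G)) : (n : G) ^ m ∈ Subgroup.centralizer (P : Set G) := by
  have h1 := Subgroup.pow_index_mem
    ((Subgroup.centralizer (P : Set G)).subgroupOf (Subgroup.normalizer (P : Set G))) n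
  rw [Subgroup.mem_subgroupOf] at h1
  have h2 : ((Subgroup.centralizer (P : Set G)).subgroupOf
      (Subgroup.normalizer (P : Set G))).index = m := hCN
  rw [h2] at h1
  simpa using h1

/-- Elements of the centralizer act trivially. -/
theorem excInv_conj_central (P : Subgroup G) (c : Subgroup.normalizer (P : Set G))
    (hc : (c : G) ∈ Subgroup.centralizer (P : Set G)) (w : P) : excConj P c w = w := by
  apply Subtype.ext
  rw [excConj_coe]
  have h1 := Subgroup.mem_centralizer_iff.mp hc (w : G) w.2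
  rw [← h1, mul_inv_cancel_right]

/-- If `|N : C| = 3` and `n ∉ C` then `n² ∉ C`. -/
theorem excInv_sq_not_mem (P : Subgroup G)
    (hCN : (Subgroup.centralizer (P : Set G)).relIndex (Subgroup.normalizer (P : Set G)) = 3)
    (n : Subgroup.normalizer (P : Set G)) (hn : (n : G) ∉ Subgroup.centralizer (P : Set G)) :
    ((n * n : Subgroup.normalizer (P : Set G)) : G) ∉ Subgroup.centralizer (P : Set G) := by
  intro h2
  apply hn
  have h3 := excInv_pow_mem P hCN n
  have h4 : (n : G) = (n : G) ^ 3 * ((n : G) * (n : G))⁻¹ := by group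
  rw [h4]
  exact (Subgroup.centralizer _).mul_mem h3 ((Subgroup.centralizer _).inv_mem h2)

/-- If `|N : C| = 3` and `n₀ ∉ C` then every element of `N` acts on `P` as a power of `n₀`. -/
theorem excInv_conj_cases (P : Subgroup G)
    (hCN : (Subgroup.centralizer (P : Set G)).relIndex (Subgroup.normalizer (P : Set G)) = 3)
    (n₀ : Subgroup.normalizer (P : Set G)) (hn₀ : (n₀ : G) ∉ Subgroup.centralizer (P : Set G))
    (n : Subgroup.normalizer (P : Set G)) :
    (∀ w : P, excConj P n w = w) ∨ (∀ w : P, excConj P n w = excConj P n₀ w) ∨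
      (∀ w : P, excConj P n w = excConj P n₀ (excConj P n₀ w)) := by
  have h3 : Fact (Nat.Prime 3) := ⟨Nat.prime_three⟩
  set CN := (Subgroup.centralizer (P : Set G)).subgroupOf (Subgroup.normalizer (P : Set G))
    with hCNdef
  have hcard : Nat.card (Subgroup.normalizer (P : Set G) ⧸ CN) = 3 := by
    rw [← Subgroup.index_eq_card]
    exact hCN
  have hg : (QuotientGroup.mk n₀ : Subgroup.normalizer (P : Set G) ⧸ CN) ≠ 1 := by
    rw [Ne, QuotientGroup.eq_one_iff, hCNdef, Subgroup.mem_subgroupOf]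
    exact hn₀
  obtain ⟨k, hk⟩ := mem_powers_of_prime_card hcard (g' := (QuotientGroup.mk n :
    Subgroup.normalizer (P : Set G) ⧸ CN)) hg
  have hk' : (QuotientGroup.mk n₀ : Subgroup.normalizer (P : Set G) ⧸ CN) ^ (k % 3)
      = QuotientGroup.mk n := by
    rw [← hk]
    have := pow_mod_natCard (QuotientGroup.mk n₀ : Subgroup.normalizer (P : Set G) ⧸ CN) k
    rw [hcard] at this
    exact this
  rw [← QuotientGroup.mk_pow, QuotientGroup.eq, hCNdef, Subgroup.mem_subgroupOf] at hk'
  have hdecomp : ∀ w : P, excConj P n w = excConj P (n₀ ^ (k % 3)) w := by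
    intro w
    have h1 : n = n₀ ^ (k % 3) * ((n₀ ^ (k % 3))⁻¹ * n) := by group
    conv_lhs => rw [h1]
    rw [excConj_mul, excInv_conj_central P _ hk']
  have hlt : k % 3 < 3 := Nat.mod_lt _ (by norm_num)
  interval_cases hj : k % 3
  · left
    intro w
    rw [hdecomp w, pow_zero, excConj_one]
  · right; left
    intro w
    rw [hdecomp w, pow_one]
  · right; right
    intro w
    rw [hdecomp w, pow_two, excConj_mul]

/-- The "norm" of an element under a fixed-point-free automorphism of order three is trivial. -/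
theorem excInv_norm (P : Subgroup G) (hcomm : ∀ a b : P, a * b = b * a)
    (hfrob : ∀ y : G, y ∈ P → y ≠ 1 → Subgroup.centralizer ({y} : Set G)
      ⊓ Subgroup.normalizer (P : Set G) = Subgroup.centralizer (P : Set G))
    (hCN : (Subgroup.centralizer (P : Set G)).relIndex (Subgroup.normalizer (P : Set G)) = 3)
    (n : Subgroup.normalizer (P : Set G)) (hn : (n : G) ∉ Subgroup.centralizer (P : Set G))
    (w : P) : w * excConj P n w * excConj P n (excConj P n w) = 1 := by
  by_contra hne
  apply hn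
  rw [← excConj_eq_self_iff P hfrob n _ hne]
  have h3 : excConj P n (excConj P n (excConj P n w)) = w := by
    have h4 := excInv_conj_central P (n ^ 3) (by simpa using excInv_pow_mem P hCN n) w
    rw [pow_succ, pow_two, excConj_mul, excConj_mul] at h4
    exact h4
  rw [map_mul, map_mul, h3]
  rw [hcomm (excConj P n w * excConj P n (excConj P n w)) w, mul_assoc]

/-- A nontrivial element of `P` conjugate to its inverse is an involution. -/
theorem excInv_real_sq [Finite G] {p : ℕ} [Fact p.Prime] (P : Sylow p G)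
    (hab : IsMulCommutative P)
    (hfrob : ∀ y : G, y ∈ (P : Subgroup G) → y ≠ 1 → Subgroup.centralizer ({y} : Set G)
      ⊓ Subgroup.normalizer ((P : Subgroup G) : Set G)
        = Subgroup.centralizer ((P : Subgroup G) : Set G))
    (hCN : (Subgroup.centralizer ((P : Subgroup G) : Set G)).relIndex
      (Subgroup.normalizer ((P : Subgroup G) : Set G)) = 3)
    (y : G) (hy : y ∈ (P : Subgroup G)) (hy1 : y ≠ 1) (h : IsConj y y⁻¹) : y * y = 1 := by
  have hY1 : (⟨y, hy⟩ : (P : Subgroup G)) ≠ 1 := fun h => hy1 (congrArg Subtype.val h)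
  obtain ⟨n, hn⟩ := excConj_fusion P hab ⟨y, hy⟩ (⟨y, hy⟩ : (P : Subgroup G))⁻¹ (by simpa using h)
  have h2 : excConj (P : Subgroup G) (n * n) ⟨y, hy⟩ = ⟨y, hy⟩ := by
    rw [excConj_mul, hn, map_inv, hn, inv_inv]
  have h3 := (excConj_eq_self_iff (P : Subgroup G) hfrob (n * n) ⟨y, hy⟩ hY1).mp h2
  have h4 : (n : G) ∈ Subgroup.centralizer ((P : Subgroup G) : Set G) := by
    by_contra hcon
    exact excInv_sq_not_mem (P : Subgroup G) hCN n hcon h3
  have h5 := (excConj_eq_self_iff (P : Subgroup G) hfrob n ⟨y, hy⟩ hY1).mpr h4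
  rw [hn] at h5
  have h6 : y⁻¹ = y := congrArg Subtype.val h5
  calc y * y = y⁻¹ * y := by rw [h6]
    _ = 1 := inv_mul_cancel y

/-- An involution inverts the `p`-part of its product with another involution. -/
theorem excInv_invert {p : ℕ} [Fact p.Prime] (u v x : G) (hu : u * u = 1) (hv : v * v = 1)
    (hx : Cfsg.IsPPart p (u * v) x) : u * x * u⁻¹ = x⁻¹ := by
  obtain ⟨i, hi⟩ := Helper16.isPPart_eq_pow hx
  have h1 : u * (u * v) * u⁻¹ = (u * v)⁻¹ := by
    have hu' : u⁻¹ = u := inv_eq_of_mul_eq_one_left hu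
    have hv' : v⁻¹ = v := inv_eq_of_mul_eq_one_left hv
    rw [mul_inv_rev, hu', hv', ← mul_assoc, hu, one_mul]
  rw [← hi, ← conj_pow, h1, inv_pow]

/-- For odd `p`: the `p`-part of a product of two conjugates of an involution is not conjugate
to a nontrivial element of `P`. -/
theorem excInv_odd_nonconj [Finite G] {p : ℕ} [Fact p.Prime] (P : Sylow p G)
    (hab : IsMulCommutative P)
    (hfrob : ∀ y : G, y ∈ (P : Subgroup G) → y ≠ 1 → Subgroup.centralizer ({y} : Set G)
      ⊓ Subgroup.normalizer ((P : Subgroup G) : Set G)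
        = Subgroup.centralizer ((P : Subgroup G) : Set G))
    (hCN : (Subgroup.centralizer ((P : Subgroup G) : Set G)).relIndex
      (Subgroup.normalizer ((P : Subgroup G) : Set G)) = 3)
    (hp2 : p ≠ 2) (t : G) (ht : orderOf t = 2) (y : G) (hy : y ∈ (P : Subgroup G)) (hy1 : y ≠ 1)
    (g h x : G) (hx : Cfsg.IsPPart p (g * t * g⁻¹ * (h * t * h⁻¹)) x) : ¬ IsConj x y := by
  have hp : p.Prime := Fact.out
  intro hxy
  have ht2 : t * t = 1 := by
    have := pow_orderOf_eq_one t
    rwa [ht, pow_two] at this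
  have hu : g * t * g⁻¹ * (g * t * g⁻¹) = 1 := by
    have : g * t * g⁻¹ * (g * t * g⁻¹) = g * (t * t) * g⁻¹ := by group
    rw [this, ht2, mul_one, mul_inv_cancel]
  have hv : h * t * h⁻¹ * (h * t * h⁻¹) = 1 := by
    have : h * t * h⁻¹ * (h * t * h⁻¹) = h * (t * t) * h⁻¹ := by group
    rw [this, ht2, mul_one, mul_inv_cancel]
  have hinv := excInv_invert (p := p) _ _ x hu hv hx
  obtain ⟨c, hc⟩ := isConj_iff.mp hxy
  have hyy : IsConj y y⁻¹ := by
    rw [isConj_iff]
    refine ⟨c * (g * t * g⁻¹) * c⁻¹, ?_⟩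
    rw [← hc]
    have : c * (g * t * g⁻¹) * c⁻¹ * (c * x * c⁻¹) * (c * (g * t * g⁻¹) * c⁻¹)⁻¹
        = c * (g * t * g⁻¹ * x * (g * t * g⁻¹)⁻¹) * c⁻¹ := by group
    rw [this, hinv]
    group
  have hsq := excInv_real_sq P hab hfrob hCN y hy hy1 hyy
  obtain ⟨k, hk⟩ := P.isPGroup' ⟨y, hy⟩
  have h1 : y ^ p ^ k = 1 := congrArg Subtype.val hk
  obtain ⟨j, -, hj⟩ := (Nat.dvd_prime_pow hp).mp (orderOf_dvd_of_pow_eq_one h1)
  have h2 : orderOf y ∣ 2 := orderOf_dvd_of_pow_eq_one (by rw [pow_two]; exact hsq)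
  have hj0 : j ≠ 0 := by
    rintro rfl
    rw [pow_zero, orderOf_eq_one_iff] at hj
    exact hy1 hj
  have h3 : p ∣ 2 := by
    rw [hj] at h2
    exact (dvd_pow_self p hj0).trans h2
  exact hp2 ((Nat.prime_dvd_prime_iff_eq hp Nat.prime_two).mp h3)

/-- For `p = 2`: the `2`-part of a product of two conjugates of an involution `t` is not conjugate
to a nontrivial element of `P` that is not conjugate to `t`. -/
theorem excInv_two_nonconj [Finite G] (P : Sylow 2 G) (hab : IsMulCommutative P)
    (hfrob : ∀ y : G, y ∈ (P : Subgroup G) → y ≠ 1 → Subgroup.centralizer ({y} : Set G)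
      ⊓ Subgroup.normalizer ((P : Subgroup G) : Set G)
        = Subgroup.centralizer ((P : Subgroup G) : Set G))
    (hCN : (Subgroup.centralizer ((P : Subgroup G) : Set G)).relIndex
      (Subgroup.normalizer ((P : Subgroup G) : Set G)) = 3)
    (t : G) (ht : orderOf t = 2) (y : G) (hy : y ∈ (P : Subgroup G)) (hy1 : y ≠ 1)
    (hty : ¬ IsConj t y)
    (g h x : G) (hx : Cfsg.IsPPart 2 (g * t * g⁻¹ * (h * t * h⁻¹)) x) : ¬ IsConj x y := by
  have hp2 : Fact (Nat.Prime 2) := ⟨Nat.prime_two⟩
  have hcommA : ∀ a b : (P : Subgroup G), a * b = b * a := fun a b => hab.is_comm.comm a b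
  intro hxy
  have ht2 : t * t = 1 := by
    have := pow_orderOf_eq_one t
    rwa [ht, pow_two] at this
  have ht1 : t ≠ 1 := by
    rintro rfl
    simp at ht
  obtain ⟨u, hudef⟩ : ∃ u : G, u = g * t * g⁻¹ := ⟨_, rfl⟩
  obtain ⟨v, hvdef⟩ : ∃ v : G, v = h * t * h⁻¹ := ⟨_, rfl⟩
  rw [← hudef, ← hvdef] at hx
  have hu : u * u = 1 := by
    have : u * u = g * (t * t) * g⁻¹ := by rw [hudef]; group
    rw [this, ht2, mul_one, mul_inv_cancel]
  have hv : v * v = 1 := by
    have : v * v = h * (t * t) * h⁻¹ := by rw [hvdef]; group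
    rw [this, ht2, mul_one, mul_inv_cancel]
  have htu : IsConj t u := isConj_iff.mpr ⟨g, hudef.symm⟩
  have hinv := excInv_invert (p := 2) u v x hu hv hx
  obtain ⟨c, hc⟩ := isConj_iff.mp hxy
  have hyy : IsConj y y⁻¹ := by
    rw [isConj_iff]
    refine ⟨c * u * c⁻¹, ?_⟩
    rw [← hc]
    have : c * u * c⁻¹ * (c * x * c⁻¹) * (c * u * c⁻¹)⁻¹ = c * (u * x * u⁻¹) * c⁻¹ := by group
    rw [this, hinv]
    group
  have hsq := excInv_real_sq P hab hfrob hCN y hy hy1 hyy
  have hx2 : x * x = 1 := by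
    have h1 : x = c⁻¹ * y * c := by rw [← hc]; group
    have h2 : c⁻¹ * y * c * (c⁻¹ * y * c) = c⁻¹ * (y * y) * c := by group
    rw [h1, h2, hsq]
    group
  have hx1 : x ≠ 1 := by
    rintro rfl
    apply hy1
    rw [← hc]
    group
  have hxinv : x⁻¹ = x := inv_eq_of_mul_eq_one_left hx2
  have hux : u * x = x * u := by
    rw [hxinv] at hinv
    calc u * x = u * x * u⁻¹ * u := by group
      _ = x * u := by rw [hinv]
  obtain ⟨w, hxw, hcomm, -, hw⟩ := hx
  have huinv : u⁻¹ = u := inv_eq_of_mul_eq_one_left hu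
  have hvinv : v⁻¹ = v := inv_eq_of_mul_eq_one_left hv
  have hxw' : x * w = w * x := hcomm
  have hw_eq : w = x * (u * v) := by rw [← hxw, ← mul_assoc, hx2, one_mul]
  have hcd : Commute x (u * v) := by
    rw [← hxw]
    exact (Commute.refl x).mul_right hcomm
  have huw : u * w * u⁻¹ = w⁻¹ := by
    have e1 : u * w * u⁻¹ = x * (u * v)⁻¹ := by
      rw [hw_eq, mul_inv_rev, hvinv]
      calc u * (x * (u * v)) * u⁻¹ = (u * x) * u * v * u⁻¹ := by group
        _ = (x * u) * u * v * u⁻¹ := by rw [hux]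
        _ = x * (u * u) * v * u⁻¹ := by group
        _ = x * (v * u⁻¹) := by rw [hu]; group
    have e2 : w⁻¹ = (u * v)⁻¹ * x := by rw [hw_eq, mul_inv_rev, hxinv]
    rw [e1, e2]
    exact hcd.inv_right.eq
  obtain ⟨s, hsdef⟩ : ∃ s : G, s = w ^ ((orderOf w + 1) / 2) := ⟨_, rfl⟩
  have hs : s * s = w := by
    rw [hsdef, ← pow_add]
    have h1 : (orderOf w + 1) / 2 + (orderOf w + 1) / 2 = orderOf w + 1 := by omega
    rw [h1, pow_succ, pow_orderOf_eq_one, one_mul]
  have hus : u * s * u⁻¹ = s⁻¹ := by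
    rw [hsdef, ← conj_pow, huw, inv_pow]
  have hsx : x * s = s * x := by
    rw [hsdef]
    exact (hcomm.pow_right _).eq
  have hv_eq : v = u * (x * w) := by rw [hxw, ← mul_assoc, hu, one_mul]
  have hus' : u * s = s⁻¹ * u := by
    calc u * s = u * s * u⁻¹ * u := by group
      _ = s⁻¹ * u := by rw [hus]
  have huw' : u * w = w⁻¹ * u := by
    calc u * w = u * w * u⁻¹ * u := by group
      _ = w⁻¹ * u := by rw [huw]
  have hconj : s⁻¹ * (u * x) * s = v := by
    rw [hv_eq]
    calc s⁻¹ * (u * x) * s = s⁻¹ * u * (x * s) := by group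
      _ = s⁻¹ * u * (s * x) := by rw [hsx]
      _ = s⁻¹ * (u * s) * x := by group
      _ = s⁻¹ * (s⁻¹ * u) * x := by rw [hus']
      _ = (s * s)⁻¹ * u * x := by group
      _ = (w⁻¹ * u) * x := by rw [hs]
      _ = (u * w) * x := by rw [huw']
      _ = u * (w * x) := by group
      _ = u * (x * w) := by rw [hxw']
  have hu1 : u ≠ 1 := by
    intro h1
    apply ht1
    have : t = g⁻¹ * u * g := by rw [hudef]; group
    rw [this, h1]
    group
  have hou : orderOf u = 2 := orderOf_eq_prime (by rw [pow_two]; exact hu) hu1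
  have hox : orderOf x = 2 := orderOf_eq_prime (by rw [pow_two]; exact hx2) hx1
  have hR : IsPGroup 2 (Subgroup.zpowers u ⊔ Subgroup.zpowers x : Subgroup G) := by
    apply IsPGroup.to_sup_of_normal_right'
    · exact IsPGroup.of_card (n := 1) (by rw [Nat.card_zpowers, hou, pow_one])
    · exact IsPGroup.of_card (n := 1) (by rw [Nat.card_zpowers, hox, pow_one])
    · refine le_trans ?_ (Subgroup.centralizer_le_normalizer _)
      rw [Subgroup.zpowers_le, Subgroup.mem_centralizer_iff]
      intro k hk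
      obtain ⟨i, rfl⟩ := Subgroup.mem_zpowers_iff.mp hk
      have h1 : Commute x u := hux.symm
      exact (h1.zpow_left i).eq
  obtain ⟨c', hc'⟩ := kleinGroup_conj_le_sylow P _ hR
  have hu' : c'⁻¹ * u * c' ∈ (P : Subgroup G) :=
    hc' u (Subgroup.mem_sup_left (Subgroup.mem_zpowers u))
  have hx' : c'⁻¹ * x * c' ∈ (P : Subgroup G) :=
    hc' x (Subgroup.mem_sup_right (Subgroup.mem_zpowers x))
  obtain ⟨U, hUdef⟩ : ∃ U : (P : Subgroup G), U = ⟨c'⁻¹ * u * c', hu'⟩ := ⟨_, rfl⟩
  obtain ⟨X, hXdef⟩ : ∃ X : (P : Subgroup G), X = ⟨c'⁻¹ * x * c', hx'⟩ := ⟨_, rfl⟩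
  have hUc : (U : G) = c'⁻¹ * u * c' := by rw [hUdef]
  have hXc : (X : G) = c'⁻¹ * x * c' := by rw [hXdef]
  have htU : IsConj t (U : G) := by
    rw [isConj_iff]
    refine ⟨c'⁻¹ * g, ?_⟩
    rw [hUc, hudef]
    group
  have htUX : IsConj t ((U * X : (P : Subgroup G)) : G) := by
    rw [isConj_iff]
    refine ⟨c'⁻¹ * s * h, ?_⟩
    rw [Subgroup.coe_mul, hUc, hXc]
    have h1 : c'⁻¹ * s * h * t * (c'⁻¹ * s * h)⁻¹ = c'⁻¹ * (s * (h * t * h⁻¹) * s⁻¹) * c' := by
      group
    rw [h1, ← hvdef, ← hconj]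
    group
  obtain ⟨n, hn⟩ := excConj_fusion P hab U (U * X) (htU.symm.trans htUX)
  have hUU : U * U = 1 := by
    apply Subtype.ext
    rw [Subgroup.coe_mul, hUc, Subgroup.coe_one]
    have : c'⁻¹ * u * c' * (c'⁻¹ * u * c') = c'⁻¹ * (u * u) * c' := by group
    rw [this, hu]
    group
  have hXX : X * X = 1 := by
    apply Subtype.ext
    rw [Subgroup.coe_mul, hXc, Subgroup.coe_one]
    have : c'⁻¹ * x * c' * (c'⁻¹ * x * c') = c'⁻¹ * (x * x) * c' := by group
    rw [this, hx2]
    group
  by_cases hnC : (n : G) ∈ Subgroup.centralizer ((P : Subgroup G) : Set G)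
  · have h1 := excInv_conj_central (P : Subgroup G) n hnC U
    rw [hn] at h1
    have hX1 : X = 1 := by simpa using h1
    have h2 : c'⁻¹ * x * c' = 1 := by rw [← hXc, hX1, Subgroup.coe_one]
    apply hx1
    have : x = c' * (c'⁻¹ * x * c') * c'⁻¹ := by group
    rw [this, h2]
    group
  · have hnorm := excInv_norm (P : Subgroup G) hcommA hfrob hCN n hnC U
    rw [hn, map_mul, hn] at hnorm
    have h1 : U * (U * X) * (U * X * excConj (P : Subgroup G) n X)
        = U * excConj (P : Subgroup G) n X := by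
      calc U * (U * X) * (U * X * excConj (P : Subgroup G) n X)
          = (U * U) * (X * U) * X * excConj (P : Subgroup G) n X := by group
        _ = (U * U) * (U * X) * X * excConj (P : Subgroup G) n X := by rw [hcommA X U]
        _ = (U * U) * U * (X * X) * excConj (P : Subgroup G) n X := by group
        _ = U * excConj (P : Subgroup G) n X := by rw [hUU, hXX]; group
    rw [h1] at hnorm
    have hE : excConj (P : Subgroup G) n X = U := by
      rw [eq_inv_of_mul_eq_one_right hnorm]
      exact inv_eq_of_mul_eq_one_left hUU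
    have hE' : (n : G) * (c'⁻¹ * x * c') * (n : G)⁻¹ = c'⁻¹ * u * c' := by
      have := congrArg Subtype.val hE
      rw [excConj_coe, hXc, hUc] at this
      exact this
    have hxu : IsConj x u := by
      rw [isConj_iff]
      refine ⟨c' * (n : G) * c'⁻¹, ?_⟩
      have h2 : c' * (n : G) * c'⁻¹ * x * (c' * (n : G) * c'⁻¹)⁻¹
          = c' * ((n : G) * (c'⁻¹ * x * c') * (n : G)⁻¹) * c'⁻¹ := by group
      rw [h2, hE']
      group
    exact hty (htu.trans (hxu.symm.trans hxy))

end Cfsg.Agent.Helper82
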