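import Cfsg.Agent.Helper82.ExcThree
import Cfsg.Agent.Helper82.ExcInvGroup
import Cfsg.Agent.Helper82.ExcInvAlg
import Cfsg.Agent.Helper79.Quotient
import Cfsg.Agent.Helper80.CharIrr

/-!
# The involution part of Brauer's theorem for `|N : C| = 3` (helper82)

If `G` has an involution `t` lying in no proper normal subgroup, then exactly two of the signs
`a_{χ₂}, a_{χ₃}, -δ` are `-1`, and the product of the degrees of `χ₂`, `χ₃` and of an exceptional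
character is a square.
-/

set_option autoImplicit false
open Cfsg
open scoped ComplexConjugate

namespace Cfsg.Agent.Helper82

universe u

variable {G : Type u} [Group G] [Fintype G]

/-- If no product of two conjugates of `t` has `p`-part conjugate to the `p`-element `y`, then
`∑_{χ ∈ B₀} χ(t)² conj χ(y) / χ(1) = 0`. -/
theorem excInv_struct_const {p : ℕ} [Fact p.Prime] {M : Ideal Cfsg.AlgInt}
    (hM : Cfsg.IsPModular p M) (T : Finset (Cfsg.IrrCharacter G))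
    (hT : ∀ χ, χ ∈ T ↔ χ ∈ Cfsg.principalBlock M G) (t y : G)
    (hy : ∃ k : ℕ, orderOf y = p ^ k)
    (hno : ∀ g h x : G, Cfsg.IsPPart p (g * t * g⁻¹ * (h * t * h⁻¹)) x → ¬ IsConj x y) :
    ∑ χ ∈ T, (χ : G → ℂ) t ^ 2 * conj ((χ : G → ℂ) y) / (χ : G → ℂ) 1 = 0 := by
  have hB : Cfsg.principalBlock M G = (T : Set (Cfsg.IrrCharacter G)) := by
    ext χ
    rw [Finset.mem_coe, hT]
  obtain ⟨F, hF⟩ : ∃ F : G → G → Cfsg.IrrCharacter G → ℂ, F = fun h g (χ : Cfsg.IrrCharacter G) =>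
      (χ : G → ℂ) (g * t * g⁻¹ * (h * t * h⁻¹)) * conj ((χ : G → ℂ) y) := ⟨_, rfl⟩
  have key : ∀ g h : G, ∑ χ ∈ T, F h g χ = 0 := by
    intro g h
    obtain ⟨x, hx⟩ := Helper16.exists_isPPart p (g * t * g⁻¹ * (h * t * h⁻¹)) (orderOf_pos _)
    have h1 : ∑ᶠ χ ∈ Cfsg.principalBlock M G,
        (χ : G → ℂ) (g * t * g⁻¹ * (h * t * h⁻¹)) * conj ((χ : G → ℂ) y) = 0 :=
      Helper16.block_orthogonality hM ⟨Helper81.trivIrr G, rfl⟩ hx
        (excBlock_isPPart_self y hy) (hno g h x hx)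
    rw [hB, finsum_mem_coe_finset] at h1
    rw [hF]
    exact h1
  have h2 : ∑ h : G, ∑ g : G, ∑ χ ∈ T, F h g χ = 0 :=
    Finset.sum_eq_zero (fun h _ => Finset.sum_eq_zero (fun g _ => key g h))
  have h3 : ∑ h : G, ∑ g : G, ∑ χ ∈ T, F h g χ
      = (Fintype.card G : ℂ) ^ 2
        * ∑ χ ∈ T, (χ : G → ℂ) t ^ 2 * conj ((χ : G → ℂ) y) / (χ : G → ℂ) 1 := by
    rw [Finset.mul_sum]
    have e0 : ∑ h : G, ∑ g : G, ∑ χ ∈ T, F h g χ = ∑ χ ∈ T, ∑ h : G, ∑ g : G, F h g χ := by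
      rw [Finset.sum_congr rfl (fun h _ => Finset.sum_comm)]
      exact Finset.sum_comm
    rw [e0]
    refine Finset.sum_congr rfl (fun χ _ => ?_)
    have e1 : ∀ h : G, ∑ g : G, F h g χ
        = (Fintype.card G : ℂ) * (χ : G → ℂ) t * (χ : G → ℂ) t / (χ : G → ℂ) 1
          * conj ((χ : G → ℂ) y) := by
      intro h
      rw [hF]
      simp only
      rw [← Finset.sum_mul, Helper80.irr_sum_conj_mul χ t (h * t * h⁻¹), Helper81.irr_conj χ t h]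
    rw [Finset.sum_congr rfl (fun h _ => e1 h), Finset.sum_const, Finset.card_univ, nsmul_eq_mul]
    ring
  rw [h2] at h3
  have hG : (Fintype.card G : ℂ) ^ 2 ≠ 0 :=
    pow_ne_zero 2 (Nat.cast_ne_zero.mpr Fintype.card_ne_zero)
  exact (mul_eq_zero.mp h3.symm).resolve_left hG

/-- An irreducible character taking its degree at an element lying in no proper normal subgroup
is trivial. -/
theorem excInv_kernel (χ : Cfsg.IrrCharacter G) (t : G)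
    (htK : ∀ K : Subgroup G, K.Normal → t ∈ K → K = ⊤)
    (h : (χ : G → ℂ) t = (χ : G → ℂ) 1) : χ = Helper81.trivIrr G := by
  have hK := htK (Helper79.charKer (Helper79.irr_isCharacter χ)) (Helper79.charKer_normal _)
    ((Helper79.mem_charKer _ t).mpr h)
  have hconst : ∀ g, (χ : G → ℂ) g = (χ : G → ℂ) 1 := fun g =>
    (Helper79.mem_charKer (Helper79.irr_isCharacter χ) g).mp (hK ▸ Subgroup.mem_top g)
  by_contra hne
  have h1 := Helper81.irr_orthonormal χ (Helper81.trivIrr G)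
  rw [if_neg hne] at h1
  have h2 : ∑ g : G, (χ : G → ℂ) g * (Helper81.trivIrr G : G → ℂ) g⁻¹
      = (Fintype.card G : ℂ) * (χ : G → ℂ) 1 := by
    rw [Finset.sum_congr rfl (fun g _ => by rw [hconst g, Helper81.trivIrr_apply, mul_one]),
      Finset.sum_const, Finset.card_univ, nsmul_eq_mul]
  rw [h2, Nat.card_eq_fintype_card] at h1
  have hG : (Fintype.card G : ℂ) ≠ 0 := Nat.cast_ne_zero.mpr Fintype.card_ne_zero
  have h3 : (χ : G → ℂ) 1 = 0 := by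
    have : (Fintype.card G : ℂ)⁻¹ * ((Fintype.card G : ℂ) * (χ : G → ℂ) 1) = (χ : G → ℂ) 1 := by
      field_simp
    rw [← this]
    exact h1
  exact Helper81.irr_one_ne_zero χ h3

omit [Fintype G] in
/-- The orbit of a nontrivial linear character when `|N : C| = 3`, made explicit. -/
theorem excInv_orbit (P : Subgroup G) [Finite P]
    (hfrob : ∀ y : G, y ∈ P → y ≠ 1 → Subgroup.centralizer ({y} : Set G)
      ⊓ Subgroup.normalizer (P : Set G) = Subgroup.centralizer (P : Set G))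
    (hCN : (Subgroup.centralizer (P : Set G)).relIndex (Subgroup.normalizer (P : Set G)) = 3)
    (n₀ : Subgroup.normalizer (P : Set G)) (hn₀ : (n₀ : G) ∉ Subgroup.centralizer (P : Set G))
    (ψ : P →* ℂˣ) (hψ : ψ ≠ 1) (f : (P →* ℂˣ) → ℂ) (ψ1 ψ2 : P →* ℂˣ)
    (h1 : ψ1 = ψ.comp (excConj P n₀))
    (h2 : ψ2 = ψ.comp ((excConj P n₀).comp (excConj P n₀))) :
    ∑ᶠ ψ' ∈ {ψ' : P →* ℂˣ | excRel P ψ ψ'}, f ψ' = f ψ + f ψ1 + f ψ2 := by
  classical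
  have e1 : ψ1 = excAct P n₀⁻¹ ψ := by
    rw [h1]
    unfold excAct
    rw [inv_inv]
  have e2 : ψ2 = excAct P n₀⁻¹ ψ1 := by
    rw [h2, h1]
    unfold excAct
    rw [inv_inv]
    rfl
  have hn₀' : ((n₀⁻¹ : Subgroup.normalizer (P : Set G)) : G) ∉ Subgroup.centralizer (P : Set G) := by
    intro h
    apply hn₀
    have := (Subgroup.centralizer (P : Set G)).inv_mem h
    simpa using this
  have hψ1 : ψ1 ≠ 1 := by
    rw [e1]
    exact fun h => hψ ((excAct_eq_one_iff P _ ψ).mp h)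
  have h01 : ψ ≠ ψ1 := by
    rw [e1]
    intro h
    exact hn₀' ((excAct_eq_self_iff P hfrob n₀⁻¹ ψ hψ).mp h.symm)
  have h02 : ψ ≠ ψ2 := by
    rw [e2, e1, ← excAct_mul]
    intro h
    exact excInv_sq_not_mem P hCN n₀⁻¹ hn₀' ((excAct_eq_self_iff P hfrob _ ψ hψ).mp h.symm)
  have h12 : ψ1 ≠ ψ2 := by
    rw [e2]
    intro h
    exact hn₀' ((excAct_eq_self_iff P hfrob n₀⁻¹ ψ1 hψ1).mp h.symm)
  have hset : {ψ' : P →* ℂˣ | excRel P ψ ψ'}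
      = (({ψ, ψ1, ψ2} : Finset (P →* ℂˣ)) : Set (P →* ℂˣ)) := by
    ext ψ'
    rw [Finset.coe_insert, Finset.coe_insert, Finset.coe_singleton, Set.mem_insert_iff,
      Set.mem_insert_iff, Set.mem_singleton_iff]
    constructor
    · rintro ⟨n, rfl⟩
      rcases excInv_conj_cases P hCN n₀ hn₀ n⁻¹ with h | h | h
      · left
        ext w
        rw [excAct_apply, h]
      · right; left
        rw [h1]
        ext w
        rw [excAct_apply, h]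
        rfl
      · right; right
        rw [h2]
        ext w
        rw [excAct_apply, h]
        rfl
    · rintro (rfl | rfl | rfl)
      · exact excRel_refl P _
      · exact ⟨n₀⁻¹, e1.symm⟩
      · refine ⟨n₀⁻¹ * n₀⁻¹, ?_⟩
        rw [excAct_mul, ← e1, ← e2]
  rw [hset, finsum_mem_coe_finset, Finset.sum_insert (by simp [h01, h02]), Finset.sum_pair h12]
  ring

omit [Fintype G] in
/-- The orbit sum of a linear character at an involution `τ` of `P` satisfies `S² = 3 + 2 S`. -/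
theorem excInv_orbit_sq (P : Subgroup G) [Finite P] (hcomm : ∀ a b : P, a * b = b * a)
    (hfrob : ∀ y : G, y ∈ P → y ≠ 1 → Subgroup.centralizer ({y} : Set G)
      ⊓ Subgroup.normalizer (P : Set G) = Subgroup.centralizer (P : Set G))
    (hCN : (Subgroup.centralizer (P : Set G)).relIndex (Subgroup.normalizer (P : Set G)) = 3)
    (ψ : P →* ℂˣ) (hψ : ψ ≠ 1) (τ : P) (hτ : τ * τ = 1) :
    (∑ᶠ ψ' ∈ {ψ' : P →* ℂˣ | excRel P ψ ψ'}, ((ψ' τ : ℂˣ) : ℂ)) ^ 2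
      = 3 + 2 * ∑ᶠ ψ' ∈ {ψ' : P →* ℂˣ | excRel P ψ ψ'}, ((ψ' τ : ℂˣ) : ℂ) := by
  obtain ⟨n₀, hn₀⟩ : ∃ n₀ : Subgroup.normalizer (P : Set G),
      (n₀ : G) ∉ Subgroup.centralizer (P : Set G) := by
    by_contra hcon
    push Not at hcon
    have h1 : Subgroup.normalizer (P : Set G) ≤ Subgroup.centralizer (P : Set G) :=
      fun n hn => hcon ⟨n, hn⟩
    have h2 := Subgroup.relIndex_eq_one.mpr h1
    omega
  rw [excInv_orbit P hfrob hCN n₀ hn₀ ψ hψ (fun ψ' => ((ψ' τ : ℂˣ) : ℂ)) _ _ rfl rfl]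
  simp only [MonoidHom.comp_apply]
  have hsq : ∀ w : P, w * w = 1 → ((ψ w : ℂˣ) : ℂ) ^ 2 = 1 := by
    intro w hw
    rw [← Units.val_pow_eq_pow_val, ← map_pow, pow_two, hw, map_one, Units.val_one]
  have ha := hsq τ hτ
  have hb := hsq (excConj P n₀ τ) (by rw [← map_mul, hτ, map_one])
  have hc := hsq (excConj P n₀ (excConj P n₀ τ)) (by rw [← map_mul, ← map_mul, hτ, map_one, map_one])
  have habc : ((ψ τ : ℂˣ) : ℂ) * ((ψ (excConj P n₀ τ) : ℂˣ) : ℂ)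
      * ((ψ (excConj P n₀ (excConj P n₀ τ)) : ℂˣ) : ℂ) = 1 := by
    rw [← Units.val_mul, ← Units.val_mul, ← map_mul, ← map_mul,
      excInv_norm P hcomm hfrob hCN n₀ hn₀ τ, map_one, Units.val_one]
  linear_combination ha + hb + hc
    + 2 * (-(((ψ τ : ℂˣ) : ℂ)) * ((ψ (excConj P n₀ τ) : ℂˣ) : ℂ)) * hc
    + 2 * ((ψ (excConj P n₀ (excConj P n₀ τ)) : ℂˣ) : ℂ) * habc
    + 2 * (-(((ψ (excConj P n₀ τ) : ℂˣ) : ℂ))
        * ((ψ (excConj P n₀ (excConj P n₀ τ)) : ℂˣ) : ℂ)) * ha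
    + 2 * ((ψ τ : ℂˣ) : ℂ) * habc
    + 2 * (-(((ψ (excConj P n₀ (excConj P n₀ τ)) : ℂˣ) : ℂ)) * ((ψ τ : ℂˣ) : ℂ)) * hb
    + 2 * ((ψ (excConj P n₀ τ) : ℂˣ) : ℂ) * habc

/-- The core of the involution argument: from the class-function identity for an involution `τ`
and the values at `τ` to the sign pattern and the square. -/
theorem excInv_core {p : ℕ} [Fact p.Prime] {M : Ideal Cfsg.AlgInt}
    (hM : Cfsg.IsPModular p M) (P : Sylow p G)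
    (T Xf Yf : Finset (Cfsg.IrrCharacter G)) (δ : ℤ) (a : Cfsg.IrrCharacter G → ℤ)
    (hT : ∀ χ, χ ∈ T ↔ χ ∈ Cfsg.principalBlock M G)
    (hTXY : ∀ χ, χ ∈ T ↔ χ ∈ Xf ∨ χ ∈ Yf) (hXY : ∀ χ ∈ Xf, χ ∉ Yf)
    (χ₂ χ₃ : Cfsg.IrrCharacter G) (hXf : Xf = {Helper81.trivIrr G, χ₂, χ₃})
    (h12 : Helper81.trivIrr G ≠ χ₂) (h13 : Helper81.trivIrr G ≠ χ₃) (h23 : χ₂ ≠ χ₃)
    (hδ : δ = 1 ∨ δ = -1) (ha2 : a χ₂ = 1 ∨ a χ₂ = -1) (ha3 : a χ₃ = 1 ∨ a χ₃ = -1)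
    (hat : a (Helper81.trivIrr G) = 1)
    (hXval : ∀ χ ∈ Xf, ∀ y : (P : Subgroup G), y ≠ 1 → (χ : G → ℂ) (y : G) = (a χ : ℂ))
    (hregY : ∀ η ∈ Yf, ∀ g : G, ¬ p ∣ orderOf g → (δ : ℂ) * (η : G → ℂ) g
        = ∑ χ ∈ Xf, (a χ : ℂ) * (χ : G → ℂ) g)
    (τ : G) (htK : ∀ K : Subgroup G, K.Normal → τ ∈ K → K = ⊤)
    (y₀ : (P : Subgroup G)) (hy₀ : y₀ ≠ 1)
    (hno : ∀ g h x : G, Cfsg.IsPPart p (g * τ * g⁻¹ * (h * τ * h⁻¹)) x → ¬ IsConj x (y₀ : G))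
    (V₂ V₃ V₄ : ℤ) (hV₂ : (χ₂ : G → ℂ) τ = (V₂ : ℂ)) (hV₃ : (χ₃ : G → ℂ) τ = (V₃ : ℂ))
    (hR2 : 1 + a χ₂ * V₂ + a χ₃ * V₃ - δ * V₄ = 0)
    (hS : ∑ η ∈ Yf, (η : G → ℂ) τ ^ 2 * conj ((η : G → ℂ) (y₀ : G)) = -(δ : ℂ) * (V₄ : ℂ) ^ 2)
    (hYne : Yf.Nonempty) :
    ((a χ₂ = -1 ∧ a χ₃ = -1 ∧ δ = -1) ∨ (a χ₂ = -1 ∧ a χ₃ = 1 ∧ δ = 1) ∨
        (a χ₂ = 1 ∧ a χ₃ = -1 ∧ δ = 1)) ∧
      ∀ η ∈ Yf, IsSquare (Cfsg.charDegree (χ₂ : G → ℂ) * Cfsg.charDegree (χ₃ : G → ℂ)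
        * Cfsg.charDegree (η : G → ℂ)) := by
  classical
  have hp : p.Prime := Fact.out
  have hTeq : T = Xf ∪ Yf := by
    ext χ
    rw [Finset.mem_union]
    exact hTXY χ
  have hdisj : Disjoint Xf Yf := Finset.disjoint_left.mpr hXY
  have hnm : Helper81.trivIrr G ∉ ({χ₂, χ₃} : Finset (Cfsg.IrrCharacter G)) := by
    simp [h12, h13]
  have h1reg : ¬ p ∣ orderOf (1 : G) := by
    rw [orderOf_one]
    exact hp.one_lt.ne' ∘ Nat.dvd_one.mp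
  have hR1 : ∀ η ∈ Yf, 1 + a χ₂ * (Cfsg.charDegree (χ₂ : G → ℂ) : ℤ)
      + a χ₃ * (Cfsg.charDegree (χ₃ : G → ℂ) : ℤ)
      + (-δ) * (Cfsg.charDegree (η : G → ℂ) : ℤ) = 0 := by
    intro η hη
    have h1 := hregY η hη 1 h1reg
    rw [hXf, Finset.sum_insert hnm, Finset.sum_pair h23, hat, Helper81.trivIrr_apply,
      Helper81.irr_one_eq_charDegree, Helper81.irr_one_eq_charDegree,
      Helper81.irr_one_eq_charDegree] at h1
    have h2 : ((1 + a χ₂ * (Cfsg.charDegree (χ₂ : G → ℂ) : ℤ)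
      + a χ₃ * (Cfsg.charDegree (χ₃ : G → ℂ) : ℤ)
      + (-δ) * (Cfsg.charDegree (η : G → ℂ) : ℤ) : ℤ) : ℂ) = 0 := by
      push_cast
      linear_combination -h1
    exact_mod_cast h2
  have hχ₂X : χ₂ ∈ Xf := by rw [hXf]; simp
  have hχ₃X : χ₃ ∈ Xf := by rw [hXf]; simp
  have hstar := excInv_struct_const hM T hT τ (y₀ : G) (excBlock_orderOf P _ y₀.2) hno
  rw [hTeq, Finset.sum_union hdisj, hXf, Finset.sum_insert hnm, Finset.sum_pair h23] at hstar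
  rw [Helper81.trivIrr_apply, Helper81.trivIrr_apply, Helper81.trivIrr_apply, hV₂, hV₃,
    hXval χ₂ hχ₂X y₀ hy₀, hXval χ₃ hχ₃X y₀ hy₀, map_intCast, map_intCast, map_one,
    Helper81.irr_one_eq_charDegree, Helper81.irr_one_eq_charDegree] at hstar
  have hf2 : (0 : ℕ) < Cfsg.charDegree (χ₂ : G → ℂ) := Helper81.charDegree_pos χ₂
  have hf3 : (0 : ℕ) < Cfsg.charDegree (χ₃ : G → ℂ) := Helper81.charDegree_pos χ₃
  have hf2c : (Cfsg.charDegree (χ₂ : G → ℂ) : ℂ) ≠ 0 := Nat.cast_ne_zero.mpr hf2.ne'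
  have hf3c : (Cfsg.charDegree (χ₃ : G → ℂ) : ℂ) ≠ 0 := Nat.cast_ne_zero.mpr hf3.ne'
  have hmain : ∀ η₀ ∈ Yf, ((a χ₂ = -1 ∧ a χ₃ = -1 ∧ -δ = 1) ∨ (a χ₂ = -1 ∧ a χ₃ = 1 ∧ -δ = -1) ∨
        (a χ₂ = 1 ∧ a χ₃ = -1 ∧ -δ = -1)) ∧
      IsSquare (Cfsg.charDegree (χ₂ : G → ℂ) * Cfsg.charDegree (χ₃ : G → ℂ)
        * Cfsg.charDegree (η₀ : G → ℂ)) := by
    intro η₀ hη₀
    have hf0 : (0 : ℕ) < Cfsg.charDegree (η₀ : G → ℂ) := Helper81.charDegree_pos η₀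
    have hf0c : (Cfsg.charDegree (η₀ : G → ℂ) : ℂ) ≠ 0 := Nat.cast_ne_zero.mpr hf0.ne'
    have hdeg : ∀ η ∈ Yf, Cfsg.charDegree (η : G → ℂ) = Cfsg.charDegree (η₀ : G → ℂ) := by
      intro η hη
      have e1 := hR1 η hη
      have e2 := hR1 η₀ hη₀
      have e3 : (Cfsg.charDegree (η : G → ℂ) : ℤ) = (Cfsg.charDegree (η₀ : G → ℂ) : ℤ) := by
        rcases hδ with h | h <;> rw [h] at e1 e2 <;> linarith
      exact_mod_cast e3
    have hYsum : ∑ η ∈ Yf, (η : G → ℂ) τ ^ 2 * conj ((η : G → ℂ) (y₀ : G)) / (η : G → ℂ) 1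
        = -(δ : ℂ) * (V₄ : ℂ) ^ 2 / (Cfsg.charDegree (η₀ : G → ℂ) : ℂ) := by
      rw [← hS, Finset.sum_div]
      refine Finset.sum_congr rfl (fun η hη => ?_)
      rw [Helper81.irr_one_eq_charDegree, hdeg η hη]
    rw [hYsum] at hstar
    have hR3c : (((Cfsg.charDegree (χ₂ : G → ℂ) : ℤ) * (Cfsg.charDegree (χ₃ : G → ℂ) : ℤ)
        * (Cfsg.charDegree (η₀ : G → ℂ) : ℤ)
        + a χ₂ * V₂ ^ 2 * (Cfsg.charDegree (χ₃ : G → ℂ) : ℤ) * (Cfsg.charDegree (η₀ : G → ℂ) : ℤ)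
        + a χ₃ * V₃ ^ 2 * (Cfsg.charDegree (χ₂ : G → ℂ) : ℤ) * (Cfsg.charDegree (η₀ : G → ℂ) : ℤ)
        + (-δ) * V₄ ^ 2 * (Cfsg.charDegree (χ₂ : G → ℂ) : ℤ)
          * (Cfsg.charDegree (χ₃ : G → ℂ) : ℤ) : ℤ) : ℂ) = 0 := by
      push_cast
      field_simp at hstar
      linear_combination hstar
    have hR3 : ((Cfsg.charDegree (χ₂ : G → ℂ) : ℤ) * (Cfsg.charDegree (χ₃ : G → ℂ) : ℤ)
        * (Cfsg.charDegree (η₀ : G → ℂ) : ℤ)
        + a χ₂ * V₂ ^ 2 * (Cfsg.charDegree (χ₃ : G → ℂ) : ℤ) * (Cfsg.charDegree (η₀ : G → ℂ) : ℤ)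
        + a χ₃ * V₃ ^ 2 * (Cfsg.charDegree (χ₂ : G → ℂ) : ℤ) * (Cfsg.charDegree (η₀ : G → ℂ) : ℤ)
        + (-δ) * V₄ ^ 2 * (Cfsg.charDegree (χ₂ : G → ℂ) : ℤ)
          * (Cfsg.charDegree (χ₃ : G → ℂ) : ℤ) : ℤ) = 0 := by
      exact_mod_cast hR3c
    have hne2 : V₂ ≠ (Cfsg.charDegree (χ₂ : G → ℂ) : ℤ) := by
      intro h
      apply h12
      symm
      apply excInv_kernel χ₂ τ htK
      rw [hV₂, Helper81.irr_one_eq_charDegree, h]
      push_cast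
      rfl
    have hne3 : V₃ ≠ (Cfsg.charDegree (χ₃ : G → ℂ) : ℤ) := by
      intro h
      apply h13
      symm
      apply excInv_kernel χ₃ τ htK
      rw [hV₃, Helper81.irr_one_eq_charDegree, h]
      push_cast
      rfl
    exact excAlg_main _ _ _ hf2 hf3 hf0 V₂ V₃ V₄ (a χ₂) (a χ₃) (-δ) ha2 ha3
      (by rcases hδ with h | h <;> rw [h] <;> simp) (hR1 η₀ hη₀)
      (by linear_combination hR2) hR3 hne2 hne3
  constructor
  · obtain ⟨η₀, hη₀⟩ := hYne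
    rcases (hmain η₀ hη₀).1 with ⟨h1, h2, h3⟩ | ⟨h1, h2, h3⟩ | ⟨h1, h2, h3⟩
    · exact Or.inl ⟨h1, h2, by linarith⟩
    · exact Or.inr (Or.inl ⟨h1, h2, by linarith⟩)
    · exact Or.inr (Or.inr ⟨h1, h2, by linarith⟩)
  · exact fun η hη => (hmain η hη).2

/-- The involution part of Brauer's theorem for `|N : C| = 3`. -/
theorem excInv_main {p : ℕ} [Fact p.Prime] {M : Ideal Cfsg.AlgInt}
    (hM : Cfsg.IsPModular p M) (P : Sylow p G) (hab : IsMulCommutative P)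
    (hfrob : ∀ y : G, y ∈ (P : Subgroup G) → y ≠ 1 → Subgroup.centralizer ({y} : Set G)
      ⊓ Subgroup.normalizer ((P : Subgroup G) : Set G)
        = Subgroup.centralizer ((P : Subgroup G) : Set G))
    (hm2 : 3 + 1 < Nat.card (P : Subgroup G))
    (hCN : (Subgroup.centralizer ((P : Subgroup G) : Set G)).relIndex
      (Subgroup.normalizer ((P : Subgroup G) : Set G)) = 3)
    (T Xf Yf : Finset (Cfsg.IrrCharacter G)) (δ : ℤ) (a : Cfsg.IrrCharacter G → ℤ)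
    (ζ : ((P : Subgroup G) →* ℂˣ) → Cfsg.IrrCharacter G)
    (hT : ∀ χ, χ ∈ T ↔ χ ∈ Cfsg.principalBlock M G)
    (hTXY : ∀ χ, χ ∈ T ↔ χ ∈ Xf ∨ χ ∈ Yf) (hXY : ∀ χ ∈ Xf, χ ∉ Yf)
    (hXcard : Xf.card = 3) (hYcard : Yf.card * 3 = Nat.card (P : Subgroup G) - 1)
    (htrivX : Helper81.trivIrr G ∈ Xf) (hδ : δ = 1 ∨ δ = -1)
    (ha : ∀ χ ∈ Xf, a χ = 1 ∨ a χ = -1) (hat : a (Helper81.trivIrr G) = 1)
    (hXval : ∀ χ ∈ Xf, ∀ y : (P : Subgroup G), y ≠ 1 → (χ : G → ℂ) (y : G) = (a χ : ℂ))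
    (hYsurj : ∀ η ∈ Yf, ∃ ψ, ψ ≠ 1 ∧ ζ ψ = η)
    (hYval : ∀ ψ, ψ ≠ 1 → ∀ y : (P : Subgroup G), y ≠ 1 → (ζ ψ : G → ℂ) (y : G)
        = (δ : ℂ) * ∑ᶠ ψ' ∈ {ψ' : (P : Subgroup G) →* ℂˣ |
            excRel (P : Subgroup G) ψ ψ'}, ((ψ' y : ℂˣ) : ℂ))
    (hreg : ∀ ψ, ψ ≠ 1 → ∀ g : G, ¬ p ∣ orderOf g → (δ : ℂ) * (ζ ψ : G → ℂ) g
        = ∑ χ ∈ Xf, (a χ : ℂ) * (χ : G → ℂ) g)
    (t : G) (ht : orderOf t = 2) (htK : ∀ K : Subgroup G, K.Normal → t ∈ K → K = ⊤) :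
    ∃ χ₂ χ₃ : Cfsg.IrrCharacter G, Xf = {Helper81.trivIrr G, χ₂, χ₃} ∧
      Helper81.trivIrr G ≠ χ₂ ∧ Helper81.trivIrr G ≠ χ₃ ∧ χ₂ ≠ χ₃ ∧
      ((a χ₂ = -1 ∧ a χ₃ = -1 ∧ δ = -1) ∨ (a χ₂ = -1 ∧ a χ₃ = 1 ∧ δ = 1) ∨
        (a χ₂ = 1 ∧ a χ₃ = -1 ∧ δ = 1)) ∧
      ∀ η ∈ Yf, IsSquare (Cfsg.charDegree (χ₂ : G → ℂ) * Cfsg.charDegree (χ₃ : G → ℂ)
        * Cfsg.charDegree (η : G → ℂ)) := by
  classical
  have hp : p.Prime := Fact.out
  have : Fintype (P : Subgroup G) := Fintype.ofFinite _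
  have hcommA : ∀ x y : (P : Subgroup G), x * y = y * x := fun x y => hab.is_comm.comm x y
  have hcard2 : (Xf.erase (Helper81.trivIrr G)).card = 2 := by
    rw [Finset.card_erase_of_mem htrivX, hXcard]
  obtain ⟨χ₂, χ₃, h23, hpair⟩ := Finset.card_eq_two.mp hcard2
  have hXf : Xf = {Helper81.trivIrr G, χ₂, χ₃} := by
    rw [← hpair, Finset.insert_erase htrivX]
  have hχ₂e : χ₂ ∈ Xf.erase (Helper81.trivIrr G) := by rw [hpair]; simp
  have hχ₃e : χ₃ ∈ Xf.erase (Helper81.trivIrr G) := by rw [hpair]; simp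
  have h12 : Helper81.trivIrr G ≠ χ₂ := (Finset.ne_of_mem_erase hχ₂e).symm
  have h13 : Helper81.trivIrr G ≠ χ₃ := (Finset.ne_of_mem_erase hχ₃e).symm
  have hχ₂X : χ₂ ∈ Xf := Finset.mem_of_mem_erase hχ₂e
  have hχ₃X : χ₃ ∈ Xf := Finset.mem_of_mem_erase hχ₃e
  refine ⟨χ₂, χ₃, hXf, h12, h13, h23, ?_⟩
  have hnm : Helper81.trivIrr G ∉ ({χ₂, χ₃} : Finset (Cfsg.IrrCharacter G)) := by
    simp [h12, h13]
  have hregY : ∀ η ∈ Yf, ∀ g : G, ¬ p ∣ orderOf g → (δ : ℂ) * (η : G → ℂ) g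
      = ∑ χ ∈ Xf, (a χ : ℂ) * (χ : G → ℂ) g := by
    intro η hη g hg
    obtain ⟨ψ, hψ, rfl⟩ := hYsurj η hη
    exact hreg ψ hψ g hg
  have hYne : Yf.Nonempty := by
    rw [← Finset.card_pos]
    omega
  obtain ⟨η₁, hη₁⟩ := hYne
  have hδc : (δ : ℂ) ≠ 0 := by
    rcases hδ with h | h <;> rw [h] <;> norm_num
  have hδsq : (δ : ℂ) * (δ : ℂ) = 1 := by
    rcases hδ with h | h <;> rw [h] <;> norm_num
  have h1reg : ¬ p ∣ orderOf (1 : G) := by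
    rw [orderOf_one]
    exact hp.one_lt.ne' ∘ Nat.dvd_one.mp
  have hTeq : T = Xf ∪ Yf := by
    ext χ
    rw [Finset.mem_union]
    exact hTXY χ
  have hdisj : Disjoint Xf Yf := Finset.disjoint_left.mpr hXY
  have hB : Cfsg.principalBlock M G = (T : Set (Cfsg.IrrCharacter G)) := by
    ext χ
    rw [Finset.mem_coe, hT]
  have hdeg1 : ∀ η ∈ Yf, (η : G → ℂ) 1 = (η₁ : G → ℂ) 1 := by
    intro η hη
    have e1 := hregY η hη 1 h1reg
    have e2 := hregY η₁ hη₁ 1 h1reg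
    exact mul_left_cancel₀ hδc (e1.trans e2.symm)
  have hc3 : ∀ y : (P : Subgroup G), y ≠ 1 →
      ∑ η ∈ Yf, conj ((η : G → ℂ) (y : G)) = -(δ : ℂ) := by
    intro y hy
    have hy1 : (y : G) ≠ 1 := fun h => hy (Subtype.ext h)
    have e1 := excBlock_sum_preg hM P 1 (y : G) h1reg y.2 hy1
    rw [hB, finsum_mem_coe_finset, hTeq, Finset.sum_union hdisj] at e1
    have e2 : ∑ χ ∈ Xf, (χ : G → ℂ) 1 * conj ((χ : G → ℂ) (y : G))
        = (δ : ℂ) * (η₁ : G → ℂ) 1 := by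
      rw [hregY η₁ hη₁ 1 h1reg]
      refine Finset.sum_congr rfl (fun χ hχ => ?_)
      rw [hXval χ hχ y hy, map_intCast, mul_comm]
    have e3 : ∑ η ∈ Yf, (η : G → ℂ) 1 * conj ((η : G → ℂ) (y : G))
        = (η₁ : G → ℂ) 1 * ∑ η ∈ Yf, conj ((η : G → ℂ) (y : G)) := by
      rw [Finset.mul_sum]
      exact Finset.sum_congr rfl (fun η hη => by rw [hdeg1 η hη])
    rw [e2, e3] at e1
    have h0 : (η₁ : G → ℂ) 1 ≠ 0 := Helper81.irr_one_ne_zero η₁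
    have e4 : (η₁ : G → ℂ) 1 * ((δ : ℂ) + ∑ η ∈ Yf, conj ((η : G → ℂ) (y : G))) = 0 := by
      linear_combination e1
    have e5 := (mul_eq_zero.mp e4).resolve_left h0
    linear_combination e5
  obtain ⟨y₁, hy₁⟩ : ∃ y₁ : (P : Subgroup G), y₁ ≠ 1 := by
    by_contra hcon
    push Not at hcon
    have h1 : Nat.card (P : Subgroup G) = 1 := by
      rw [Nat.card_eq_one_iff_unique]
      exact ⟨⟨fun x y => by rw [hcon x, hcon y]⟩, ⟨1⟩⟩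
    omega
  by_cases hp2 : p = 2
  · subst hp2
    obtain ⟨c, hc⟩ := kleinGroup_conj_mem_sylow P t ht
    obtain ⟨τ, hτdef⟩ : ∃ τ : (P : Subgroup G), τ = ⟨c⁻¹ * t * c, hc⟩ := ⟨_, rfl⟩
    have hτc : (τ : G) = c⁻¹ * t * c := by rw [hτdef]
    have ht2 : t * t = 1 := by
      have := pow_orderOf_eq_one t
      rwa [ht, pow_two] at this
    have ht1 : t ≠ 1 := by
      rintro rfl
      simp at ht
    have hττ : τ * τ = 1 := by
      apply Subtype.ext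
      rw [Subgroup.coe_mul, hτc, Subgroup.coe_one]
      have : c⁻¹ * t * c * (c⁻¹ * t * c) = c⁻¹ * (t * t) * c := by group
      rw [this, ht2]
      group
    have hτ1 : τ ≠ 1 := by
      intro h
      apply ht1
      have h1 : c⁻¹ * t * c = 1 := by rw [← hτc, h, Subgroup.coe_one]
      have h2 : t = c * (c⁻¹ * t * c) * c⁻¹ := by group
      rw [h2, h1]
      group
    have hτord : orderOf (τ : G) = 2 :=
      orderOf_eq_prime (by rw [pow_two, ← Subgroup.coe_mul, hττ, Subgroup.coe_one])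
        (fun h => hτ1 (Subtype.ext h))
    have hτK : ∀ K : Subgroup G, K.Normal → (τ : G) ∈ K → K = ⊤ := by
      intro K hK hmem
      apply htK K hK
      have h1 := hK.conj_mem _ hmem c
      rw [hτc] at h1
      have e : c * (c⁻¹ * t * c) * c⁻¹ = t := by group
      rwa [e] at h1
    obtain ⟨n₀, hn₀⟩ : ∃ n₀ : Subgroup.normalizer ((P : Subgroup G) : Set G),
        (n₀ : G) ∉ Subgroup.centralizer ((P : Subgroup G) : Set G) := by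
      by_contra hcon
      push Not at hcon
      have h1 : Subgroup.normalizer ((P : Subgroup G) : Set G)
          ≤ Subgroup.centralizer ((P : Subgroup G) : Set G) := fun n hn => hcon ⟨n, hn⟩
      have h2 := Subgroup.relIndex_eq_one.mpr h1
      omega
    obtain ⟨y₀, hy₀⟩ : ∃ y₀ : (P : Subgroup G), y₀ ∉ ({1, τ, excConj (P : Subgroup G) n₀ τ,
        excConj (P : Subgroup G) n₀ (excConj (P : Subgroup G) n₀ τ)}
          : Finset (P : Subgroup G)) := by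
      by_contra hcon
      push Not at hcon
      have h1 : (Finset.univ : Finset (P : Subgroup G)).card
          ≤ ({1, τ, excConj (P : Subgroup G) n₀ τ,
            excConj (P : Subgroup G) n₀ (excConj (P : Subgroup G) n₀ τ)}
              : Finset (P : Subgroup G)).card := Finset.card_le_card (fun y _ => hcon y)
      have h2 := Finset.card_le_four (a := (1 : (P : Subgroup G))) (b := τ)
        (c := excConj (P : Subgroup G) n₀ τ)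
        (d := excConj (P : Subgroup G) n₀ (excConj (P : Subgroup G) n₀ τ))
      rw [Finset.card_univ, ← Nat.card_eq_fintype_card] at h1
      omega
    simp only [Finset.mem_insert, Finset.mem_singleton, not_or] at hy₀
    obtain ⟨hy₀1, hy₀a, hy₀b, hy₀c⟩ := hy₀
    have hnc : ¬ IsConj (τ : G) (y₀ : G) := by
      intro hconj
      obtain ⟨n, hn⟩ := excConj_fusion P hab τ y₀ hconj
      rcases excInv_conj_cases (P : Subgroup G) hCN n₀ hn₀ n with h | h | h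
      · exact hy₀a (by rw [← hn, h])
      · exact hy₀b (by rw [← hn, h])
      · exact hy₀c (by rw [← hn, h])
    have hy₀G : (y₀ : G) ≠ 1 := fun h => hy₀1 (Subtype.ext h)
    have hno := excInv_two_nonconj P hab hfrob hCN (τ : G) hτord (y₀ : G) y₀.2 hy₀G hnc
    have hV₂ : (χ₂ : G → ℂ) (τ : G) = ((a χ₂ : ℤ) : ℂ) := hXval χ₂ hχ₂X τ hτ1
    have hV₃ : (χ₃ : G → ℂ) (τ : G) = ((a χ₃ : ℤ) : ℂ) := hXval χ₃ hχ₃X τ hτ1
    have hR2 : 1 + a χ₂ * a χ₂ + a χ₃ * a χ₃ - δ * (3 * δ) = 0 := by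
      rcases hδ with h | h <;> rcases ha χ₂ hχ₂X with h2 | h2 <;>
        rcases ha χ₃ hχ₃X with h3 | h3 <;> rw [h, h2, h3] <;> norm_num
    have hηsq : ∀ η ∈ Yf, (η : G → ℂ) (τ : G) ^ 2
        = 3 + 2 * (δ : ℂ) * (η : G → ℂ) (τ : G) := by
      intro η hη
      obtain ⟨ψ, hψ, rfl⟩ := hYsurj η hη
      rw [hYval ψ hψ τ hτ1]
      have h1 := excInv_orbit_sq (P : Subgroup G) hcommA hfrob hCN ψ hψ τ hττ
      linear_combination (δ : ℂ) ^ 2 * h1 + 3 * hδsq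
    have hsumXY : ∑ η ∈ Yf, (η : G → ℂ) (τ : G) * conj ((η : G → ℂ) (y₀ : G)) = -3 := by
      have e1 := excBlock_sum_nonconj hM P (τ : G) (y₀ : G) τ.2 y₀.2 hnc
      rw [hB, finsum_mem_coe_finset, hTeq, Finset.sum_union hdisj] at e1
      have e2 : ∑ χ ∈ Xf, (χ : G → ℂ) (τ : G) * conj ((χ : G → ℂ) (y₀ : G)) = 3 := by
        rw [hXf, Finset.sum_insert hnm, Finset.sum_pair h23, hXval _ htrivX τ hτ1,
          hXval _ htrivX y₀ hy₀1, hXval χ₂ hχ₂X τ hτ1, hXval χ₂ hχ₂X y₀ hy₀1,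
          hXval χ₃ hχ₃X τ hτ1, hXval χ₃ hχ₃X y₀ hy₀1]
        simp only [map_intCast]
        rcases ha χ₂ hχ₂X with h2 | h2 <;> rcases ha χ₃ hχ₃X with h3 | h3 <;>
          rw [hat, h2, h3] <;> norm_num
      rw [e2] at e1
      linear_combination e1
    have hS : ∑ η ∈ Yf, (η : G → ℂ) (τ : G) ^ 2 * conj ((η : G → ℂ) (y₀ : G))
        = -(δ : ℂ) * (((3 * δ : ℤ)) : ℂ) ^ 2 := by
      have e1 : ∑ η ∈ Yf, (η : G → ℂ) (τ : G) ^ 2 * conj ((η : G → ℂ) (y₀ : G))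
          = 3 * ∑ η ∈ Yf, conj ((η : G → ℂ) (y₀ : G))
            + 2 * (δ : ℂ) * ∑ η ∈ Yf, (η : G → ℂ) (τ : G) * conj ((η : G → ℂ) (y₀ : G)) := by
        rw [Finset.mul_sum, Finset.mul_sum, ← Finset.sum_add_distrib]
        refine Finset.sum_congr rfl (fun η hη => ?_)
        rw [hηsq η hη]
        ring
      rw [e1, hc3 y₀ hy₀1, hsumXY]
      push_cast
      linear_combination (9 * (δ : ℂ)) * hδsq
    exact excInv_core hM P T Xf Yf δ a hT hTXY hXY χ₂ χ₃ hXf h12 h13 h23 hδ (ha χ₂ hχ₂X)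
      (ha χ₃ hχ₃X) hat hXval hregY (τ : G) hτK y₀ hy₀1 hno (a χ₂) (a χ₃) (3 * δ) hV₂ hV₃ hR2 hS
      ⟨η₁, hη₁⟩
  · have htreg : ¬ p ∣ orderOf t := by
      rw [ht]
      intro h
      exact hp2 ((Nat.prime_dvd_prime_iff_eq hp Nat.prime_two).mp h)
    have hy₁G : (y₁ : G) ≠ 1 := fun h => hy₁ (Subtype.ext h)
    have hno := excInv_odd_nonconj P hab hfrob hCN hp2 t ht (y₁ : G) y₁.2 hy₁G
    obtain ⟨V₂, hV₂⟩ := Helper81.irr_involution_int χ₂ ht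
    obtain ⟨V₃, hV₃⟩ := Helper81.irr_involution_int χ₃ ht
    have hηt : ∀ η ∈ Yf, (η : G → ℂ) t
        = ((δ * (1 + a χ₂ * V₂ + a χ₃ * V₃) : ℤ) : ℂ) := by
      intro η hη
      have e1 := hregY η hη t htreg
      rw [hXf, Finset.sum_insert hnm, Finset.sum_pair h23, hat, Helper81.trivIrr_apply, hV₂,
        hV₃] at e1
      push_cast at e1 ⊢
      linear_combination (δ : ℂ) * e1 - (η : G → ℂ) t * hδsq
    have hR2 : 1 + a χ₂ * V₂ + a χ₃ * V₃ - δ * (δ * (1 + a χ₂ * V₂ + a χ₃ * V₃)) = 0 := by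
      rcases hδ with h | h <;> rw [h] <;> ring
    have hS : ∑ η ∈ Yf, (η : G → ℂ) t ^ 2 * conj ((η : G → ℂ) (y₁ : G))
        = -(δ : ℂ) * ((δ * (1 + a χ₂ * V₂ + a χ₃ * V₃) : ℤ) : ℂ) ^ 2 := by
      have e1 : ∑ η ∈ Yf, (η : G → ℂ) t ^ 2 * conj ((η : G → ℂ) (y₁ : G))
          = ∑ η ∈ Yf, ((δ * (1 + a χ₂ * V₂ + a χ₃ * V₃) : ℤ) : ℂ) ^ 2
            * conj ((η : G → ℂ) (y₁ : G)) :=
        Finset.sum_congr rfl (fun η hη => by rw [hηt η hη])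
      rw [e1, ← Finset.mul_sum, hc3 y₁ hy₁]
      ring
    exact excInv_core hM P T Xf Yf δ a hT hTXY hXY χ₂ χ₃ hXf h12 h13 h23 hδ (ha χ₂ hχ₂X)
      (ha χ₃ hχ₃X) hat hXval hregY t htK y₁ hy₁ hno V₂ V₃ _ hV₂ hV₃ hR2 hS ⟨η₁, hη₁⟩

end Cfsg.Agent.Helper82
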