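import Cfsg.Agent.Helper82.ExcFinal

/-!
# Exceptional characters: the finite-set form, and the case `|N : C| = 3` (helper82)

`excStruct` repackages `excFinal_data` with finsets `Xf`, `Yf` of non-exceptional and exceptional
characters.  `excThree_struct` is the case `m = 3`: there are exactly three non-exceptional
characters, with values `±1` on the nontrivial elements of `P`, and the exceptional characters can
be labelled so that `d = 0`.
-/

set_option autoImplicit false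
open Cfsg
open scoped ComplexConjugate

namespace Cfsg.Agent.Helper82

universe u

variable {G : Type u} [Group G] [Fintype G]

/-- The structure of the principal block in finite-set form. -/
theorem excStruct {p : ℕ} [Fact p.Prime] {M : Ideal Cfsg.AlgInt} (hM : Cfsg.IsPModular p M)
    (P : Sylow p G) (hab : IsMulCommutative P)
    (hfrob : ∀ y : G, y ∈ (P : Subgroup G) → y ≠ 1 → Subgroup.centralizer ({y} : Set G)
      ⊓ Subgroup.normalizer ((P : Subgroup G) : Set G)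
        = Subgroup.centralizer ((P : Subgroup G) : Set G))
    (m : ℕ) (hm2 : m + 1 < Nat.card (P : Subgroup G))
    (hCN : (Subgroup.centralizer ((P : Subgroup G) : Set G)).relIndex
      (Subgroup.normalizer ((P : Subgroup G) : Set G)) = m) :
    ∃ (T Xf Yf : Finset (Cfsg.IrrCharacter G)) (δ d : ℤ) (a : Cfsg.IrrCharacter G → ℤ)
      (ζ : ((P : Subgroup G) →* ℂˣ) → Cfsg.IrrCharacter G),
      (∀ χ, χ ∈ T ↔ χ ∈ Cfsg.principalBlock M G) ∧
      (∀ χ, χ ∈ T ↔ χ ∈ Xf ∨ χ ∈ Yf) ∧ (∀ χ ∈ Xf, χ ∉ Yf) ∧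
      Yf.card * m = Nat.card (P : Subgroup G) - 1 ∧ 2 ≤ Yf.card ∧
      Helper81.trivIrr G ∈ Xf ∧ (δ = 1 ∨ δ = -1) ∧
      (∀ χ ∈ Xf, a χ ≠ 0) ∧ (∀ χ ∈ Yf, a χ = d) ∧
      (∀ χ ∈ Xf, ∀ y : (P : Subgroup G), y ≠ 1 → (χ : G → ℂ) (y : G) = (a χ : ℂ)) ∧
      (∀ ψ, ψ ≠ 1 → ζ ψ ∈ Yf) ∧ (∀ η ∈ Yf, ∃ ψ, ψ ≠ 1 ∧ ζ ψ = η) ∧
      (∀ ψ ψ', ψ ≠ 1 → ψ' ≠ 1 → (ζ ψ = ζ ψ' ↔ excRel (P : Subgroup G) ψ ψ')) ∧
      (∀ ψ, ψ ≠ 1 → ∀ y : (P : Subgroup G), y ≠ 1 → (ζ ψ : G → ℂ) (y : G)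
        = (d : ℂ) + (δ : ℂ) * ∑ᶠ ψ' ∈ {ψ' : (P : Subgroup G) →* ℂˣ |
            excRel (P : Subgroup G) ψ ψ'}, ((ψ' y : ℂˣ) : ℂ)) ∧
      ((d - δ) ^ 2 + ((Yf.card : ℤ) - 1) * d ^ 2 + ∑ χ ∈ Xf, a χ ^ 2 = (m : ℤ) + 1) ∧
      (∀ ψ, ψ ≠ 1 → ∀ g : G, ¬ p ∣ orderOf g → (δ : ℂ) * (ζ ψ : G → ℂ) g
        = ∑ χ ∈ Xf, (a χ : ℂ) * (χ : G → ℂ) g
          + (Yf.card : ℂ) * ((d : ℂ) * (ζ ψ : G → ℂ) g)) ∧
      (∀ ψ ψ', ψ ≠ 1 → ψ' ≠ 1 → ∀ g : G, ¬ p ∣ orderOf g →
        (ζ ψ : G → ℂ) g = (ζ ψ' : G → ℂ) g) := by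
  classical
  have hp : p.Prime := Fact.out
  have : Fintype (P : Subgroup G) := Fintype.ofFinite _
  have : Fintype (Subgroup.normalizer ((P : Subgroup G) : Set G)) := Fintype.ofFinite _
  have : Finite ((P : Subgroup G) →* ℂˣ) := Helper80.finite_hom
  have : Fintype ((P : Subgroup G) →* ℂˣ) := Fintype.ofFinite _
  have hMp : M.IsPrime := Helper81.isPrime_of_isPModular hM
  have hcommA : ∀ x y : (P : Subgroup G), x * y = y * x := fun x y => hab.is_comm.comm x y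
  obtain ⟨T, δ, d, a, ζ, hT, hδ, hζT, hζR, had, hval, hnorm, hreg, hagree, htriv,
    ψ0, ψ1, hψ0, hψ1, h01⟩ := excFinal_data hM P hab hfrob m hm2 hCN
  obtain ⟨Yf, hYf⟩ : ∃ Yf : Finset (Cfsg.IrrCharacter G),
      ∀ χ, χ ∈ Yf ↔ ∃ ψ : (P : Subgroup G) →* ℂˣ, ψ ≠ 1 ∧ ζ ψ = χ := by
    refine ⟨(Finset.univ.filter (fun ψ : (P : Subgroup G) →* ℂˣ => ψ ≠ 1)).image ζ, ?_⟩
    intro χ
    rw [Finset.mem_image]
    constructor
    · rintro ⟨ψ, hψ, rfl⟩
      exact ⟨ψ, (Finset.mem_filter.mp hψ).2, rfl⟩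
    · rintro ⟨ψ, hψ, rfl⟩
      exact ⟨ψ, Finset.mem_filter.mpr ⟨Finset.mem_univ _, hψ⟩, rfl⟩
  have hYT : Yf ⊆ T := by
    intro χ hχ
    obtain ⟨ψ, h, rfl⟩ := (hYf χ).mp hχ
    exact hζT ψ h
  have hζY : ∀ ψ : (P : Subgroup G) →* ℂˣ, ψ ≠ 1 → ζ ψ ∈ Yf := fun ψ h => (hYf _).mpr ⟨ψ, h, rfl⟩
  have hfib : ∀ ψ ψ' : (P : Subgroup G) →* ℂˣ, ψ ≠ 1 →
      ((ψ' ≠ 1 ∧ ζ ψ' = ζ ψ) ↔ excRel (P : Subgroup G) ψ ψ') := by
    intro ψ ψ' h
    constructor
    · rintro ⟨h', he⟩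
      exact (hζR ψ ψ' h h').mp he.symm
    · intro hR
      have h' := excRel_ne_one h hR
      exact ⟨h', ((hζR ψ ψ' h h').mpr hR).symm⟩
  have hYcard : Yf.card * m = Nat.card (P : Subgroup G) - 1 := by
    have h1 := Finset.card_eq_sum_card_fiberwise (f := ζ)
      (s := Finset.univ.filter (fun ψ : (P : Subgroup G) →* ℂˣ => ψ ≠ 1)) (t := Yf)
      (fun ψ hψ => hζY ψ (Finset.mem_filter.mp (Finset.mem_coe.mp hψ)).2)
    have h2 : ∀ b ∈ Yf, ((Finset.univ.filter (fun ψ : (P : Subgroup G) →* ℂˣ => ψ ≠ 1)).filter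
        (fun ψ => ζ ψ = b)).card = m := by
      intro b hb
      obtain ⟨ψb, hψb, rfl⟩ := (hYf b).mp hb
      rw [← excMain_card_orbit P hfrob m hCN ψb hψb]
      congr 1
      ext ψ'
      rw [Finset.mem_filter, Finset.mem_filter, Finset.mem_image]
      constructor
      · rintro ⟨⟨-, h'⟩, he⟩
        obtain ⟨n, hn⟩ := (hfib ψb ψ' hψb).mp ⟨h', he⟩
        exact ⟨n, Finset.mem_univ _, hn⟩
      · rintro ⟨n, -, hn⟩
        have h3 := (hfib ψb ψ' hψb).mpr ⟨n, hn⟩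
        exact ⟨⟨Finset.mem_univ _, h3.1⟩, h3.2⟩
    rw [Finset.sum_congr rfl h2, Finset.sum_const, smul_eq_mul, Finset.filter_ne',
      Finset.card_erase_of_mem (Finset.mem_univ _), Finset.card_univ,
      ← Nat.card_eq_fintype_card, excHom_card hcommA, ← Nat.card_eq_fintype_card] at h1
    exact h1.symm
  have hY2 : 2 ≤ Yf.card := by
    have h1 : 1 < Yf.card :=
      Finset.one_lt_card.mpr ⟨ζ ψ0, hζY ψ0 hψ0, ζ ψ1, hζY ψ1 hψ1, h01⟩
    omega
  obtain ⟨y0, hy0⟩ : ∃ y0 : (P : Subgroup G), y0 ≠ 1 := by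
    by_contra hcon
    push Not at hcon
    have h1 : Nat.card (P : Subgroup G) = 1 := by
      rw [Nat.card_eq_one_iff_unique]
      exact ⟨⟨fun x y => by rw [hcon x, hcon y]⟩, ⟨1⟩⟩
    omega
  have hX : ∀ χ ∈ T \ Yf, ∀ y : (P : Subgroup G), y ≠ 1 →
      (χ : G → ℂ) (y : G) = (a χ : ℂ) := by
    intro χ hχ y hy
    rw [Finset.mem_sdiff] at hχ
    have h1 := hval χ hχ.1 y hy
    have h2 : {ψ : (P : Subgroup G) →* ℂˣ | ψ ≠ 1 ∧ ζ ψ = χ} = ∅ := by
      ext ψ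
      simp only [Set.mem_setOf_eq, Set.mem_empty_iff_false, iff_false]
      intro hh
      exact hχ.2 ((hYf χ).mpr ⟨ψ, hh.1, hh.2⟩)
    rw [h2, finsum_mem_empty, mul_zero, add_zero] at h1
    exact h1
  have hXne : ∀ χ ∈ T \ Yf, a χ ≠ 0 := by
    intro χ hχ h0
    have h1 := hX χ hχ y0 hy0
    rw [h0, Int.cast_zero] at h1
    exact excBlock_ne_zero hM P hab χ ((hT χ).mp (Finset.mem_sdiff.mp hχ).1) (y0 : G) y0.2 h1
  have hsplit : ∀ f : Cfsg.IrrCharacter G → ℤ,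
      ∑ χ ∈ T \ Yf, f χ + ∑ χ ∈ Yf, f χ = ∑ χ ∈ T, f χ := fun f => Finset.sum_sdiff hYT
  have hsplitC : ∀ f : Cfsg.IrrCharacter G → ℂ,
      ∑ χ ∈ T \ Yf, f χ + ∑ χ ∈ Yf, f χ = ∑ χ ∈ T, f χ := fun f => Finset.sum_sdiff hYT
  have haY : ∀ χ ∈ Yf, a χ = d := by
    intro χ hχ
    obtain ⟨ψ, h, rfl⟩ := (hYf χ).mp hχ
    exact had ψ h
  have hYsq : ∑ χ ∈ Yf, a χ ^ 2 = (Yf.card : ℤ) * d ^ 2 := by
    rw [Finset.sum_congr rfl (fun χ hχ => by rw [haY χ hχ]), Finset.sum_const, nsmul_eq_mul]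
  have hnorm' : (d - δ) ^ 2 + ((Yf.card : ℤ) - 1) * d ^ 2 + ∑ χ ∈ T \ Yf, a χ ^ 2
      = (m : ℤ) + 1 := by
    linear_combination hnorm + hsplit (fun χ => a χ ^ 2) - hYsq
  refine ⟨T, T \ Yf, Yf, δ, d, a, ζ, hT, ?_, ?_, hYcard, hY2, ?_, hδ, hXne, haY, hX, hζY,
    fun η hη => (hYf η).mp hη, hζR, ?_, hnorm', ?_, hagree⟩
  · intro χ
    rw [Finset.mem_sdiff]
    constructor
    · intro h
      by_cases h' : χ ∈ Yf
      · exact Or.inr h'
      · exact Or.inl ⟨h, h'⟩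
    · rintro (h | h)
      · exact h.1
      · exact hYT h
  · intro χ hχ
    exact (Finset.mem_sdiff.mp hχ).2
  · rw [Finset.mem_sdiff]
    refine ⟨(hT _).mpr Helper81.trivIrr_mem_principalBlock, ?_⟩
    intro hh
    obtain ⟨ψ, h, he⟩ := (hYf _).mp hh
    exact htriv ψ h he
  · intro ψ h y hy
    rw [hval (ζ ψ) (hζT ψ h) y hy, had ψ h]
    have hset : {ψ' : (P : Subgroup G) →* ℂˣ | ψ' ≠ 1 ∧ ζ ψ' = ζ ψ}
        = {ψ' : (P : Subgroup G) →* ℂˣ | excRel (P : Subgroup G) ψ ψ'} := by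
      ext ψ'
      exact hfib ψ ψ' h
    rw [hset]
  · intro ψ h g hg
    have h1 := hreg ψ h g hg
    have h2 : ∑ χ ∈ Yf, (a χ : ℂ) * (χ : G → ℂ) g
        = (Yf.card : ℂ) * ((d : ℂ) * (ζ ψ : G → ℂ) g) := by
      rw [← nsmul_eq_mul, ← Finset.sum_const]
      refine Finset.sum_congr rfl fun χ hχ => ?_
      obtain ⟨ψ', h', rfl⟩ := (hYf χ).mp hχ
      rw [had ψ' h', hagree ψ' ψ h' h g hg]
    have h3 := hsplitC (fun χ => (a χ : ℂ) * (χ : G → ℂ) g)
    linear_combination h1 - h3 + h2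

/-- The case `|N : C| = 3`: three non-exceptional characters with values `±1` on `P ∖ {1}`, and
the exceptional characters take the values `δ ∑ ψ'(y)` there. -/
theorem excThree_struct {p : ℕ} [Fact p.Prime] {M : Ideal Cfsg.AlgInt}
    (hM : Cfsg.IsPModular p M) (P : Sylow p G) (hab : IsMulCommutative P)
    (hfrob : ∀ y : G, y ∈ (P : Subgroup G) → y ≠ 1 → Subgroup.centralizer ({y} : Set G)
      ⊓ Subgroup.normalizer ((P : Subgroup G) : Set G)
        = Subgroup.centralizer ((P : Subgroup G) : Set G))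
    (hm2 : 3 + 1 < Nat.card (P : Subgroup G))
    (hCN : (Subgroup.centralizer ((P : Subgroup G) : Set G)).relIndex
      (Subgroup.normalizer ((P : Subgroup G) : Set G)) = 3) :
    ∃ (T Xf Yf : Finset (Cfsg.IrrCharacter G)) (δ : ℤ) (a : Cfsg.IrrCharacter G → ℤ)
      (ζ : ((P : Subgroup G) →* ℂˣ) → Cfsg.IrrCharacter G),
      (∀ χ, χ ∈ T ↔ χ ∈ Cfsg.principalBlock M G) ∧
      (∀ χ, χ ∈ T ↔ χ ∈ Xf ∨ χ ∈ Yf) ∧ (∀ χ ∈ Xf, χ ∉ Yf) ∧
      Xf.card = 3 ∧ Yf.card * 3 = Nat.card (P : Subgroup G) - 1 ∧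
      Helper81.trivIrr G ∈ Xf ∧ (δ = 1 ∨ δ = -1) ∧
      (∀ χ ∈ Xf, a χ = 1 ∨ a χ = -1) ∧ a (Helper81.trivIrr G) = 1 ∧
      (∀ χ ∈ Xf, ∀ y : (P : Subgroup G), y ≠ 1 → (χ : G → ℂ) (y : G) = (a χ : ℂ)) ∧
      (∀ ψ, ψ ≠ 1 → ζ ψ ∈ Yf) ∧ (∀ η ∈ Yf, ∃ ψ, ψ ≠ 1 ∧ ζ ψ = η) ∧
      (∀ ψ ψ', ψ ≠ 1 → ψ' ≠ 1 → (ζ ψ = ζ ψ' ↔ excRel (P : Subgroup G) ψ ψ')) ∧
      (∀ ψ, ψ ≠ 1 → ∀ y : (P : Subgroup G), y ≠ 1 → (ζ ψ : G → ℂ) (y : G)
        = (δ : ℂ) * ∑ᶠ ψ' ∈ {ψ' : (P : Subgroup G) →* ℂˣ |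
            excRel (P : Subgroup G) ψ ψ'}, ((ψ' y : ℂˣ) : ℂ)) ∧
      (∀ ψ, ψ ≠ 1 → ∀ g : G, ¬ p ∣ orderOf g → (δ : ℂ) * (ζ ψ : G → ℂ) g
        = ∑ χ ∈ Xf, (a χ : ℂ) * (χ : G → ℂ) g) ∧
      (∀ ψ ψ', ψ ≠ 1 → ψ' ≠ 1 → ∀ g : G, ¬ p ∣ orderOf g →
        (ζ ψ : G → ℂ) g = (ζ ψ' : G → ℂ) g) := by
  classical
  have hp : p.Prime := Fact.out
  have : Fintype (P : Subgroup G) := Fintype.ofFinite _
  have : Finite ((P : Subgroup G) →* ℂˣ) := Helper80.finite_hom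
  have : Fintype ((P : Subgroup G) →* ℂˣ) := Fintype.ofFinite _
  have hcommA : ∀ x y : (P : Subgroup G), x * y = y * x := fun x y => hab.is_comm.comm x y
  obtain ⟨T, Xf, Yf, δ, d, a, ζ, hT, hTXY, hXY, hYcard, hY2, htrivX, hδ, hXne, haY, hXval, hζY,
    hYsurj, hζR, hYval, hnorm, hreg, hagree⟩ := excStruct hM P hab hfrob 3 hm2 hCN
  obtain ⟨y0, hy0⟩ : ∃ y0 : (P : Subgroup G), y0 ≠ 1 := by
    by_contra hcon
    push Not at hcon
    have h1 : Nat.card (P : Subgroup G) = 1 := by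
      rw [Nat.card_eq_one_iff_unique]
      exact ⟨⟨fun x y => by rw [hcon x, hcon y]⟩, ⟨1⟩⟩
    omega
  have hat : a (Helper81.trivIrr G) = 1 := by
    have h1 := hXval _ htrivX y0 hy0
    rw [Helper81.trivIrr_apply] at h1
    exact_mod_cast h1.symm
  have hδ2 : δ ^ 2 = 1 := by rcases hδ with h | h <;> rw [h] <;> norm_num
  -- if the squares of the `a χ` sum to `3`, there are three of them, all `±1`
  have hcomb : ∑ χ ∈ Xf, a χ ^ 2 = 3 → Xf.card = 3 ∧ ∀ χ ∈ Xf, a χ = 1 ∨ a χ = -1 := by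
    intro hs
    have hall : ∀ χ ∈ Xf, a χ = 1 ∨ a χ = -1 := by
      intro χ hχ
      by_contra hcon
      push Not at hcon
      have h4 : 4 ≤ a χ ^ 2 := by
        have h0 := hXne χ hχ
        have h1 : a χ ≤ -2 ∨ 2 ≤ a χ := by omega
        rcases h1 with h | h <;> nlinarith
      have hne : χ ≠ Helper81.trivIrr G := by
        intro h
        rw [h, hat] at hcon
        exact hcon.1 rfl
      have h5 := Finset.add_sum_erase Xf (fun χ => a χ ^ 2) hχ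
      have h6 := Finset.add_sum_erase (Xf.erase χ) (fun χ => a χ ^ 2)
        (Finset.mem_erase.mpr ⟨hne.symm, htrivX⟩)
      have h7 : 0 ≤ ∑ x ∈ (Xf.erase χ).erase (Helper81.trivIrr G), a x ^ 2 :=
        Finset.sum_nonneg (fun _ _ => sq_nonneg _)
      rw [hat] at h6
      linarith
    refine ⟨?_, hall⟩
    have h8 : ∑ χ ∈ Xf, a χ ^ 2 = ∑ χ ∈ Xf, (1 : ℤ) :=
      Finset.sum_congr rfl (fun χ hχ => by rcases hall χ hχ with h | h <;> rw [h] <;> norm_num)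
    rw [h8, Finset.sum_const, nsmul_eq_mul, mul_one] at hs
    exact_mod_cast hs
  have hXsum1 : 1 ≤ ∑ χ ∈ Xf, a χ ^ 2 := by
    have h5 := Finset.add_sum_erase Xf (fun χ => a χ ^ 2) htrivX
    have h7 : 0 ≤ ∑ x ∈ Xf.erase (Helper81.trivIrr G), a x ^ 2 :=
      Finset.sum_nonneg (fun _ _ => sq_nonneg _)
    rw [hat] at h5
    linarith
  have hc2 : (2 : ℤ) ≤ (Yf.card : ℤ) := by exact_mod_cast hY2
  have hnorm4 : (d - δ) ^ 2 + ((Yf.card : ℤ) - 1) * d ^ 2 + ∑ χ ∈ Xf, a χ ^ 2 = 4 := by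
    rw [hnorm]; norm_num
  have hd : d = 0 ∨ d = δ := by
    have h1 : (d - δ) ^ 2 + d ^ 2 ≤ 3 := by nlinarith [sq_nonneg d]
    have h2 : d ^ 2 ≤ 3 := by nlinarith [sq_nonneg (d - δ)]
    have h3 : -1 ≤ d := by nlinarith
    have h4 : d ≤ 1 := by nlinarith
    have h5 : d = -1 ∨ d = 0 ∨ d = 1 := by omega
    rcases hδ with h | h <;> rcases h5 with h6 | h6 | h6
    · exfalso; rw [h, h6] at h1; norm_num at h1
    · left; exact h6
    · right; rw [h, h6]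
    · right; rw [h, h6]
    · left; exact h6
    · exfalso; rw [h, h6] at h1; norm_num at h1
  rcases hd with hd0 | hdδ
  · -- `d = 0`
    rw [hd0] at hnorm4
    obtain ⟨hX3, hall⟩ := hcomb (by linear_combination hnorm4 - hδ2)
    refine ⟨T, Xf, Yf, δ, a, ζ, hT, hTXY, hXY, hX3, hYcard, htrivX, hδ, hall, hat, hXval, hζY,
      hYsurj, hζR, ?_, ?_, hagree⟩
    · intro ψ h y hy
      rw [hYval ψ h y hy, hd0, Int.cast_zero, zero_add]
    · intro ψ h g hg
      rw [hreg ψ h g hg, hd0, Int.cast_zero, zero_mul, mul_zero, add_zero]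
  · -- `d = δ`: there are exactly two exceptional characters, and we relabel
    rw [hdδ] at hnorm4
    have hc4 : (Yf.card : ℤ) ≤ 4 := by
      have h1 : ((Yf.card : ℤ) - 1) * δ ^ 2 = (Yf.card : ℤ) - 1 := by rw [hδ2, mul_one]
      have h2 : (δ - δ) ^ 2 = 0 := by ring
      linarith
    have hYc : Yf.card = 2 ∨ Yf.card = 3 ∨ Yf.card = 4 := by omega
    obtain ⟨η00, hη00⟩ : ∃ η, η ∈ Yf := Finset.card_pos.mp (by omega)
    obtain ⟨ψ00, hψ00, -⟩ := hYsurj η00 hη00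
    have hreg1 : ¬ p ∣ orderOf (1 : G) := by
      rw [orderOf_one]
      exact hp.one_lt.ne' ∘ Nat.dvd_one.mp
    rcases hYc with hY | hY | hY
    · -- two exceptional characters
      rw [hY] at hnorm4
      push_cast at hnorm4
      obtain ⟨hX3, hall⟩ := hcomb (by linear_combination hnorm4 - hδ2)
      obtain ⟨η1, η2, hη12, hYeq⟩ := Finset.card_eq_two.mp hY
      have hmemY : ∀ χ, χ ∈ Yf ↔ χ = η1 ∨ χ = η2 := by
        intro χ
        rw [hYeq, Finset.mem_insert, Finset.mem_singleton]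
      obtain ⟨sw, hsw⟩ : ∃ sw : Cfsg.IrrCharacter G → Cfsg.IrrCharacter G,
          ∀ χ, sw χ = if χ = η1 then η2 else η1 := ⟨_, fun _ => rfl⟩
      have hsw1 : sw η1 = η2 := by rw [hsw, if_pos rfl]
      have hsw2 : sw η2 = η1 := by rw [hsw, if_neg hη12.symm]
      have hswY : ∀ χ ∈ Yf, sw χ ∈ Yf ∧ sw χ ≠ χ ∧ sw (sw χ) = χ := by
        intro χ hχ
        rcases (hmemY χ).mp hχ with h | h
        · rw [h, hsw1, hsw2]
          exact ⟨(hmemY _).mpr (Or.inr rfl), hη12.symm, rfl⟩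
        · rw [h, hsw2, hsw1]
          exact ⟨(hmemY _).mpr (Or.inl rfl), hη12, rfl⟩
      -- a partner for every nontrivial linear character
      have hpartner : ∀ ψ : (P : Subgroup G) →* ℂˣ, ψ ≠ 1 →
          ∃ ψ' : (P : Subgroup G) →* ℂˣ, ψ' ≠ 1 ∧ ζ ψ' = sw (ζ ψ) ∧ ζ ψ' ≠ ζ ψ := by
        intro ψ h
        obtain ⟨h1, h2, -⟩ := hswY (ζ ψ) (hζY ψ h)
        obtain ⟨ψ', h', he⟩ := hYsurj _ h1
        exact ⟨ψ', h', he, by rw [he]; exact h2⟩
      obtain ⟨ζ', hζ'⟩ : ∃ ζ' : ((P : Subgroup G) →* ℂˣ) → Cfsg.IrrCharacter G,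
          ∀ ψ, ζ' ψ = sw (ζ ψ) := ⟨_, fun _ => rfl⟩
      refine ⟨T, Xf, Yf, -δ, a, ζ', hT, hTXY, hXY, hX3, hYcard,
        htrivX, ?_, hall, hat, hXval, ?_, ?_, ?_, ?_, ?_, ?_⟩
      · rcases hδ with h | h
        · right; rw [h]
        · left; rw [h]; norm_num
      · intro ψ h
        rw [hζ']
        exact (hswY _ (hζY ψ h)).1
      · intro η hη
        obtain ⟨h1, -, h3⟩ := hswY η hη
        obtain ⟨ψ', h', he⟩ := hYsurj _ h1
        exact ⟨ψ', h', by rw [hζ', he, h3]⟩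
      · intro ψ ψ' h h'
        rw [← hζR ψ ψ' h h', hζ', hζ']
        constructor
        · intro he
          have e1 := (hswY _ (hζY ψ h)).2.2
          have e2 := (hswY _ (hζY ψ' h')).2.2
          rw [← e1, ← e2, he]
        · intro he
          rw [he]
      · -- the values on `P`
        intro ψ h y hy
        obtain ⟨ψ', h', he, hne⟩ := hpartner ψ h
        rw [hζ', ← he, hYval ψ' h' y hy, hdδ]
        have hsum := excHom_sum_dual hcommA y
        rw [if_neg hy] at hsum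
        have hcov : ∀ ψ'' : (P : Subgroup G) →* ℂˣ, ((ψ'' y : ℂˣ) : ℂ)
            = (if ψ'' = 1 then (1 : ℂ) else 0)
              + (if excRel (P : Subgroup G) ψ ψ'' then ((ψ'' y : ℂˣ) : ℂ) else 0)
              + (if excRel (P : Subgroup G) ψ' ψ'' then ((ψ'' y : ℂˣ) : ℂ) else 0) := by
          intro ψ''
          by_cases h1 : ψ'' = 1
          · have hn1 : ¬ excRel (P : Subgroup G) ψ ψ'' := fun hR => excRel_ne_one h hR h1
            have hn2 : ¬ excRel (P : Subgroup G) ψ' ψ'' := fun hR => excRel_ne_one h' hR h1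
            rw [if_pos h1, if_neg hn1, if_neg hn2, h1]
            simp
          · rw [if_neg h1]
            have hmem := (hmemY _).mp (hζY ψ'' h1)
            have hmem1 := (hmemY _).mp (hζY ψ h)
            have hmem2 := (hmemY _).mp (hζY ψ' h')
            by_cases hR : excRel (P : Subgroup G) ψ ψ''
            · have hn2 : ¬ excRel (P : Subgroup G) ψ' ψ'' := by
                intro hR'
                apply hne
                rw [(hζR ψ' ψ'' h' h1).mpr hR', (hζR ψ ψ'' h h1).mpr hR]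
              rw [if_pos hR, if_neg hn2]
              ring
            · have hR' : excRel (P : Subgroup G) ψ' ψ'' := by
                rw [← hζR ψ' ψ'' h' h1]
                have hne2 : ζ ψ ≠ ζ ψ'' := fun hh => hR ((hζR ψ ψ'' h h1).mp hh)
                rcases hmem with e | e <;> rcases hmem1 with e1 | e1 <;>
                  rcases hmem2 with e2 | e2
                · exact absurd (e1.trans e.symm) hne2
                · exact absurd (e1.trans e.symm) hne2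
                · exact e2.trans e.symm
                · exact absurd (e2.trans e1.symm) hne
                · exact absurd (e2.trans e1.symm) hne
                · exact e2.trans e.symm
                · exact absurd (e1.trans e.symm) hne2
                · exact absurd (e1.trans e.symm) hne2
              rw [if_neg hR, if_pos hR']
              ring
        rw [Finset.sum_congr rfl (fun ψ'' _ => hcov ψ''), Finset.sum_add_distrib,
          Finset.sum_add_distrib, Finset.sum_ite_eq' Finset.univ (1 : (P : Subgroup G) →* ℂˣ)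
            (fun _ => (1 : ℂ)), if_pos (Finset.mem_univ _), ← Finset.sum_filter,
          ← Finset.sum_filter] at hsum
        rw [Helper81.finsum_mem_eq_sum_filter_univ, Helper81.finsum_mem_eq_sum_filter_univ]
        push_cast
        have e1 : ∑ ψ'' ∈ Finset.univ.filter (fun ψ'' : (P : Subgroup G) →* ℂˣ =>
              ψ'' ∈ {ψ'' : (P : Subgroup G) →* ℂˣ | excRel (P : Subgroup G) ψ' ψ''}),
              ((ψ'' y : ℂˣ) : ℂ)
            = ∑ ψ'' ∈ Finset.univ.filter (fun ψ'' : (P : Subgroup G) →* ℂˣ =>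
              excRel (P : Subgroup G) ψ' ψ''), ((ψ'' y : ℂˣ) : ℂ) := rfl
        have e2 : ∑ ψ'' ∈ Finset.univ.filter (fun ψ'' : (P : Subgroup G) →* ℂˣ =>
              ψ'' ∈ {ψ'' : (P : Subgroup G) →* ℂˣ | excRel (P : Subgroup G) ψ ψ''}),
              ((ψ'' y : ℂˣ) : ℂ)
            = ∑ ψ'' ∈ Finset.univ.filter (fun ψ'' : (P : Subgroup G) →* ℂˣ =>
              excRel (P : Subgroup G) ψ ψ''), ((ψ'' y : ℂˣ) : ℂ) := rfl
        rw [e1, e2]
        linear_combination (δ : ℂ) * hsum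
      · -- `p`-regular elements
        intro ψ h g hg
        obtain ⟨ψ', h', he, hne⟩ := hpartner ψ h
        rw [hζ', ← he]
        have h1 := hreg ψ' h' g hg
        rw [hY, hdδ] at h1
        push_cast at h1 ⊢
        linear_combination h1
      · intro ψ ψ' h h' g hg
        obtain ⟨ψ2, h2, he2, -⟩ := hpartner ψ h
        obtain ⟨ψ3, h3, he3, -⟩ := hpartner ψ' h'
        rw [hζ', hζ', ← he2, ← he3]
        exact hagree ψ2 ψ3 h2 h3 g hg
    · -- three exceptional characters: `|P| = 10`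
      exfalso
      obtain ⟨n, hn⟩ := IsPGroup.iff_card.mp P.isPGroup'
      have h10 : p ^ n = 10 := by
        have hn' : Nat.card (P : Subgroup G) = p ^ n := hn
        rw [hY] at hYcard
        omega
      have h2 : 2 ∣ p ^ n := by rw [h10]; norm_num
      have h5 : 5 ∣ p ^ n := by rw [h10]; norm_num
      have e2 := (Nat.prime_dvd_prime_iff_eq Nat.prime_two hp).mp (Nat.prime_two.dvd_of_dvd_pow h2)
      have e5 := (Nat.prime_dvd_prime_iff_eq (by norm_num : Nat.Prime 5) hp).mp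
        ((by norm_num : Nat.Prime 5).dvd_of_dvd_pow h5)
      omega
    · -- four exceptional characters: only the principal character is non-exceptional
      exfalso
      rw [hY] at hnorm4
      have hs1 : ∑ χ ∈ Xf, a χ ^ 2 = 1 := by
        push_cast at hnorm4
        linear_combination hnorm4 - 3 * hδ2
      have hXeq : Xf = {Helper81.trivIrr G} := by
        rw [Finset.eq_singleton_iff_unique_mem]
        refine ⟨htrivX, ?_⟩
        intro χ hχ
        by_contra hne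
        have h5 := Finset.add_sum_erase Xf (fun χ => a χ ^ 2) hχ
        have h6 := Finset.add_sum_erase (Xf.erase χ) (fun χ => a χ ^ 2)
          (Finset.mem_erase.mpr ⟨fun hh => hne hh.symm, htrivX⟩)
        have h7 : 0 ≤ ∑ x ∈ (Xf.erase χ).erase (Helper81.trivIrr G), a x ^ 2 :=
          Finset.sum_nonneg (fun _ _ => sq_nonneg _)
        have h8 : 1 ≤ a χ ^ 2 := by
          have h0 := hXne χ hχ
          have h9 : 0 < a χ ^ 2 := by positivity
          omega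
        rw [hat] at h6
        linarith
      have h1 := hreg ψ00 hψ00 1 hreg1
      rw [hXeq, Finset.sum_singleton, hat, hY, hdδ, Helper81.trivIrr_apply,
        Helper81.irr_one_eq_charDegree] at h1
      have h2 : (δ : ℤ) * (Cfsg.charDegree (ζ ψ00 : G → ℂ) : ℤ)
          = 1 + 4 * (δ * (Cfsg.charDegree (ζ ψ00 : G → ℂ) : ℤ)) := by
        have h3 : ((δ * (Cfsg.charDegree (ζ ψ00 : G → ℂ) : ℤ) : ℤ) : ℂ)
            = ((1 + 4 * (δ * (Cfsg.charDegree (ζ ψ00 : G → ℂ) : ℤ)) : ℤ) : ℂ) := by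
          push_cast
          push_cast at h1
          linear_combination h1
        exact_mod_cast h3
      rcases hδ with h | h <;> rw [h] at h2 <;> omega

end Cfsg.Agent.Helper82
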