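import Cfsg.Agent.Helper82.ExcInv

/-!
# Brauer's theorem for an abelian Sylow subgroup with `|N : C| = 3` (helper82)

The final statement, assembled from `excThree_struct` and `excInv_main`.
-/

set_option autoImplicit false
open Cfsg
open scoped ComplexConjugate

namespace Cfsg.Agent.Helper82

universe u

variable {G : Type u} [Group G] [Fintype G]

/-- Brauer's theorem on the principal block for an abelian Sylow `p`-subgroup with
`|N_G(P) : C_G(P)| = 3` acting freely, including the involution part. -/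
theorem excThree_final (p : ℕ) [Fact p.Prime] (M : Ideal Cfsg.AlgInt) (hM : Cfsg.IsPModular p M) (P : Sylow p G) (hab : IsMulCommutative P) (hP1 : Nat.card P ≠ 1) (hCN : (Subgroup.centralizer ((P : Subgroup G) : Set G)).relIndex (Subgroup.normalizer ((P : Subgroup G) : Set G)) = 3) (hm2 : 3 + 1 < Nat.card P) (hfrob : ∀ y : G, y ∈ (P : Subgroup G) → y ≠ 1 → Subgroup.centralizer ({y} : Set G) ⊓ Subgroup.normalizer ((P : Subgroup G) : Set G) = Subgroup.centralizer ((P : Subgroup G) : Set G)) : ∃ (X Y : Set (Cfsg.IrrCharacter G)), Cfsg.principalBlock M G = X ∪ Y ∧ Disjoint X Y ∧ Nat.card X = 3 ∧ Nat.card Y = (Nat.card P - 1) / 3 ∧ (∃ χ₁ ∈ X, (χ₁ : G → ℂ) = fun _ => 1) ∧ ∃ (a : Cfsg.IrrCharacter G → ℤ) (δ : ℤ) (ζ : (↥(P : Subgroup G) →* ℂˣ) → Cfsg.IrrCharacter G), (δ = 1 ∨ δ = -1) ∧ (∀ χ ∈ X, (a χ = 1 ∨ a χ = -1) ∧ ∀ z y : G, Cfsg.IsPPart p z y → y ∈ (P : Subgroup G) → y ≠ 1 → (χ : G → ℂ) z = (a χ : ℂ)) ∧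 (∀ ψ : ↥(P : Subgroup G) →* ℂˣ, ψ ≠ 1 → ζ ψ ∈ Y) ∧ (∀ η ∈ Y, ∃ ψ : ↥(P : Subgroup G) →* ℂˣ, ψ ≠ 1 ∧ ζ ψ = η) ∧ (∀ ψ ψ' : ↥(P : Subgroup G) →* ℂˣ, ψ ≠ 1 → (∃ n : G, n ∈ Subgroup.normalizer ((P : Subgroup G) : Set G) ∧ ∀ w w' : ↥(P : Subgroup G), (w' : G) = n * w * n⁻¹ → ψ' w' = ψ w) → ζ ψ' = ζ ψ) ∧ (∀ ψ : ↥(P : Subgroup G) →* ℂˣ, ψ ≠ 1 → ∀ (z : G) (y : ↥(P : Subgroup G)), Cfsg.IsPPart p z (y : G) → (y : G) ≠ 1 → (ζ ψ : G → ℂ) z = (δ : ℂ) * ∑ᶠ ψ' ∈ {ψ' : ↥(P : Subgroup G) →* ℂˣ | ∃ n : G, n ∈ Subgroup.normalizer ((P : Subgroup G) : Set G) ∧ ∀ w w' : ↥(P : Subgroup G), (w' : G) = n * w * n⁻¹ → ψ' w' = ψ w}, ((ψ' y : ℂˣ) : ℂ)) ∧ ((∃ t : G, orderOf t = 2 ∧ ∀ K : Subgroup G, K.Normal → t ∈ K → K = ⊤) → Nat.card {χ : Cfsg.IrrCharacter G // χ ∈ X ∧ (χ : G → ℂ) ≠ (fun _ => 1) ∧ a χ = -1} + (if δ = 1 then 1 else 0) = 2 ∧ ∀ η ∈ Y, IsSquare (Cfsg.charDegree (η : G → ℂ) * ∏ᶠ χ ∈ {χ : Cfsg.IrrCharacter G | χ ∈ X ∧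 (χ : G → ℂ) ≠ fun _ => 1}, Cfsg.charDegree (χ : G → ℂ))) := by
  classical
  have hp : p.Prime := Fact.out
  have hm2' : 3 + 1 < Nat.card (P : Subgroup G) := hm2
  obtain ⟨T, Xf, Yf, δ, a, ζ, hT, hTXY, hXY, hXcard, hYcard, htrivX, hδ, ha, hat, hXval, hζY,
    hYsurj, hζR, hYval, hreg, hagree⟩ := excThree_struct hM P hab hfrob hm2' hCN
  refine ⟨(Xf : Set (Cfsg.IrrCharacter G)), (Yf : Set (Cfsg.IrrCharacter G)), ?_, ?_, ?_, ?_, ?_,
    a, δ, ζ, hδ, ?_, ?_, ?_, ?_, ?_, ?_⟩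
  · ext χ
    rw [Set.mem_union, Finset.mem_coe, Finset.mem_coe, ← hTXY, hT]
  · exact Finset.disjoint_coe.mpr (Finset.disjoint_left.mpr hXY)
  · rw [Nat.card_coe_set_eq, Set.ncard_coe_finset]
    exact hXcard
  · rw [Nat.card_coe_set_eq, Set.ncard_coe_finset]
    have h1 : (Nat.card (P : Subgroup G) - 1) / 3 = Yf.card :=
      Nat.div_eq_of_eq_mul_left (by norm_num) hYcard.symm
    exact h1.symm
  · exact ⟨Helper81.trivIrr G, Finset.mem_coe.mpr htrivX, rfl⟩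
  · intro χ hχ
    rw [Finset.mem_coe] at hχ
    refine ⟨ha χ hχ, ?_⟩
    intro z y hz hy hy1
    have hχB := (hT χ).mp ((hTXY χ).mpr (Or.inl hχ))
    rw [excBlock_const hM P hab hfrob χ hχB z y hz hy hy1]
    exact hXval χ hχ ⟨y, hy⟩ (fun hh => hy1 (congrArg Subtype.val hh))
  · intro ψ h
    exact Finset.mem_coe.mpr (hζY ψ h)
  · intro η hη
    exact hYsurj η (Finset.mem_coe.mp hη)
  · intro ψ ψ' h horb
    have hR : excRel (P : Subgroup G) ψ ψ' := (excAct_orbit_iff (P : Subgroup G) ψ ψ').mp horb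
    have h' := excRel_ne_one h hR
    exact ((hζR ψ ψ' h h').mpr hR).symm
  · intro ψ h z y hz hy1
    have hχB := (hT _).mp ((hTXY _).mpr (Or.inr (hζY ψ h)))
    rw [excBlock_const hM P hab hfrob (ζ ψ) hχB z (y : G) hz y.2 hy1,
      hYval ψ h y (fun hh => hy1 (congrArg Subtype.val hh))]
    have hset : {ψ' : (P : Subgroup G) →* ℂˣ | excRel (P : Subgroup G) ψ ψ'}
        = {ψ' : (P : Subgroup G) →* ℂˣ | ∃ n : G,
            n ∈ Subgroup.normalizer ((P : Subgroup G) : Set G) ∧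
            ∀ w w' : (P : Subgroup G), (w' : G) = n * w * n⁻¹ → ψ' w' = ψ w} := by
      ext ψ'
      rw [Set.mem_setOf_eq, Set.mem_setOf_eq, excAct_orbit_iff]
      rfl
    rw [hset]
  · rintro ⟨t, ht, htK⟩
    obtain ⟨χ₂, χ₃, hXf, h12, h13, h23, hsign, hsq⟩ := excInv_main hM P hab hfrob hm2' hCN T Xf Yf
      δ a ζ hT hTXY hXY hXcard hYcard htrivX hδ ha hat hXval hYsurj hYval hreg t ht htK
    have hne : ∀ χ : Cfsg.IrrCharacter G,
        ((χ : G → ℂ) ≠ fun _ => 1) ↔ χ ≠ Helper81.trivIrr G := by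
      intro χ
      constructor
      · intro h h'
        apply h
        rw [h']
        rfl
      · intro h h'
        apply h
        exact Subtype.ext h'
    constructor
    · have hset : {χ : Cfsg.IrrCharacter G | χ ∈ (Xf : Set (Cfsg.IrrCharacter G)) ∧
          (χ : G → ℂ) ≠ (fun _ => 1) ∧ a χ = -1}
          = ((({χ₂, χ₃} : Finset (Cfsg.IrrCharacter G)).filter (fun χ => a χ = -1)
            : Finset (Cfsg.IrrCharacter G)) : Set (Cfsg.IrrCharacter G)) := by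
        ext χ
        rw [Set.mem_setOf_eq, hne, hXf]
        simp only [Finset.mem_coe, Finset.mem_filter, Finset.mem_insert, Finset.mem_singleton]
        constructor
        · rintro ⟨h1 | h1 | h1, h2, h3⟩
          · exact absurd h1 h2
          · exact ⟨Or.inl h1, h3⟩
          · exact ⟨Or.inr h1, h3⟩
        · rintro ⟨h1 | h1, h3⟩
          · exact ⟨Or.inr (Or.inl h1), by rw [h1]; exact h12.symm, h3⟩
          · exact ⟨Or.inr (Or.inr h1), by rw [h1]; exact h13.symm, h3⟩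
      have hcard : Nat.card {χ : Cfsg.IrrCharacter G // χ ∈ (Xf : Set (Cfsg.IrrCharacter G)) ∧
          (χ : G → ℂ) ≠ (fun _ => 1) ∧ a χ = -1}
          = (({χ₂, χ₃} : Finset (Cfsg.IrrCharacter G)).filter (fun χ => a χ = -1)).card := by
        have h1 : Nat.card {χ : Cfsg.IrrCharacter G // χ ∈ (Xf : Set (Cfsg.IrrCharacter G)) ∧
            (χ : G → ℂ) ≠ (fun _ => 1) ∧ a χ = -1}
            = Nat.card ↥({χ : Cfsg.IrrCharacter G | χ ∈ (Xf : Set (Cfsg.IrrCharacter G)) ∧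
              (χ : G → ℂ) ≠ (fun _ => 1) ∧ a χ = -1} : Set (Cfsg.IrrCharacter G)) := rfl
        rw [h1, hset, Nat.card_coe_set_eq, Set.ncard_coe_finset]
      rw [hcard]
      rcases hsign with ⟨h2, h3, hd⟩ | ⟨h2, h3, hd⟩ | ⟨h2, h3, hd⟩
      · rw [Finset.filter_insert, Finset.filter_singleton, if_pos h2, if_pos h3,
          Finset.card_pair h23, if_neg (by rw [hd]; norm_num)]
      · rw [Finset.filter_insert, Finset.filter_singleton, if_pos h2,
          if_neg (by rw [h3]; norm_num), if_pos hd]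
        simp
      · rw [Finset.filter_insert, Finset.filter_singleton, if_neg (by rw [h2]; norm_num),
          if_pos h3, if_pos hd]
        simp
    · intro η hη
      have hset2 : {χ : Cfsg.IrrCharacter G | χ ∈ (Xf : Set (Cfsg.IrrCharacter G)) ∧
          (χ : G → ℂ) ≠ fun _ => 1}
          = (({χ₂, χ₃} : Finset (Cfsg.IrrCharacter G)) : Set (Cfsg.IrrCharacter G)) := by
        ext χ
        rw [Set.mem_setOf_eq, hne, hXf]
        simp only [Finset.mem_coe, Finset.mem_insert, Finset.mem_singleton]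
        constructor
        · rintro ⟨h1 | h1 | h1, h2⟩
          · exact absurd h1 h2
          · exact Or.inl h1
          · exact Or.inr h1
        · rintro (h1 | h1)
          · exact ⟨Or.inr (Or.inl h1), by rw [h1]; exact h12.symm⟩
          · exact ⟨Or.inr (Or.inr h1), by rw [h1]; exact h13.symm⟩
      rw [hset2, finprod_mem_coe_finset, Finset.prod_pair h23]
      have h1 := hsq η (Finset.mem_coe.mp hη)
      rwa [mul_comm] at h1

end Cfsg.Agent.Helper82
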