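import Mathlib.Algebra.BigOperators.Finprod

/-!
# Lower bounds for natural-number valued `finsum`s over finite sets
-/

set_option autoImplicit false

namespace Cfsg.Agent.Helper82

theorem le_finsum_mem_nat {α : Type*} {S : Set α} (hS : S.Finite) (f : α → ℕ) {a : α}
    (ha : a ∈ S) : f a ≤ ∑ᶠ i ∈ S, f i := by
  rw [finsum_mem_eq_finite_toFinset_sum _ hS]
  exact Finset.single_le_sum (fun _ _ => Nat.zero_le _) (hS.mem_toFinset.mpr ha)

theorem add_le_finsum_mem_nat {α : Type*} {S : Set α} (hS : S.Finite) (f : α → ℕ) {a a' : α}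
    (ha : a ∈ S) (ha' : a' ∈ S) (hne : a ≠ a') : f a + f a' ≤ ∑ᶠ i ∈ S, f i := by
  classical
  rw [finsum_mem_eq_finite_toFinset_sum _ hS, ← Finset.sum_pair hne]
  apply Finset.sum_le_sum_of_subset
  intro i hi
  rw [Finset.mem_insert, Finset.mem_singleton] at hi
  rcases hi with rfl | rfl
  · exact hS.mem_toFinset.mpr ha
  · exact hS.mem_toFinset.mpr ha'

end Cfsg.Agent.Helper82
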