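import Mathlib

/-!
# Invariant bilinear forms relative to invariant subspaces

Everything is stated inside a fixed ambient space `V` with a representation `ρ`:
invariant subspaces (`GInv`), forms invariant on a subspace (`FInv`), forms that are
left-nondegenerate on a subspace (`NDOn`).  We prove representation of functionals,
orthogonal splitting, Maschke complements, gluing of forms along a direct sum, and the
"peeling" decomposition of a self-dual module into an alternating and a symmetric part.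
-/

namespace Cfsg.Agent.Helper82

universe u v w

section basic
variable {F : Type u} [Field F] {G : Type v} [Group G] {V : Type w} [AddCommGroup V] [Module F V]

/-- `M` is invariant under `ρ`. -/
def GInv (ρ : Representation F G V) (M : Submodule F V) : Prop :=
  ∀ g : G, ∀ x ∈ M, ρ g x ∈ M

/-- `b` is `ρ`-invariant on `M`. -/
def FInv (ρ : Representation F G V) (b : LinearMap.BilinForm F V) (M : Submodule F V) : Prop :=
  ∀ g : G, ∀ x ∈ M, ∀ y ∈ M, b (ρ g x) (ρ g y) = b x y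

/-- `b` is left-nondegenerate on `M`. -/
def NDOn (b : LinearMap.BilinForm F V) (M : Submodule F V) : Prop :=
  ∀ x ∈ M, (∀ y ∈ M, b x y = 0) → x = 0

theorem rho_inv_apply (ρ : Representation F G V) (g : G) (x : V) : ρ g (ρ g⁻¹ x) = x := by
  rw [← Module.End.mul_apply, ← map_mul, mul_inv_cancel, map_one, Module.End.one_apply]

theorem rho_inv_apply' (ρ : Representation F G V) (g : G) (x : V) : ρ g⁻¹ (ρ g x) = x := by
  rw [← Module.End.mul_apply, ← map_mul, inv_mul_cancel, map_one, Module.End.one_apply]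

theorem GInv.sup {ρ : Representation F G V} {M N : Submodule F V} (hM : GInv ρ M)
    (hN : GInv ρ N) : GInv ρ (M ⊔ N) := by
  intro g x hx
  obtain ⟨a, ha, b, hb, rfl⟩ := Submodule.mem_sup.mp hx
  rw [map_add]
  exact Submodule.add_mem _ (Submodule.mem_sup_left (hM g a ha))
    (Submodule.mem_sup_right (hN g b hb))

theorem GInv.inf {ρ : Representation F G V} {M N : Submodule F V} (hM : GInv ρ M)
    (hN : GInv ρ N) : GInv ρ (M ⊓ N) := by
  intro g x hx
  exact ⟨hM g x hx.1, hN g x hx.2⟩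

theorem FInv.mono {ρ : Representation F G V} {b : LinearMap.BilinForm F V}
    {M N : Submodule F V} (h : FInv ρ b M) (hNM : N ≤ M) : FInv ρ b N :=
  fun g x hx y hy => h g x (hNM hx) y (hNM hy)

/-- moving a group element across an invariant form -/
theorem FInv.move {ρ : Representation F G V} {b : LinearMap.BilinForm F V}
    {M : Submodule F V} (h : FInv ρ b M) (hM : GInv ρ M) (g : G) {x y : V} (hx : x ∈ M)
    (hy : y ∈ M) : b x (ρ g y) = b (ρ g⁻¹ x) y := by
  have := h g (ρ g⁻¹ x) (hM _ x hx) y hy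
  rw [rho_inv_apply] at this
  exact this

theorem FInv.move' {ρ : Representation F G V} {b : LinearMap.BilinForm F V}
    {M : Submodule F V} (h : FInv ρ b M) (hM : GInv ρ M) (g : G) {x y : V} (hx : x ∈ M)
    (hy : y ∈ M) : b (ρ g x) y = b x (ρ g⁻¹ y) := by
  have := h g x hx (ρ g⁻¹ y) (hM _ y hy)
  rw [rho_inv_apply] at this
  exact this

/-- The right orthogonal of `P` inside `M`. -/
def rperp (b : LinearMap.BilinForm F V) (P M : Submodule F V) : Submodule F V where
  carrier := {m | m ∈ M ∧ ∀ p ∈ P, b p m = 0}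
  add_mem' := by
    rintro x y ⟨hx, hx'⟩ ⟨hy, hy'⟩
    refine ⟨M.add_mem hx hy, fun p hp => ?_⟩
    rw [map_add, hx' p hp, hy' p hp, add_zero]
  zero_mem' := ⟨M.zero_mem, fun p _ => by simp⟩
  smul_mem' := by
    rintro c x ⟨hx, hx'⟩
    refine ⟨M.smul_mem c hx, fun p hp => ?_⟩
    rw [map_smul, hx' p hp, smul_zero]

theorem mem_rperp {b : LinearMap.BilinForm F V} {P M : Submodule F V} {m : V} :
    m ∈ rperp b P M ↔ m ∈ M ∧ ∀ p ∈ P, b p m = 0 := Iff.rfl

theorem rperp_le (b : LinearMap.BilinForm F V) (P M : Submodule F V) : rperp b P M ≤ M :=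
  fun _ hx => hx.1

theorem rperp_ginv {ρ : Representation F G V} {b : LinearMap.BilinForm F V}
    {P M : Submodule F V} (hP : GInv ρ P) (hM : GInv ρ M) (hb : FInv ρ b M) (hPM : P ≤ M) :
    GInv ρ (rperp b P M) := by
  intro g m hm
  refine ⟨hM g m hm.1, fun p hp => ?_⟩
  rw [hb.move hM g (hPM hp) hm.1]
  exact hm.2 _ (hP _ p hp)

end basic

section findim
variable {F : Type u} [Field F] {V : Type w} [AddCommGroup V] [Module F V]
  [FiniteDimensional F V]

/-- Left representation of functionals on a subspace on which `b` is nondegenerate. -/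
theorem NDOn.repr_sub {b : LinearMap.BilinForm F V} {P : Submodule F V} (h : NDOn b P)
    (ψ : Module.Dual F P) : ∃ p : P, ∀ y : P, b p y = ψ y := by
  let L : P →ₗ[F] Module.Dual F P := b.compl₁₂ P.subtype P.subtype
  have hinj : Function.Injective L := by
    rw [← LinearMap.ker_eq_bot, LinearMap.ker_eq_bot']
    intro x hx
    apply Subtype.ext
    apply h x.1 x.2
    intro y hy
    have := congrArg (fun f : Module.Dual F P => f ⟨y, hy⟩) hx
    simpa [L] using this
  have hsurj : Function.Surjective L :=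
    (LinearMap.injective_iff_surjective_of_finrank_eq_finrank
      (Subspace.dual_finrank_eq (K := F) (V := P)).symm).mp hinj
  obtain ⟨p, hp⟩ := hsurj ψ
  refine ⟨p, fun y => ?_⟩
  rw [← hp]
  rfl

theorem NDOn.repr_left {b : LinearMap.BilinForm F V} {P : Submodule F V} (h : NDOn b P)
    (φ : Module.Dual F V) : ∃ p ∈ P, ∀ y ∈ P, b p y = φ y := by
  obtain ⟨p, hp⟩ := h.repr_sub (φ.comp P.subtype)
  exact ⟨p.1, p.2, fun y hy => hp ⟨y, hy⟩⟩

theorem NDOn.flip {b : LinearMap.BilinForm F V} {P : Submodule F V} (h : NDOn b P) :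
    NDOn b.flip P := by
  intro y hy hy0
  by_contra hne
  have hne' : (⟨y, hy⟩ : P) ≠ 0 := fun h0 => hne (congrArg Subtype.val h0)
  obtain ⟨ψ, hψ⟩ : ∃ ψ : Module.Dual F P, ψ ⟨y, hy⟩ ≠ 0 := by
    by_contra hcon
    push_neg at hcon
    exact hne' ((Module.forall_dual_apply_eq_zero_iff F _).mp hcon)
  obtain ⟨p, hp⟩ := h.repr_sub ψ
  apply hψ
  rw [← hp ⟨y, hy⟩]
  exact hy0 p.1 p.2

theorem NDOn.repr_right {b : LinearMap.BilinForm F V} {P : Submodule F V} (h : NDOn b P)
    (φ : Module.Dual F V) : ∃ p ∈ P, ∀ x ∈ P, b x p = φ x :=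
  h.flip.repr_left φ

theorem rperp_disjoint {b : LinearMap.BilinForm F V} {P : Submodule F V} (M : Submodule F V)
    (h : NDOn b P) : Disjoint P (rperp b P M) := by
  rw [Submodule.disjoint_def]
  intro x hx hx'
  exact h.flip x hx (fun p hp => hx'.2 p hp)

theorem rperp_sup {b : LinearMap.BilinForm F V} {P M : Submodule F V} (hPM : P ≤ M)
    (h : NDOn b P) : P ⊔ rperp b P M = M := by
  apply le_antisymm (sup_le hPM (rperp_le b P M))
  intro m hm
  obtain ⟨p, hp, hp'⟩ := h.repr_right (b.flip m)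
  have h1 : m - p ∈ rperp b P M := by
    refine ⟨M.sub_mem hm (hPM hp), fun x hx => ?_⟩
    rw [map_sub, hp' x hx]
    simp
  have h2 : m = p + (m - p) := by abel
  rw [h2]
  exact Submodule.add_mem _ (Submodule.mem_sup_left hp) (Submodule.mem_sup_right h1)

theorem rperp_ndon {b : LinearMap.BilinForm F V} {P M : Submodule F V} (hPM : P ≤ M)
    (h : NDOn b P) (hM : NDOn b M) : NDOn b (rperp b P M) := by
  intro y hy hy0
  obtain ⟨p₁, hp₁, hp₁'⟩ := h.repr_left (b y)
  have h1 : y - p₁ = 0 := by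
    apply hM _ (M.sub_mem hy.1 (hPM hp₁))
    intro m hm
    rw [← rperp_sup hPM h] at hm
    obtain ⟨p, hp, p', hp', rfl⟩ := Submodule.mem_sup.mp hm
    rw [map_add, map_sub, LinearMap.sub_apply, LinearMap.sub_apply, hp₁' p hp,
      sub_self, zero_add, hy0 p' hp', hp'.2 p₁ hp₁, sub_zero]
  have h2 : y = p₁ := sub_eq_zero.mp h1
  have h3 := rperp_disjoint M h
  rw [Submodule.disjoint_def] at h3
  exact h3 y (h2 ▸ hp₁) hy

theorem rperp_finrank_lt {b : LinearMap.BilinForm F V} {P M : Submodule F V} (hPM : P ≤ M)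
    (h : NDOn b P) (hP : P ≠ ⊥) :
    Module.finrank F (rperp b P M) < Module.finrank F M := by
  have h1 := Submodule.finrank_sup_add_finrank_inf_eq P (rperp b P M)
  rw [rperp_sup hPM h, (rperp_disjoint M h).eq_bot, finrank_bot, add_zero] at h1
  have h2 : 0 < Module.finrank F P := by
    rw [Module.finrank_pos_iff]
    exact (Submodule.nontrivial_iff_ne_bot).mpr hP
  omega

end findim

section maschke
variable {F : Type u} [Field F] {G : Type v} [Group G] [Finite G] {V : Type w} [AddCommGroup V]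
  [Module F V]

/-- Maschke: an invariant subspace has an invariant complement. -/
theorem GInv.exists_isCompl {ρ : Representation F G V} (hG : (Nat.card G : F) ≠ 0)
    {N : Submodule F V} (hN : GInv ρ N) : ∃ N' : Submodule F V, GInv ρ N' ∧ IsCompl N N' := by
  classical
  haveI : Fintype G := Fintype.ofFinite G
  obtain ⟨f, hf⟩ := N.subtype.exists_leftInverse_of_injective (Submodule.ker_subtype N)
  have hf' : ∀ n : N, f n.1 = n := fun n => by
    have := congrArg (fun φ : N →ₗ[F] N => φ n) hf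
    simpa using this
  let π₀ : V →ₗ[F] V := N.subtype.comp f
  have hπ₀mem : ∀ v, π₀ v ∈ N := fun v => (f v).2
  have hπ₀fix : ∀ n ∈ N, π₀ n = n := fun n hn => by
    change ((f n : N) : V) = n
    rw [hf' ⟨n, hn⟩]
  let π : V →ₗ[F] V := (Nat.card G : F)⁻¹ • ∑ g : G, (ρ g).comp (π₀.comp (ρ g⁻¹))
  have hπapply : ∀ v, π v = (Nat.card G : F)⁻¹ • ∑ g : G, ρ g (π₀ (ρ g⁻¹ v)) := by
    intro v
    simp [π, LinearMap.sum_apply]
  have hπmem : ∀ v, π v ∈ N := by
    intro v
    rw [hπapply]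
    exact N.smul_mem _ (N.sum_mem fun g _ => hN g _ (hπ₀mem _))
  have hπfix : ∀ n ∈ N, π n = n := by
    intro n hn
    rw [hπapply]
    have : ∀ g : G, ρ g (π₀ (ρ g⁻¹ n)) = n := by
      intro g
      rw [hπ₀fix _ (hN _ n hn), rho_inv_apply]
    simp only [this, Finset.sum_const, Finset.card_univ]
    rw [← Nat.card_eq_fintype_card, ← Nat.cast_smul_eq_nsmul F, smul_smul,
      inv_mul_cancel₀ hG, one_smul]
  have hπeq : ∀ (h : G) v, π (ρ h v) = ρ h (π v) := by
    intro h v
    rw [hπapply, hπapply, map_smul, map_sum]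
    congr 1
    rw [← Equiv.sum_comp (Equiv.mulLeft h)]
    apply Finset.sum_congr rfl
    intro g _
    have h1 : ρ (h * g)⁻¹ (ρ h v) = ρ g⁻¹ v := by
      rw [← Module.End.mul_apply, ← map_mul]
      congr 2
      group
    rw [Equiv.coe_mulLeft, h1, map_mul, Module.End.mul_apply]
  refine ⟨LinearMap.ker π, ?_, ?_⟩
  · intro g x hx
    rw [LinearMap.mem_ker] at hx ⊢
    rw [hπeq, hx, map_zero]
  · constructor
    · rw [Submodule.disjoint_def]
      intro x hx hx'
      rw [← hπfix x hx]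
      exact hx'
    · rw [codisjoint_iff, eq_top_iff]
      intro v _
      have h1 : v = π v + (v - π v) := by abel
      rw [h1]
      refine Submodule.add_mem _ (Submodule.mem_sup_left (hπmem v)) (Submodule.mem_sup_right ?_)
      rw [LinearMap.mem_ker, map_sub, hπfix _ (hπmem v), sub_self]

/-- Relative Maschke. -/
theorem GInv.exists_compl_in {ρ : Representation F G V} (hG : (Nat.card G : F) ≠ 0)
    {N M : Submodule F V} (hN : GInv ρ N) (hM : GInv ρ M) (hNM : N ≤ M) :
    ∃ Y : Submodule F V, GInv ρ Y ∧ Y ≤ M ∧ Disjoint N Y ∧ N ⊔ Y = M := by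
  obtain ⟨N', hN', hc⟩ := hN.exists_isCompl hG
  refine ⟨N' ⊓ M, hN'.inf hM, inf_le_right, hc.disjoint.mono_right inf_le_left, ?_⟩
  rw [← sup_inf_assoc_of_le N' hNM, hc.sup_eq_top, top_inf_eq]

end maschke

section glue
variable {F : Type u} [Field F] {V : Type w} [AddCommGroup V] [Module F V]

/-- A linear projection onto `M₁` killing `M₂`. -/
theorem exists_proj {M₁ M₂ : Submodule F V} (hd : Disjoint M₁ M₂) :
    ∃ π : V →ₗ[F] V, (∀ v, π v ∈ M₁) ∧ (∀ x ∈ M₁, π x = x) ∧ (∀ y ∈ M₂, π y = 0) := by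
  let g : M₁ →ₗ[F] V ⧸ M₂ := M₂.mkQ.comp M₁.subtype
  have hker : LinearMap.ker g = ⊥ := by
    rw [LinearMap.ker_eq_bot']
    intro x hx
    have h1 : (x : V) ∈ M₂ := by
      have : M₂.mkQ (x : V) = 0 := hx
      rwa [Submodule.mkQ_apply, Submodule.Quotient.mk_eq_zero] at this
    apply Subtype.ext
    rw [Submodule.disjoint_def] at hd
    exact hd x.1 x.2 h1
  obtain ⟨r, hr⟩ := g.exists_leftInverse_of_injective hker
  have hr' : ∀ x : M₁, r (M₂.mkQ (x : V)) = x := fun x => by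
    have := congrArg (fun φ : M₁ →ₗ[F] M₁ => φ x) hr
    simpa [g] using this
  refine ⟨M₁.subtype.comp (r.comp M₂.mkQ), fun v => (r (M₂.mkQ v)).2, fun x hx => ?_,
    fun y hy => ?_⟩
  · change ((r (M₂.mkQ x) : M₁) : V) = x
    rw [hr' ⟨x, hx⟩]
  · change ((r (M₂.mkQ y) : M₁) : V) = 0
    have : M₂.mkQ y = 0 := by
      rw [Submodule.mkQ_apply, Submodule.Quotient.mk_eq_zero]
      exact hy
    rw [this, map_zero]
    rfl

/-- Gluing two forms along a direct sum. -/
theorem exists_glue {M₁ M₂ : Submodule F V} (hd : Disjoint M₁ M₂)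
    (b₁ b₂ : LinearMap.BilinForm F V) :
    ∃ b : LinearMap.BilinForm F V, ∀ x₁ ∈ M₁, ∀ x₂ ∈ M₂, ∀ y₁ ∈ M₁, ∀ y₂ ∈ M₂,
      b (x₁ + x₂) (y₁ + y₂) = b₁ x₁ y₁ + b₂ x₂ y₂ := by
  obtain ⟨π₁, -, h11, h12⟩ := exists_proj hd
  obtain ⟨π₂, -, h22, h21⟩ := exists_proj hd.symm
  refine ⟨b₁.compl₁₂ π₁ π₁ + b₂.compl₁₂ π₂ π₂, fun x₁ hx₁ x₂ hx₂ y₁ hy₁ y₂ hy₂ => ?_⟩
  simp only [LinearMap.add_apply, LinearMap.compl₁₂_apply, map_add, h11 x₁ hx₁, h12 x₂ hx₂,
    h11 y₁ hy₁, h12 y₂ hy₂, h22 x₂ hx₂, h21 x₁ hx₁, h22 y₂ hy₂, h21 y₁ hy₁, add_zero, zero_add,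
    map_zero, LinearMap.zero_apply]

/-- The hyperbolic form attached to a pairing between two disjoint subspaces. -/
theorem exists_hyperbolic {X Y : Submodule F V} (hd : Disjoint X Y)
    (b : LinearMap.BilinForm F V) :
    ∃ h : LinearMap.BilinForm F V, ∀ x ∈ X, ∀ y ∈ Y, ∀ x' ∈ X, ∀ y' ∈ Y,
      h (x + y) (x' + y') = b x y' + b x' y := by
  obtain ⟨π₁, -, h11, h12⟩ := exists_proj hd
  obtain ⟨π₂, -, h22, h21⟩ := exists_proj hd.symm
  refine ⟨b.compl₁₂ π₁ π₂ + (b.compl₁₂ π₁ π₂).flip, fun x hx y hy x' hx' y' hy' => ?_⟩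
  simp only [LinearMap.add_apply, LinearMap.compl₁₂_apply, LinearMap.flip_apply, map_add,
    h11 x hx, h12 y hy, h11 x' hx', h12 y' hy', h22 y hy, h21 x hx, h22 y' hy', h21 x' hx',
    add_zero, zero_add, map_zero, LinearMap.zero_apply]
  abel

variable {G : Type v} [Group G]

theorem glue_symm {M₁ M₂ : Submodule F V} {b₁ b₂ b : LinearMap.BilinForm F V}
    (hb : ∀ x₁ ∈ M₁, ∀ x₂ ∈ M₂, ∀ y₁ ∈ M₁, ∀ y₂ ∈ M₂,
      b (x₁ + x₂) (y₁ + y₂) = b₁ x₁ y₁ + b₂ x₂ y₂)
    (h₁ : ∀ x ∈ M₁, ∀ y ∈ M₁, b₁ x y = b₁ y x) (h₂ : ∀ x ∈ M₂, ∀ y ∈ M₂, b₂ x y = b₂ y x) :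
    ∀ x ∈ M₁ ⊔ M₂, ∀ y ∈ M₁ ⊔ M₂, b x y = b y x := by
  intro x hx y hy
  obtain ⟨x₁, hx₁, x₂, hx₂, rfl⟩ := Submodule.mem_sup.mp hx
  obtain ⟨y₁, hy₁, y₂, hy₂, rfl⟩ := Submodule.mem_sup.mp hy
  rw [hb x₁ hx₁ x₂ hx₂ y₁ hy₁ y₂ hy₂, hb y₁ hy₁ y₂ hy₂ x₁ hx₁ x₂ hx₂, h₁ x₁ hx₁ y₁ hy₁,
    h₂ x₂ hx₂ y₂ hy₂]

theorem glue_alt {M₁ M₂ : Submodule F V} {b₁ b₂ b : LinearMap.BilinForm F V}
    (hb : ∀ x₁ ∈ M₁, ∀ x₂ ∈ M₂, ∀ y₁ ∈ M₁, ∀ y₂ ∈ M₂,
      b (x₁ + x₂) (y₁ + y₂) = b₁ x₁ y₁ + b₂ x₂ y₂)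
    (h₁ : ∀ x ∈ M₁, b₁ x x = 0) (h₂ : ∀ x ∈ M₂, b₂ x x = 0) :
    ∀ x ∈ M₁ ⊔ M₂, b x x = 0 := by
  intro x hx
  obtain ⟨x₁, hx₁, x₂, hx₂, rfl⟩ := Submodule.mem_sup.mp hx
  rw [hb x₁ hx₁ x₂ hx₂ x₁ hx₁ x₂ hx₂, h₁ x₁ hx₁, h₂ x₂ hx₂, add_zero]

theorem glue_finv {ρ : Representation F G V} {M₁ M₂ : Submodule F V}
    {b₁ b₂ b : LinearMap.BilinForm F V}
    (hb : ∀ x₁ ∈ M₁, ∀ x₂ ∈ M₂, ∀ y₁ ∈ M₁, ∀ y₂ ∈ M₂,
      b (x₁ + x₂) (y₁ + y₂) = b₁ x₁ y₁ + b₂ x₂ y₂)
    (hM₁ : GInv ρ M₁) (hM₂ : GInv ρ M₂) (h₁ : FInv ρ b₁ M₁) (h₂ : FInv ρ b₂ M₂) :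
    FInv ρ b (M₁ ⊔ M₂) := by
  intro g x hx y hy
  obtain ⟨x₁, hx₁, x₂, hx₂, rfl⟩ := Submodule.mem_sup.mp hx
  obtain ⟨y₁, hy₁, y₂, hy₂, rfl⟩ := Submodule.mem_sup.mp hy
  have e1 : ρ g (x₁ + x₂) = ρ g x₁ + ρ g x₂ := map_add _ _ _
  have e2 : ρ g (y₁ + y₂) = ρ g y₁ + ρ g y₂ := map_add _ _ _
  rw [e1, e2, hb _ (hM₁ g x₁ hx₁) _ (hM₂ g x₂ hx₂) _ (hM₁ g y₁ hy₁) _ (hM₂ g y₂ hy₂),
    hb x₁ hx₁ x₂ hx₂ y₁ hy₁ y₂ hy₂, h₁ g x₁ hx₁ y₁ hy₁, h₂ g x₂ hx₂ y₂ hy₂]

theorem glue_ndon {M₁ M₂ : Submodule F V} {b₁ b₂ b : LinearMap.BilinForm F V}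
    (hb : ∀ x₁ ∈ M₁, ∀ x₂ ∈ M₂, ∀ y₁ ∈ M₁, ∀ y₂ ∈ M₂,
      b (x₁ + x₂) (y₁ + y₂) = b₁ x₁ y₁ + b₂ x₂ y₂)
    (h₁ : NDOn b₁ M₁) (h₂ : NDOn b₂ M₂) : NDOn b (M₁ ⊔ M₂) := by
  intro x hx hx0
  obtain ⟨x₁, hx₁, x₂, hx₂, rfl⟩ := Submodule.mem_sup.mp hx
  have e₁ : x₁ = 0 := by
    apply h₁ x₁ hx₁
    intro y hy
    have := hx0 (y + 0) (Submodule.add_mem _ (Submodule.mem_sup_left hy) (Submodule.zero_mem _))
    rw [hb x₁ hx₁ x₂ hx₂ y hy 0 M₂.zero_mem] at this
    simpa using this
  have e₂ : x₂ = 0 := by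
    apply h₂ x₂ hx₂
    intro y hy
    have := hx0 (0 + y) (Submodule.add_mem _ (Submodule.zero_mem _) (Submodule.mem_sup_right hy))
    rw [hb x₁ hx₁ x₂ hx₂ 0 M₁.zero_mem y hy] at this
    simpa using this
  rw [e₁, e₂, add_zero]

end glue

section peel
variable {F : Type u} [Field F] {G : Type v} [Group G] [Finite G] {V : Type w} [AddCommGroup V]
  [Module F V] [FiniteDimensional F V]

/-- The conclusion of the peeling lemma for a subspace `M`: `M = U ⊕ W` with an alternating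
form nondegenerate on `U` and a form that is symmetric and nondegenerate on `W`. -/
def Peeled (ρ : Representation F G V) (M : Submodule F V) : Prop :=
  ∃ U W : Submodule F V, Disjoint U W ∧ U ⊔ W = M ∧ GInv ρ U ∧ GInv ρ W ∧
    (∃ A : LinearMap.BilinForm F V, (∀ x, A x x = 0) ∧ FInv ρ A U ∧ NDOn A U) ∧
    (∃ S : LinearMap.BilinForm F V, (∀ x ∈ W, ∀ y ∈ W, S x y = S y x) ∧ FInv ρ S W ∧ NDOn S W)

omit [Finite G] in
theorem peel_step {ρ : Representation F G V} {M Q : Submodule F V}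
    {b s : LinearMap.BilinForm F V} (hQM : Q ≤ M) (hQ : GInv ρ Q) (hQnd : NDOn b Q)
    (hs : ∀ x ∈ Q, ∀ y ∈ Q, s x y = s y x) (hsinv : FInv ρ s Q) (hsnd : NDOn s Q)
    (ih : Peeled ρ (rperp b Q M)) : Peeled ρ M := by
  obtain ⟨U', W', hd, hsup, hU', hW', hA, S', hS', hS'inv, hS'nd⟩ := ih
  have hW'le : W' ≤ rperp b Q M := hsup ▸ le_sup_right
  have hU'le : U' ≤ rperp b Q M := hsup ▸ le_sup_left
  have hdQ : Disjoint Q (rperp b Q M) := rperp_disjoint M hQnd
  have hdQW : Disjoint Q W' := hdQ.mono_right hW'le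
  obtain ⟨S, hS⟩ := exists_glue hdQW s S'
  refine ⟨U', Q ⊔ W', ?_, ?_, hU', hQ.sup hW', hA, S, glue_symm hS hs hS',
    glue_finv hS hQ hW' hsinv hS'inv, glue_ndon hS hsnd hS'nd⟩
  · rw [Submodule.disjoint_def]
    intro x hx hx'
    obtain ⟨q, hq, w, hw, rfl⟩ := Submodule.mem_sup.mp hx'
    have hq0 : q = 0 := by
      have : q ∈ rperp b Q M := by
        have h1 : q = (q + w) - w := by abel
        rw [h1]
        exact Submodule.sub_mem _ (hU'le hx) (hW'le hw)
      rw [Submodule.disjoint_def] at hdQ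
      exact hdQ q hq this
    rw [hq0, zero_add] at hx ⊢
    rw [Submodule.disjoint_def] at hd
    exact hd w hx hw
  · rw [← sup_assoc, sup_comm U' Q, sup_assoc, hsup, rperp_sup hQM hQnd]

/-- **Peeling lemma.** A module with a nondegenerate invariant bilinear form (relative to an
invariant subspace `M` of `V`) splits as `U ⊕ W` with `U` symplectic and `W` orthogonal. -/
theorem peel (hG : (Nat.card G : F) ≠ 0) (ρ : Representation F G V) :
    ∀ (d : ℕ) (M : Submodule F V), Module.finrank F M = d → GInv ρ M →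
      ∀ b : LinearMap.BilinForm F V, FInv ρ b M → NDOn b M → Peeled ρ M := by
  intro d
  induction d using Nat.strong_induction_on with
  | _ d ih =>
  intro M hd hM b hb hnd
  let K : Submodule F V :=
    { carrier := {x | x ∈ M ∧ ∀ z ∈ M, b x z = b z x}
      add_mem' := by
        rintro x y ⟨hx, hx'⟩ ⟨hy, hy'⟩
        refine ⟨M.add_mem hx hy, fun z hz => ?_⟩
        rw [map_add, LinearMap.add_apply, map_add, hx' z hz, hy' z hz]
      zero_mem' := ⟨M.zero_mem, fun z _ => by simp⟩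
      smul_mem' := by
        rintro c x ⟨hx, hx'⟩
        refine ⟨M.smul_mem c hx, fun z hz => ?_⟩
        rw [map_smul, LinearMap.smul_apply, map_smul, hx' z hz] }
  have hKM : K ≤ M := fun x hx => hx.1
  have hK : GInv ρ K := by
    intro g x hx
    refine ⟨hM g x hx.1, fun z hz => ?_⟩
    rw [hb.move' hM g hx.1 hz, hx.2 _ (hM _ z hz), hb.move hM g hz hx.1]
  by_cases hK0 : K = ⊥
  · refine ⟨M, ⊥, disjoint_bot_right, sup_bot_eq _, hM, ?_, ⟨b - b.flip, ?_, ?_, ?_⟩,
      ⟨0, ?_, ?_, ?_⟩⟩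
    · intro g x hx
      rw [Submodule.mem_bot] at hx ⊢
      rw [hx, map_zero]
    · intro x
      simp
    · intro g x hx y hy
      simp only [LinearMap.sub_apply, LinearMap.BilinForm.flip_apply]
      rw [hb g x hx y hy, hb g y hy x hx]
    · intro x hx hx0
      have : x ∈ K := ⟨hx, fun z hz => by
        have := hx0 z hz
        simp only [LinearMap.sub_apply, LinearMap.BilinForm.flip_apply] at this
        exact sub_eq_zero.mp this⟩
      rw [hK0] at this
      exact (Submodule.mem_bot F).mp this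
    · intro x _ y _
      simp
    · intro g x _ y _
      simp
    · intro x hx _
      exact (Submodule.mem_bot F).mp hx
  · let R : Submodule F V :=
      { carrier := {x | x ∈ K ∧ ∀ y ∈ K, b x y = 0}
        add_mem' := by
          rintro x y ⟨hx, hx'⟩ ⟨hy, hy'⟩
          refine ⟨K.add_mem hx hy, fun z hz => ?_⟩
          rw [map_add, LinearMap.add_apply, hx' z hz, hy' z hz, add_zero]
        zero_mem' := ⟨K.zero_mem, fun z _ => by simp⟩
        smul_mem' := by
          rintro c x ⟨hx, hx'⟩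
          refine ⟨K.smul_mem c hx, fun z hz => ?_⟩
          rw [map_smul, LinearMap.smul_apply, hx' z hz, smul_zero] }
    have hRK : R ≤ K := fun x hx => hx.1
    have hR : GInv ρ R := by
      intro g x hx
      refine ⟨hK g x hx.1, fun y hy => ?_⟩
      rw [hb.move' hM g (hKM hx.1) (hKM hy)]
      exact hx.2 _ (hK _ y hy)
    by_cases hR0 : R = ⊥
    · have hKnd : NDOn b K := by
        intro x hx hx0
        have : x ∈ R := ⟨hx, hx0⟩
        rw [hR0] at this
        exact (Submodule.mem_bot F).mp this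
      apply peel_step hKM hK hKnd (fun x hx y hy => hx.2 y (hKM hy)) (hb.mono hKM) hKnd
      exact ih _ (hd ▸ rperp_finrank_lt hKM hKnd hK0) _ rfl (rperp_ginv hK hM hb hKM) b
        (hb.mono (rperp_le _ _ _)) (rperp_ndon hKM hKnd hnd)
    · have hRM : R ≤ M := hRK.trans hKM
      have hRiso : ∀ x ∈ R, ∀ y ∈ R, b x y = 0 := fun x hx y hy => hx.2 y (hRK hy)
      have hRsym : ∀ x ∈ R, ∀ z ∈ M, b x z = b z x := fun x hx z hz => (hRK hx).2 z hz
      have hXpinv : GInv ρ (rperp b R M) := rperp_ginv hR hM hb hRM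
      have hRXp : R ≤ rperp b R M := fun x hx => ⟨hRM hx, fun p hp => hRiso p hp x hx⟩
      obtain ⟨Y, hY, hYM, hdXY, hsupXY⟩ := hXpinv.exists_compl_in hG hM (rperp_le _ _ _)
      have hdRY : Disjoint R Y := hdXY.mono_left hRXp
      have hP : GInv ρ (R ⊔ Y) := hR.sup hY
      have hPM : R ⊔ Y ≤ M := sup_le hRM hYM
      have key1 : ∀ y ∈ Y, (∀ x' ∈ R, b x' y = 0) → y = 0 := by
        intro y hy h0
        have : y ∈ rperp b R M := ⟨hYM hy, h0⟩
        rw [Submodule.disjoint_def] at hdXY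
        exact hdXY y this hy
      have key2 : ∀ x ∈ R, (∀ y' ∈ Y, b x y' = 0) → x = 0 := by
        intro x hx h0
        apply hnd x (hRM hx)
        intro m hm
        rw [← hsupXY] at hm
        obtain ⟨a, ha, c, hc, rfl⟩ := Submodule.mem_sup.mp hm
        rw [map_add, ha.2 x hx, h0 c hc, add_zero]
      have hPnd : NDOn b (R ⊔ Y) := by
        intro v hv hv0
        obtain ⟨x, hx, y, hy, rfl⟩ := Submodule.mem_sup.mp hv
        have hy0 : y = 0 := by
          apply key1 y hy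
          intro x' hx'
          have := hv0 x' (Submodule.mem_sup_left hx')
          rw [map_add, LinearMap.add_apply, hRiso x hx x' hx', zero_add] at this
          rw [hRsym x' hx' y (hYM hy)]
          exact this
        subst hy0
        rw [add_zero] at hv0 ⊢
        exact key2 x hx (fun y' hy' => hv0 y' (Submodule.mem_sup_right hy'))
      obtain ⟨h, hh⟩ := exists_hyperbolic hdRY b
      have hhsym : ∀ v ∈ R ⊔ Y, ∀ v' ∈ R ⊔ Y, h v v' = h v' v := by
        intro v hv v' hv'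
        obtain ⟨x, hx, y, hy, rfl⟩ := Submodule.mem_sup.mp hv
        obtain ⟨x', hx', y', hy', rfl⟩ := Submodule.mem_sup.mp hv'
        rw [hh x hx y hy x' hx' y' hy', hh x' hx' y' hy' x hx y hy, add_comm]
      have hhinv : FInv ρ h (R ⊔ Y) := by
        intro g v hv v' hv'
        obtain ⟨x, hx, y, hy, rfl⟩ := Submodule.mem_sup.mp hv
        obtain ⟨x', hx', y', hy', rfl⟩ := Submodule.mem_sup.mp hv'
        have e1 : ρ g (x + y) = ρ g x + ρ g y := map_add _ _ _
        have e2 : ρ g (x' + y') = ρ g x' + ρ g y' := map_add _ _ _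
        rw [e1, e2, hh _ (hR g x hx) _ (hY g y hy) _ (hR g x' hx') _ (hY g y' hy'),
          hh x hx y hy x' hx' y' hy', hb g x (hRM hx) y' (hYM hy'),
          hb g x' (hRM hx') y (hYM hy)]
      have hhnd : NDOn h (R ⊔ Y) := by
        intro v hv hv0
        obtain ⟨x, hx, y, hy, rfl⟩ := Submodule.mem_sup.mp hv
        have hy0 : y = 0 := by
          apply key1 y hy
          intro x' hx'
          have := hv0 (x' + 0)
            (Submodule.add_mem _ (Submodule.mem_sup_left hx') (Submodule.zero_mem _))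
          rw [hh x hx y hy x' hx' 0 Y.zero_mem] at this
          simpa using this
        subst hy0
        have hx0 : x = 0 := by
          apply key2 x hx
          intro y' hy'
          have := hv0 (0 + y')
            (Submodule.add_mem _ (Submodule.zero_mem _) (Submodule.mem_sup_right hy'))
          rw [hh x hx 0 Y.zero_mem 0 R.zero_mem y' hy'] at this
          simpa using this
        rw [hx0, add_zero]
      have hPne : R ⊔ Y ≠ ⊥ := fun h0 => hR0 (eq_bot_iff.mpr (h0 ▸ le_sup_left))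
      apply peel_step hPM hP hPnd hhsym hhinv hhnd
      exact ih _ (hd ▸ rperp_finrank_lt hPM hPnd hPne) _ rfl (rperp_ginv hP hM hb hPM) b
        (hb.mono (rperp_le _ _ _)) (rperp_ndon hPM hPnd hnd)

end peel

section fixed
variable {F : Type u} [Field F] {G : Type v} [Group G] [Fintype G] {V : Type w}
  [AddCommGroup V] [Module F V]

/-- The submodule of fixed points. -/
def fixedSub (ρ : Representation F G V) : Submodule F V where
  carrier := {v | ∀ g, ρ g v = v}
  add_mem' := by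
    intro a b ha hb g
    rw [map_add, ha g, hb g]
  zero_mem' := fun g => map_zero _
  smul_mem' := by
    intro c a ha g
    rw [map_smul, ha g]

/-- The sum of all group elements, as an endomorphism. -/
def normEnd (ρ : Representation F G V) : V →ₗ[F] V := ∑ g : G, ρ g

theorem normEnd_apply (ρ : Representation F G V) (v : V) : normEnd ρ v = ∑ g : G, ρ g v := by
  simp [normEnd, LinearMap.sum_apply]

theorem rho_normEnd (ρ : Representation F G V) (h : G) (v : V) :
    ρ h (normEnd ρ v) = normEnd ρ v := by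
  rw [normEnd_apply, map_sum, ← Equiv.sum_comp (Equiv.mulLeft h) (fun g => ρ g v)]
  apply Finset.sum_congr rfl
  intro g _
  rw [Equiv.coe_mulLeft, map_mul, Module.End.mul_apply]

theorem normEnd_rho (ρ : Representation F G V) (h : G) (v : V) :
    normEnd ρ (ρ h v) = normEnd ρ v := by
  rw [normEnd_apply, normEnd_apply, ← Equiv.sum_comp (Equiv.mulRight h) (fun g => ρ g v)]
  apply Finset.sum_congr rfl
  intro g _
  rw [Equiv.coe_mulRight, map_mul, Module.End.mul_apply]

theorem normEnd_fixed (ρ : Representation F G V) {v : V} (hv : ∀ g, ρ g v = v) :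
    normEnd ρ v = (Nat.card G : F) • v := by
  rw [normEnd_apply]
  simp only [hv, Finset.sum_const, Finset.card_univ]
  rw [Nat.card_eq_fintype_card, Nat.cast_smul_eq_nsmul]

theorem ginv_ker_normEnd (ρ : Representation F G V) : GInv ρ (LinearMap.ker (normEnd ρ)) := by
  intro g x hx
  rw [LinearMap.mem_ker] at hx ⊢
  rw [normEnd_rho, hx]

theorem ginv_fixedSub (ρ : Representation F G V) : GInv ρ (fixedSub ρ) := by
  intro g x hx
  have : ρ g x = x := hx g
  rw [this]
  exact hx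

theorem ker_normEnd_no_fixed (hG : (Nat.card G : F) ≠ 0) (ρ : Representation F G V) {m : V}
    (hm : m ∈ LinearMap.ker (normEnd ρ)) (hfix : ∀ g, ρ g m = m) : m = 0 := by
  rw [LinearMap.mem_ker, normEnd_fixed ρ hfix] at hm
  exact (smul_eq_zero.mp hm).resolve_left hG

theorem disjoint_ker_normEnd_fixedSub (hG : (Nat.card G : F) ≠ 0) (ρ : Representation F G V) :
    Disjoint (LinearMap.ker (normEnd ρ)) (fixedSub ρ) := by
  rw [Submodule.disjoint_def]
  intro x hx hx'
  exact ker_normEnd_no_fixed hG ρ hx hx'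

theorem sup_ker_normEnd_fixedSub (hG : (Nat.card G : F) ≠ 0) (ρ : Representation F G V) :
    LinearMap.ker (normEnd ρ) ⊔ fixedSub ρ = ⊤ := by
  rw [eq_top_iff]
  intro v _
  have hfix : (Nat.card G : F)⁻¹ • normEnd ρ v ∈ fixedSub ρ := by
    intro g
    rw [map_smul, rho_normEnd]
  have hker : v - (Nat.card G : F)⁻¹ • normEnd ρ v ∈ LinearMap.ker (normEnd ρ) := by
    rw [LinearMap.mem_ker, map_sub, map_smul,
      normEnd_fixed ρ (fun g => rho_normEnd ρ g v), smul_smul, inv_mul_cancel₀ hG, one_smul,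
      sub_self]
  have h1 : v = (v - (Nat.card G : F)⁻¹ • normEnd ρ v) + (Nat.card G : F)⁻¹ • normEnd ρ v := by
    abel
  rw [h1]
  exact Submodule.add_mem _ (Submodule.mem_sup_left hker) (Submodule.mem_sup_right hfix)

theorem ndon_ker_normEnd (hG : (Nat.card G : F) ≠ 0) (ρ : Representation F G V)
    (B : LinearMap.BilinForm F V) (hB : ∀ x, (∀ y, B x y = 0) → x = 0)
    (hBinv : ∀ g : G, ∀ x y : V, B (ρ g x) (ρ g y) = B x y) :
    NDOn B (LinearMap.ker (normEnd ρ)) := by
  intro m hm hm0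
  apply hB
  intro v
  have hv : v ∈ LinearMap.ker (normEnd ρ) ⊔ fixedSub ρ := by
    rw [sup_ker_normEnd_fixedSub hG ρ]
    trivial
  obtain ⟨a, ha, w, hw, rfl⟩ := Submodule.mem_sup.mp hv
  rw [map_add, hm0 a ha, zero_add]
  have h1 : (Nat.card G : F) • B m w = 0 := by
    have h2 : B (normEnd ρ m) w = (Nat.card G : F) • B m w := by
      rw [normEnd_apply, map_sum, LinearMap.sum_apply]
      have : ∀ g : G, B (ρ g m) w = B m w := by
        intro g
        have := hBinv g m w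
        rw [hw g] at this
        exact this
      simp only [this, Finset.sum_const, Finset.card_univ]
      rw [Nat.card_eq_fintype_card, Nat.cast_smul_eq_nsmul]
    rw [← h2, LinearMap.mem_ker.mp hm]
    simp
  exact (smul_eq_zero.mp h1).resolve_left hG

/-- In characteristic 2, an invariant form that is symmetric on an invariant subspace without
fixed points is alternating there. -/
theorem alt_of_symm_of_no_fixed (h2 : (2 : F) = 0) (hG : (Nat.card G : F) ≠ 0)
    {ρ : Representation F G V} {M : Submodule F V} (hM : GInv ρ M)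
    (hfix : ∀ m ∈ M, (∀ g, ρ g m = m) → m = 0) {S : LinearMap.BilinForm F V}
    (hS : ∀ x ∈ M, ∀ y ∈ M, S x y = S y x) (hSinv : FInv ρ S M) :
    ∀ m ∈ M, S m m = 0 := by
  classical
  intro m hm
  have key : ∀ s : Finset G, S (∑ g ∈ s, ρ g m) (∑ g ∈ s, ρ g m) = ∑ g ∈ s, S (ρ g m) (ρ g m) := by
    intro s
    induction s using Finset.induction_on with
    | empty => simp
    | insert a s ha ih =>
      rw [Finset.sum_insert ha, Finset.sum_insert ha]
      have hT : ∑ g ∈ s, ρ g m ∈ M := M.sum_mem fun g _ => hM g m hm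
      have exp : ∀ c t : V, S (c + t) (c + t) = S c c + S c t + S t c + S t t := by
        intro c t
        simp only [map_add, LinearMap.add_apply]
        abel
      rw [exp, ih, hS _ hT _ (hM a m hm)]
      have : S (ρ a m) (∑ g ∈ s, ρ g m) + S (ρ a m) (∑ g ∈ s, ρ g m) = 0 := by
        rw [← two_mul, h2, zero_mul]
      linear_combination this
  have h0 : normEnd ρ m = 0 := by
    apply hfix _ (by rw [normEnd_apply]; exact M.sum_mem fun g _ => hM g m hm)
    intro g
    exact rho_normEnd ρ g m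
  have h1 := key Finset.univ
  rw [← normEnd_apply, h0] at h1
  have h3 : ∀ g : G, S (ρ g m) (ρ g m) = S m m := fun g => hSinv g m hm m hm
  simp only [h3, Finset.sum_const, Finset.card_univ, map_zero, LinearMap.zero_apply] at h1
  rw [← Nat.cast_smul_eq_nsmul F, ← Nat.card_eq_fintype_card] at h1
  exact (smul_eq_zero.mp h1.symm).resolve_left hG

end fixed

section globalize
variable {F : Type u} [Field F] {V : Type w} [AddCommGroup V] [Module F V]

/-- A form alternating on a complemented subspace can be made alternating everywhere. -/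
theorem exists_alt_global {M W : Submodule F V} (hd : Disjoint M W)
    (A₁ : LinearMap.BilinForm F V) (hA₁ : ∀ m ∈ M, A₁ m m = 0) :
    ∃ A : LinearMap.BilinForm F V, (∀ x, A x x = 0) ∧ ∀ x ∈ M, ∀ y ∈ M, A x y = A₁ x y := by
  obtain ⟨π, hπ, hπ1, -⟩ := exists_proj hd
  refine ⟨A₁.compl₁₂ π π, fun x => ?_, fun x hx y hy => ?_⟩
  · rw [LinearMap.compl₁₂_apply]
    exact hA₁ _ (hπ x)
  · rw [LinearMap.compl₁₂_apply, hπ1 x hx, hπ1 y hy]

/-- Every subspace carries a symmetric form of the ambient space nondegenerate on it. -/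
theorem exists_symm_ndon [FiniteDimensional F V] (W : Submodule F V) :
    ∃ S : LinearMap.BilinForm F V, (∀ x y, S x y = S y x) ∧ NDOn S W := by
  classical
  obtain ⟨r, hr⟩ := W.subtype.exists_leftInverse_of_injective (Submodule.ker_subtype W)
  have hr' : ∀ w : W, r w.1 = w := fun w => by
    have := congrArg (fun φ : W →ₗ[F] W => φ w) hr
    simpa using this
  let bs := Module.finBasis F W
  let S : LinearMap.BilinForm F V :=
    ∑ i, (LinearMap.mul F F).compl₁₂ ((bs.coord i).comp r) ((bs.coord i).comp r)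
  have hSapply : ∀ x y, S x y = ∑ i, bs.repr (r x) i * bs.repr (r y) i := by
    intro x y
    simp [S, LinearMap.sum_apply]
  refine ⟨S, fun x y => ?_, fun x hx hx0 => ?_⟩
  · rw [hSapply, hSapply]
    exact Finset.sum_congr rfl fun i _ => mul_comm _ _
  · have h1 : r x = 0 := by
      apply bs.repr.injective
      ext j
      have h2 := hx0 (bs j : V) (bs j).2
      rw [hSapply, hr' (bs j)] at h2
      simp only [Module.Basis.repr_self, Finsupp.single_apply] at h2
      simpa using h2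
    have h3 := hr' ⟨x, hx⟩
    rw [h1] at h3
    exact (congrArg Subtype.val h3).symm

end globalize

end Cfsg.Agent.Helper82
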