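import Mathlib
import Cfsg.Agent.Helper75.Eigen
import Cfsg.Agent.Helper82.CycloNorm

set_option autoImplicit false

namespace Cfsg.Agent.Helper82

/-- For a character that does not vanish on the generators of the cyclic group generated by `v`,
the squared absolute values over these generators (indexed by the primitive roots of unity of order
`orderOf v`) add up to at least `φ(orderOf v)`. -/
theorem sum_normSq_gen_ge {X : Type*} [Group X] [Finite X]
    {W : Type*} [AddCommGroup W] [Module ℂ W] [FiniteDimensional ℂ W] (ρ : Representation ℂ X W)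
    (v : X) (ζ : ℂ) (hζ : IsPrimitiveRoot ζ (orderOf v)) (jj : ℂ → ℕ)
    (hjj : ∀ ξ ∈ primitiveRoots (orderOf v) ℂ, ζ ^ jj ξ = ξ)
    (hne : ∀ ξ ∈ primitiveRoots (orderOf v) ℂ, ρ.character (v ^ jj ξ) ≠ 0) :
    (Nat.totient (orderOf v) : ℝ) ≤
      ∑ ξ ∈ primitiveRoots (orderOf v) ℂ, ‖ρ.character (v ^ jj ξ)‖ ^ 2 := by
  classical
  have hn : orderOf v ≠ 0 := (orderOf_pos v).ne'
  haveI : NeZero (orderOf v) := ⟨hn⟩
  have hf : (ρ v) ^ orderOf v = 1 := by rw [← map_pow, pow_orderOf_eq_one, map_one]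
  obtain ⟨s, hs1, -, hs3⟩ := Cfsg.Agent.Helper75.exists_eigen_multiset (ρ v) (orderOf v) hn hf
  let e' : ℂ → ℕ := fun μ =>
    if h : μ ^ orderOf v = 1 then Classical.choose (hζ.eq_pow_of_pow_eq_one h) else 0
  have he' : ∀ μ ∈ s, ζ ^ e' μ = μ := by
    intro μ hμ
    simp only [e', dif_pos (hs1 μ hμ)]
    exact (Classical.choose_spec (hζ.eq_pow_of_pow_eq_one (hs1 μ hμ))).2
  have key : ∀ ξ ∈ primitiveRoots (orderOf v) ℂ,
      ((s.map e').map (fun e => ξ ^ e)).sum = ρ.character (v ^ jj ξ) := by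
    intro ξ hξ
    rw [Multiset.map_map]
    have h1 : ρ.character (v ^ jj ξ) = (s.map (fun μ => μ ^ jj ξ)).sum := by
      unfold Representation.character
      rw [map_pow, hs3]
    rw [h1]
    congr 1
    apply Multiset.map_congr rfl
    intro μ hμ
    simp only [Function.comp]
    have h2 : ξ ^ e' μ = (ζ ^ jj ξ) ^ e' μ := by rw [hjj ξ hξ]
    rw [h2, ← pow_mul, mul_comm, pow_mul, he' μ hμ]
  have h2 := sum_normSq_primitiveRoots_ge (orderOf v) (s.map e')
    (fun ξ hξ => by rw [key ξ hξ]; exact hne ξ hξ)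
  rw [Finset.sum_congr rfl (fun ξ hξ => by rw [key ξ hξ])] at h2
  exact h2

end Cfsg.Agent.Helper82
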