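import Cfsg.Agent.Helper82.KleinOrder
import Cfsg.Agent.Helper82.KleinCount
import Cfsg.Agent.Helper79.FrobSchur
import Cfsg.Agent.Helper15.FrobSchurOdd

/-!
# Non-real characters in the principal `2`-block, Klein four Sylow `2`-subgroup (helper82)

If the principal `2`-block is `{1, χ₁, χ₂, χ₃}` with values `1, 1, -1` at an involution, then
`χ₁` and `χ₂` are complex conjugates of each other; in particular they have the same degree.
The proof uses the Frobenius–Schur indicator together with weak block orthogonality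
(`s * s` has odd order for every `s`).
-/

set_option autoImplicit false
open Cfsg
open scoped ComplexConjugate

namespace Cfsg.Agent.Helper82

universe u

variable {G : Type u} [Group G] [Fintype G]

/-- The Frobenius–Schur sum of an irreducible character of odd degree is `0` or `|G|`, and it is
`0` exactly when the character is not real-valued. -/
theorem kleinReal_fs_odd (χ : Cfsg.IrrCharacter G)
    (hodd : Odd (Cfsg.charDegree (χ : G → ℂ))) :
    (∑ s : G, (χ : G → ℂ) (s * s) = 0 ∨ ∑ s : G, (χ : G → ℂ) (s * s) = (Nat.card G : ℂ)) ∧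
      (∑ s : G, (χ : G → ℂ) (s * s) = 0 ↔ ∃ s : G, ((χ : G → ℂ) s).im ≠ 0) := by
  have hcard : (Nat.card G : ℂ) ≠ 0 := by
    have : 0 < Nat.card G := Nat.card_pos
    exact_mod_cast this.ne'
  obtain ⟨-, h2⟩ := Helper79.irr_frobenius_schur χ.2
  have hzero : ∀ z : ℂ, (Nat.card G : ℂ)⁻¹ * z = 0 ↔ z = 0 := by
    intro z
    constructor
    · intro h
      rcases mul_eq_zero.mp h with h | h
      · exact absurd (inv_eq_zero.mp h) hcard
      · exact h
    · intro h; rw [h, mul_zero]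
  rw [hzero] at h2
  refine ⟨?_, h2⟩
  by_cases hreal : ∃ s : G, ((χ : G → ℂ) s).im ≠ 0
  · exact Or.inl (h2.mpr hreal)
  · right
    push Not at hreal
    obtain ⟨n, ρ, hρ, hχ⟩ := χ.2
    have hn : n = Cfsg.charDegree (χ : G → ℂ) := by
      have h3 : (χ : G → ℂ) 1 = (n : ℂ) := by rw [← hχ, Representation.char_one]; simp
      rw [Helper81.irr_one_eq_charDegree] at h3
      exact_mod_cast h3.symm
    have h4 := Helper15.sum_char_sq_of_real_odd ρ hρ (by intro g; rw [hχ]; exact hreal g)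
      (by rw [hn]; exact hodd)
    rw [hχ] at h4
    exact h4

/-- The value of an irreducible character at an involution has the parity of the degree. -/
theorem kleinReal_parity (χ : Cfsg.IrrCharacter G) {z : G} (hz : orderOf z = 2) :
    ∃ m : ℕ, (χ : G → ℂ) 1 + (χ : G → ℂ) z = 2 * m := by
  classical
  have : Fintype (Subgroup.zpowers z) := Fintype.ofFinite _
  obtain ⟨m, hm⟩ := Helper81.exists_nat_sum_subgroup χ (Subgroup.zpowers z)
  have hcard : Nat.card (Subgroup.zpowers z) = 2 := by rw [Nat.card_zpowers, hz]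
  have hsum : ∑ x : Subgroup.zpowers z, (χ : G → ℂ) x = (χ : G → ℂ) 1 + (χ : G → ℂ) z := by
    have hz1 : z ≠ 1 := by
      intro h
      rw [h, orderOf_one] at hz
      exact absurd hz (by norm_num)
    obtain ⟨z', hz'⟩ : ∃ z' : Subgroup.zpowers z, (z' : G) = z := ⟨⟨z, Subgroup.mem_zpowers z⟩, rfl⟩
    have hne : (1 : Subgroup.zpowers z) ≠ z' := by
      intro h
      apply hz1
      rw [← hz', ← h]
      rfl
    have huniv : ({1, z'} : Finset (Subgroup.zpowers z)) = Finset.univ := by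
      apply Finset.eq_univ_of_card
      rw [Finset.card_pair hne, ← Nat.card_eq_fintype_card, hcard]
    rw [← huniv, Finset.sum_pair hne, hz']
    rfl
  rw [hsum, hcard] at hm
  exact ⟨m, by rw [hm]; push_cast; ring⟩

/-- A character taking the value `1` or `-1` at an involution has odd degree. -/
theorem kleinReal_odd_degree (χ : Cfsg.IrrCharacter G) {z : G} (hz : orderOf z = 2)
    (h : (χ : G → ℂ) z = 1 ∨ (χ : G → ℂ) z = -1) : Odd (Cfsg.charDegree (χ : G → ℂ)) := by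
  obtain ⟨m, hm⟩ := kleinReal_parity χ hz
  rw [Helper81.irr_one_eq_charDegree] at hm
  rcases h with h | h
  · rw [h] at hm
    have h1 : Cfsg.charDegree (χ : G → ℂ) + 1 = 2 * m := by exact_mod_cast hm
    exact ⟨m - 1, by omega⟩
  · rw [h] at hm
    have h1 : (Cfsg.charDegree (χ : G → ℂ) : ℂ) = 2 * m + 1 := by linear_combination hm
    have h2 : Cfsg.charDegree (χ : G → ℂ) = 2 * m + 1 := by exact_mod_cast h1
    exact ⟨m, h2⟩

/-- If the principal `2`-block of a group with a Klein four Sylow `2`-subgroup and one class of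
involutions is `{1, χ₁, χ₂, χ₃}` with `χ₁(J) = χ₂(J) = 1` and `χ₃(J) = -1`, then `χ₂` is the
complex conjugate of `χ₁` and the two have the same degree. -/
theorem kleinReal_degrees_eq (M : Ideal Cfsg.AlgInt) (hM : Cfsg.IsPModular 2 M) (P : Sylow 2 G)
    (hPcard : Nat.card (P : Subgroup G) = 4) (hPexp : ∀ x ∈ (P : Subgroup G), x * x = 1)
    (hone : ∀ s t : G, orderOf s = 2 → orderOf t = 2 → IsConj s t)
    (J : G) (hJP : J ∈ (P : Subgroup G)) (hJ2 : orderOf J = 2)
    (χ₁ χ₂ χ₃ : Cfsg.IrrCharacter G)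
    (hB : Cfsg.principalBlock M G = {χ : Cfsg.IrrCharacter G |
      (χ : G → ℂ) = (fun _ => 1) ∨ χ = χ₁ ∨ χ = χ₂ ∨ χ = χ₃})
    (hdist : (χ₁ : G → ℂ) ≠ (fun _ => 1) ∧ (χ₂ : G → ℂ) ≠ (fun _ => 1) ∧
      (χ₃ : G → ℂ) ≠ (fun _ => 1) ∧ χ₁ ≠ χ₂ ∧ χ₁ ≠ χ₃ ∧ χ₂ ≠ χ₃)
    (hv1 : (χ₁ : G → ℂ) J = 1) (hv2 : (χ₂ : G → ℂ) J = 1) (hv3 : (χ₃ : G → ℂ) J = -1) :
    Cfsg.charDegree (χ₁ : G → ℂ) = Cfsg.charDegree (χ₂ : G → ℂ) := by
  classical
  have hp2 : (2 : ℕ).Prime := hM.1
  have : Fact (Nat.Prime 2) := ⟨hp2⟩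
  have := Fintype.ofFinite (Cfsg.IrrCharacter G)
  have hMp : M.IsPrime := Helper81.isPrime_of_isPModular hM
  have hB₀ : Cfsg.IsPBlock M (Cfsg.principalBlock M G) := ⟨Helper81.trivIrr G, rfl⟩
  have hmem1 : Helper81.trivIrr G ∈ Cfsg.principalBlock M G := Helper81.trivIrr_mem_principalBlock
  have hcard : (Nat.card G : ℂ) ≠ 0 := by
    have : 0 < Nat.card G := Nat.card_pos
    exact_mod_cast this.ne'
  obtain ⟨h1ne, h2ne, h3ne, h12, h13, h23⟩ := hdist
  have ht1 : Helper81.trivIrr G ≠ χ₁ := fun h => h1ne (by rw [← h]; rfl)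
  have ht2 : Helper81.trivIrr G ≠ χ₂ := fun h => h2ne (by rw [← h]; rfl)
  have ht3 : Helper81.trivIrr G ≠ χ₃ := fun h => h3ne (by rw [← h]; rfl)
  have hset : Cfsg.principalBlock M G
      = ↑({Helper81.trivIrr G, χ₁, χ₂, χ₃} : Finset (Cfsg.IrrCharacter G)) := by
    rw [hB]
    ext χ
    simp only [Set.mem_ofPred_eq, Finset.coe_insert, Finset.coe_singleton, Set.mem_insert_iff,
      Set.mem_singleton_iff]
    constructor
    · rintro (h | h)
      · exact Or.inl (Subtype.ext h)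
      · exact Or.inr h
    · rintro (h | h)
      · exact Or.inl (by rw [h]; rfl)
      · exact Or.inr h
  have hni1 : Helper81.trivIrr G ∉ ({χ₁, χ₂, χ₃} : Finset (Cfsg.IrrCharacter G)) := by
    simp only [Finset.mem_insert, Finset.mem_singleton, not_or]
    exact ⟨ht1, ht2, ht3⟩
  have hni2 : χ₁ ∉ ({χ₂, χ₃} : Finset (Cfsg.IrrCharacter G)) := by
    simp only [Finset.mem_insert, Finset.mem_singleton, not_or]
    exact ⟨h12, h13⟩
  -- squares have odd order
  have hsq : ∀ s : G, ¬ 2 ∣ orderOf (s * s) := by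
    intro s
    obtain ⟨u, hu⟩ := Helper16.exists_isPPart 2 s (orderOf_pos s)
    obtain ⟨w, huw, hcomm, ⟨k, hk⟩, hw⟩ := hu
    have huu : u * u = 1 := kleinCount_sq_eq_one P hPexp u k hk
    have hc : u * w = w * u := hcomm
    have e : s * s = w ^ 2 := by
      rw [← huw, pow_two]
      calc u * w * (u * w) = u * (w * u) * w := by group
        _ = u * (u * w) * w := by rw [hc]
        _ = (u * u) * (w * w) := by group
        _ = w * w := by rw [huu, one_mul]
    rw [e]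
    intro hd
    exact hw (hd.trans (orderOf_pow_dvd 2))
  -- the relation at squares
  have hrel : ∀ s : G, 1 + (χ₁ : G → ℂ) (s * s) + (χ₂ : G → ℂ) (s * s)
      - (χ₃ : G → ℂ) (s * s) = 0 := by
    intro s
    have hweak := Helper77.weak_block_orthogonality hM hB₀ (x := s * s) (y := J) (hsq s)
      (by rw [hJ2])
    rw [hset, finsum_mem_coe_finset, Finset.sum_insert hni1, Finset.sum_insert hni2,
      Finset.sum_pair h23] at hweak
    simp only [Helper81.trivIrr_apply, hv1, hv2, hv3, map_one, map_neg, mul_one] at hweak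
    linear_combination hweak
  have hsum : (Nat.card G : ℂ) + ∑ s : G, (χ₁ : G → ℂ) (s * s) + ∑ s : G, (χ₂ : G → ℂ) (s * s)
      - ∑ s : G, (χ₃ : G → ℂ) (s * s) = 0 := by
    have h := Finset.sum_congr (rfl : (Finset.univ : Finset G) = Finset.univ)
      (fun s _ => hrel s)
    simp only [Finset.sum_sub_distrib, Finset.sum_add_distrib, Finset.sum_const,
      Finset.card_univ, nsmul_eq_mul, mul_one, mul_zero] at h
    rw [← Nat.card_eq_fintype_card] at h
    exact h
  -- Frobenius–Schur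
  obtain ⟨hA1, hB1⟩ := kleinReal_fs_odd χ₁ (kleinReal_odd_degree χ₁ hJ2 (Or.inl hv1))
  obtain ⟨hA2, -⟩ := kleinReal_fs_odd χ₂ (kleinReal_odd_degree χ₂ hJ2 (Or.inl hv2))
  obtain ⟨hA3, -⟩ := kleinReal_fs_odd χ₃ (kleinReal_odd_degree χ₃ hJ2 (Or.inr hv3))
  have hS1 : ∑ s : G, (χ₁ : G → ℂ) (s * s) = 0 := by
    have h2 : (2 : ℂ) * (Nat.card G : ℂ) ≠ 0 := mul_ne_zero two_ne_zero hcard
    have h3 : (3 : ℂ) * (Nat.card G : ℂ) ≠ 0 := mul_ne_zero (by norm_num) hcard
    rcases hA1 with h1 | h1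
    · exact h1
    · exfalso
      rcases hA2 with h2' | h2' <;> rcases hA3 with h3' | h3' <;>
        rw [h1, h2', h3'] at hsum
      · exact h2 (by linear_combination hsum)
      · exact hcard (by linear_combination hsum)
      · exact h3 (by linear_combination hsum)
      · exact h2 (by linear_combination hsum)
  obtain ⟨s₀, hs₀⟩ := hB1.mp hS1
  -- the conjugate character
  obtain ⟨ψ, hψ⟩ : ∃ ψ : Cfsg.IrrCharacter G, ∀ g : G, (ψ : G → ℂ) g = conj ((χ₁ : G → ℂ) g) :=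
    ⟨⟨fun g => conj ((χ₁ : G → ℂ) g), Helper79.isIrrCharacter_conj χ₁.2⟩, fun _ => rfl⟩
  obtain ⟨hsing, hNs⟩ := kleinOrder_sing M hM P hPcard hPexp hone J hJP hJ2
  have hχ₁mem : χ₁ ∈ Cfsg.principalBlock M G := by rw [hB]; exact Or.inr (Or.inl rfl)
  have hψmem : ψ ∈ Cfsg.principalBlock M G := by
    by_contra hcon
    have h2 := Helper77.pregInner_eq_zero hM hB₀ hcon hmem1
    rw [Helper77.pregInner] at h2
    have hfull : ∑ g : G, (χ₁ : G → ℂ) g = 0 := by
      have h := Helper80.irr_orthogonality_conj χ₁ (Helper81.trivIrr G)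
      rw [if_neg (fun h => ht1 h.symm)] at h
      rw [← h]
      refine Finset.sum_congr rfl fun g _ => ?_
      rw [Helper81.trivIrr_apply, map_one, mul_one]
    have h3 : ∑ x : G, (if ¬ 2 ∣ orderOf x then
        (ψ : G → ℂ) x * conj ((Helper81.trivIrr G : G → ℂ) x) else 0)
        = conj (∑ g : G, (χ₁ : G → ℂ) g - ∑ g : G, if 2 ∣ orderOf g then (χ₁ : G → ℂ) g else 0) := by
      rw [← Finset.sum_sub_distrib, map_sum]
      refine Finset.sum_congr rfl fun g _ => ?_
      by_cases hg : 2 ∣ orderOf g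
      · rw [if_neg (not_not.mpr hg), if_pos hg, sub_self, map_zero]
      · rw [if_pos hg, if_neg hg, sub_zero, hψ, Helper81.trivIrr_apply, map_one, mul_one]
    have h4 : ∑ g : G, (if 2 ∣ orderOf g then (χ₁ : G → ℂ) g else 0)
        = ∑ g : G, if 2 ∣ orderOf g then (1 : ℂ) else 0 := by
      refine Finset.sum_congr rfl fun g _ => ?_
      by_cases hg : 2 ∣ orderOf g
      · rw [if_pos hg, if_pos hg, hsing χ₁ hχ₁mem g hg, hv1]
      · rw [if_neg hg, if_neg hg]
    rw [h3, hfull, h4, zero_sub, map_neg, neg_eq_zero, map_eq_zero] at h2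
    rw [h2, mul_zero] at hNs
    exact hcard hNs
  rw [hB] at hψmem
  rcases hψmem with h | h | h | h
  · exfalso
    apply h1ne
    funext g
    have h5 := congrFun h g
    rw [hψ] at h5
    have h6 := congrArg conj h5
    rw [Complex.conj_conj, map_one] at h6
    exact h6
  · exfalso
    apply hs₀
    have h5 : (ψ : G → ℂ) s₀ = (χ₁ : G → ℂ) s₀ := by rw [h]
    rw [hψ] at h5
    exact Complex.conj_eq_iff_im.mp h5
  · have h5 : (χ₂ : G → ℂ) 1 = conj ((χ₁ : G → ℂ) 1) := by rw [← h, hψ]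
    rw [Cfsg.charDegree, Cfsg.charDegree, h5, Complex.conj_re]
  · exfalso
    have h5 : (ψ : G → ℂ) J = (χ₃ : G → ℂ) J := by rw [h]
    rw [hψ, hv1, hv3, map_one] at h5
    norm_num at h5

/-- The three basic equations for a group of order `4 * odd` without a normal `2`-complement whose
principal `2`-block is `{1, χ₁, χ₂, χ₃}` with `χ_i(J) = ε_i`: the character count, the degree
relation and the involution count (`T` is the number of involutions `v` with `J * v` of even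
order). -/
theorem kleinReal_equations (M : Ideal Cfsg.AlgInt) (hM : Cfsg.IsPModular 2 M) (g₀ : ℕ)
    (hg₀ : Odd g₀) (hG : Nat.card G = 4 * g₀)
    (hnc : ¬ ∃ N : Subgroup G, N.Normal ∧ Nat.card N = g₀) (P : Sylow 2 G) (J : G)
    (hJ : J ∈ (P : Subgroup G)) (hJ2 : orderOf J = 2) (χ₁ χ₂ χ₃ : Cfsg.IrrCharacter G)
    (ε₁ ε₂ ε₃ : ℤ)
    (hB : Cfsg.principalBlock M G = {χ : Cfsg.IrrCharacter G |
      (χ : G → ℂ) = (fun _ => 1) ∨ χ = χ₁ ∨ χ = χ₂ ∨ χ = χ₃})
    (hdist : (χ₁ : G → ℂ) ≠ (fun _ => 1) ∧ (χ₂ : G → ℂ) ≠ (fun _ => 1) ∧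
      (χ₃ : G → ℂ) ≠ (fun _ => 1) ∧ χ₁ ≠ χ₂ ∧ χ₁ ≠ χ₃ ∧ χ₂ ≠ χ₃)
    (hval : (χ₁ : G → ℂ) J = ε₁ ∧ (χ₂ : G → ℂ) J = ε₂ ∧ (χ₃ : G → ℂ) J = ε₃) :
    ∃ T : ℕ,
      4 * (Nat.card (Subgroup.centralizer ({J} : Set G)) : ℚ) * T
        = (Nat.card G : ℚ) * (1 + (ε₁ : ℚ) ^ 3 / Cfsg.charDegree (χ₁ : G → ℂ)
          + (ε₂ : ℚ) ^ 3 / Cfsg.charDegree (χ₂ : G → ℂ)
          + (ε₃ : ℚ) ^ 3 / Cfsg.charDegree (χ₃ : G → ℂ)) ∧
      1 + (Cfsg.charDegree (χ₁ : G → ℂ) : ℚ) * ε₁ + Cfsg.charDegree (χ₂ : G → ℂ) * ε₂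
        + Cfsg.charDegree (χ₃ : G → ℂ) * ε₃ = 0 ∧
      T * Nat.card (Subgroup.centralizer ((P : Subgroup G) : Set G)) ^ 2
        = 2 * Nat.card (Subgroup.centralizer ({J} : Set G)) ^ 2 := by
  classical
  have := Fintype.ofFinite (Cfsg.IrrCharacter G)
  have hp2 : (2 : ℕ).Prime := hM.1
  have : Fact (Nat.Prime 2) := ⟨hp2⟩
  have hMp : M.IsPrime := Helper81.isPrime_of_isPModular hM
  have hJ1 : J ≠ 1 := by
    rintro rfl
    rw [orderOf_one] at hJ2
    exact absurd hJ2 (by norm_num)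
  have hPcard := kleinGroup_card_sylow g₀ hg₀ hG P
  have hPexp := (kleinGroup_of_no_complement g₀ hg₀ hG hnc P).1
  have hone : ∀ s t : G, orderOf s = 2 → orderOf t = 2 → IsConj s t := by
    intro s t hs ht
    exact (kleinGroup_one_class g₀ hg₀ hG hnc P J hJ hJ1 s hs).trans
      (kleinGroup_one_class g₀ hg₀ hG hnc P J hJ hJ1 t ht).symm
  have hchar := kleinOrder_char_count M hM P hPcard hPexp hone J hJ hJ2
  have hcount := kleinCount_main g₀ hg₀ hG hnc P J hJ hJ2
  have hB₀ : Cfsg.IsPBlock M (Cfsg.principalBlock M G) := ⟨Helper81.trivIrr G, rfl⟩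
  obtain ⟨h1ne, h2ne, h3ne, h12, h13, h23⟩ := hdist
  have ht1 : Helper81.trivIrr G ≠ χ₁ := fun h => h1ne (by rw [← h]; rfl)
  have ht2 : Helper81.trivIrr G ≠ χ₂ := fun h => h2ne (by rw [← h]; rfl)
  have ht3 : Helper81.trivIrr G ≠ χ₃ := fun h => h3ne (by rw [← h]; rfl)
  have hset : Cfsg.principalBlock M G
      = ↑({Helper81.trivIrr G, χ₁, χ₂, χ₃} : Finset (Cfsg.IrrCharacter G)) := by
    rw [hB]
    ext χ
    simp only [Set.mem_ofPred_eq, Finset.coe_insert, Finset.coe_singleton, Set.mem_insert_iff,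
      Set.mem_singleton_iff]
    constructor
    · rintro (h | h)
      · exact Or.inl (Subtype.ext h)
      · exact Or.inr h
    · rintro (h | h)
      · exact Or.inl (by rw [h]; rfl)
      · exact Or.inr h
  have hni1 : Helper81.trivIrr G ∉ ({χ₁, χ₂, χ₃} : Finset (Cfsg.IrrCharacter G)) := by
    simp only [Finset.mem_insert, Finset.mem_singleton, not_or]
    exact ⟨ht1, ht2, ht3⟩
  have hni2 : χ₁ ∉ ({χ₂, χ₃} : Finset (Cfsg.IrrCharacter G)) := by
    simp only [Finset.mem_insert, Finset.mem_singleton, not_or]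
    exact ⟨h12, h13⟩
  rw [hset, finsum_mem_coe_finset, Finset.sum_insert hni1, Finset.sum_insert hni2,
    Finset.sum_pair h23] at hchar
  have hweak := Helper77.weak_block_orthogonality hM hB₀ (x := (1 : G)) (y := J)
    (by rw [orderOf_one]; norm_num) (by rw [hJ2])
  rw [hset, finsum_mem_coe_finset, Finset.sum_insert hni1, Finset.sum_insert hni2,
    Finset.sum_pair h23] at hweak
  obtain ⟨hv1, hv2, hv3⟩ := hval
  simp only [Helper81.trivIrr_apply, Helper81.irr_one_eq_charDegree, hv1, hv2, hv3, map_one,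
    map_intCast, mul_one] at hchar hweak
  refine ⟨Nat.card {v : G // orderOf v = 2 ∧ 2 ∣ orderOf (J * v)}, ?_, ?_, hcount⟩
  · have h : 4 * (Nat.card (Subgroup.centralizer ({J} : Set G)) : ℂ)
          * (Nat.card {v : G // orderOf v = 2 ∧ 2 ∣ orderOf (J * v)} : ℂ)
        = (Nat.card G : ℂ) * (1 + (ε₁ : ℂ) ^ 3 / Cfsg.charDegree (χ₁ : G → ℂ)
          + (ε₂ : ℂ) ^ 3 / Cfsg.charDegree (χ₂ : G → ℂ)
          + (ε₃ : ℂ) ^ 3 / Cfsg.charDegree (χ₃ : G → ℂ)) := by
      rw [hchar]; ring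
    exact_mod_cast h
  · have h : 1 + (Cfsg.charDegree (χ₁ : G → ℂ) : ℂ) * ε₁ + Cfsg.charDegree (χ₂ : G → ℂ) * ε₂
        + Cfsg.charDegree (χ₃ : G → ℂ) * ε₃ = 0 := by
      rw [← hweak]; ring
    exact_mod_cast h

end Cfsg.Agent.Helper82
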