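import Mathlib

/-!
# Landau's theorem (helper82)

* `unitFraction_bound`: if `k` unit fractions `1 / c i` add up to a rational number with
  denominator `d`, then every `c i` is bounded in terms of `k` and `d`.
* `landau_card_bound`: the order of a finite group is bounded in terms of its number of
  conjugacy classes.

Everything is in `namespace Cfsg.Agent.Helper82`.
-/

set_option autoImplicit false

namespace Cfsg.Agent.Helper82

universe u v

/-- Landau's arithmetic lemma: if `k` unit fractions `1 / c i` add up to `a / d`, then all `c i`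
are bounded by a number depending only on `k` and `d`. -/
theorem unitFraction_bound (k : ℕ) : ∀ d : ℕ, ∃ N : ℕ, ∀ (ι : Type v) (s : Finset ι) (c : ι → ℕ),
    0 < d → s.card = k → (∀ i ∈ s, 0 < c i) →
    (∃ a : ℕ, ∑ i ∈ s, (1 / (c i : ℚ)) = (a : ℚ) / d) → ∀ i ∈ s, c i ≤ N := by
  induction k with
  | zero =>
    intro d
    refine ⟨0, fun ι s c _ hs _ _ i hi => ?_⟩
    rw [Finset.card_eq_zero] at hs
    simp [hs] at hi
  | succ k ih =>
    intro d
    choose f hf using ih
    refine ⟨(k + 1) * d + ∑ m ∈ Finset.range ((k + 1) * d + 1), f (d * m), ?_⟩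
    intro ι s c hd hs hc ⟨a, ha⟩
    classical
    have hne : s.Nonempty := by rw [← Finset.card_pos, hs]; omega
    obtain ⟨j, hj, hmin⟩ := Finset.exists_min_image s c hne
    have hcj : 0 < c j := hc j hj
    have hcjQ : (0 : ℚ) < c j := by exact_mod_cast hcj
    have hdQ : (0 : ℚ) < d := by exact_mod_cast hd
    have hpos : 0 < ∑ i ∈ s, (1 / (c i : ℚ)) :=
      Finset.sum_pos (fun i hi => by
        have : (0 : ℚ) < c i := by exact_mod_cast hc i hi
        positivity) hne
    have ha1 : 1 ≤ a := by
      rcases Nat.eq_zero_or_pos a with h0 | h0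
      · rw [ha, h0] at hpos
        simp at hpos
      · exact h0
    have hle : ∑ i ∈ s, (1 / (c i : ℚ)) ≤ (k + 1) / (c j : ℚ) := by
      calc ∑ i ∈ s, (1 / (c i : ℚ)) ≤ ∑ i ∈ s, (1 / (c j : ℚ)) := by
            apply Finset.sum_le_sum
            intro i hi
            apply one_div_le_one_div_of_le hcjQ
            exact_mod_cast hmin i hi
        _ = (k + 1) / (c j : ℚ) := by
            rw [Finset.sum_const, hs, nsmul_eq_mul]
            push_cast
            ring
    have hcjle : c j ≤ (k + 1) * d := by
      have h1 : (1 : ℚ) / d ≤ (k + 1) / (c j : ℚ) := by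
        have h2 : (1 : ℚ) / d ≤ a / d := by
          apply div_le_div_of_nonneg_right _ hdQ.le
          exact_mod_cast ha1
        rw [← ha] at h2
        exact h2.trans hle
      rw [div_le_div_iff₀ hdQ hcjQ] at h1
      have : (c j : ℚ) ≤ ((k + 1) * d : ℕ) := by
        push_cast
        linarith
      exact_mod_cast this
    have hrest : ∑ i ∈ s.erase j, (1 / (c i : ℚ)) = (a : ℚ) / d - 1 / (c j : ℚ) := by
      rw [← ha, ← Finset.add_sum_erase s _ hj]
      ring
    have hrest0 : 0 ≤ ∑ i ∈ s.erase j, (1 / (c i : ℚ)) :=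
      Finset.sum_nonneg (fun i _ => by positivity)
    have hdle : d ≤ a * c j := by
      rw [hrest] at hrest0
      have h3 : (1 : ℚ) / (c j) ≤ a / d := by linarith
      rw [div_le_div_iff₀ hcjQ hdQ] at h3
      have : (d : ℚ) ≤ ((a * c j : ℕ) : ℚ) := by
        push_cast
        linarith
      exact_mod_cast this
    have key := hf (d * c j) ι (s.erase j) c (Nat.mul_pos hd hcj)
      (by rw [Finset.card_erase_of_mem hj, hs]; rfl)
      (fun i hi => hc i (Finset.mem_of_mem_erase hi)) ⟨a * c j - d, by
        rw [hrest, Nat.cast_sub hdle]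
        push_cast
        field_simp⟩
    have hfle : f (d * c j) ≤ ∑ m ∈ Finset.range ((k + 1) * d + 1), f (d * m) :=
      Finset.single_le_sum (f := fun m => f (d * m)) (fun _ _ => Nat.zero_le _)
        (Finset.mem_range.mpr (by omega))
    intro i hi
    by_cases hij : i = j
    · rw [hij]
      omega
    · have := key i (Finset.mem_erase.mpr ⟨hij, hi⟩)
      omega

/-- The size of a conjugacy class divides the group order. -/
theorem card_carrier_dvd_card {G : Type u} [Group G] [Finite G] (C : ConjClasses G) :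
    Nat.card C.carrier ∣ Nat.card G := by
  obtain ⟨g, rfl⟩ := ConjClasses.exists_rep C
  rw [← ConjAct.orbit_eq_carrier_conjClasses, Nat.card_coe_set_eq,
    ← MulAction.index_stabilizer]
  have h := Subgroup.index_dvd_card (MulAction.stabilizer (ConjAct G) g)
  rwa [Nat.card_congr (ConjAct.toConjAct (G := G)).toEquiv.symm] at h

theorem carrier_nonempty {G : Type u} [Group G] (C : ConjClasses G) : Nonempty C.carrier := by
  obtain ⟨g, rfl⟩ := ConjClasses.exists_rep C
  exact ⟨⟨g, ConjClasses.mem_carrier_mk⟩⟩

theorem card_carrier_mk_one {G : Type u} [Group G] :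
    Nat.card (ConjClasses.mk (1 : G)).carrier = 1 := by
  rw [Nat.card_eq_one_iff_unique]
  refine ⟨⟨fun a b => ?_⟩, carrier_nonempty _⟩
  have ha := a.2
  have hb := b.2
  rw [ConjClasses.mem_carrier_iff_mk_eq, ConjClasses.mk_eq_mk_iff_isConj] at ha hb
  apply Subtype.ext
  rw [isConj_one_left.mp ha, isConj_one_left.mp hb]

/-- **Landau's theorem**: the order of a finite group is bounded in terms of the number of its
conjugacy classes. -/
theorem landau_card_bound (k : ℕ) : ∃ N : ℕ, ∀ (G : Type u) [Group G] [Finite G],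
    Nat.card (ConjClasses G) ≤ k → Nat.card G ≤ N := by
  choose f hf using fun k' : ℕ => unitFraction_bound.{u} k' 1
  refine ⟨∑ k' ∈ Finset.range (k + 1), f k', ?_⟩
  intro G _ _ hk
  classical
  have : Fintype (ConjClasses G) := Fintype.ofFinite _
  have hGpos : 0 < Nat.card G := Nat.card_pos
  have hGQ : (Nat.card G : ℚ) ≠ 0 := by exact_mod_cast hGpos.ne'
  have hCpos : ∀ C : ConjClasses G, 0 < Nat.card C.carrier := fun C => by
    have := carrier_nonempty C
    exact Nat.card_pos
  have hsum : ∑ C : ConjClasses G, (1 / ((Nat.card G / Nat.card C.carrier : ℕ) : ℚ)) =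
      ((1 : ℕ) : ℚ) / ((1 : ℕ) : ℚ) := by
    have h1 : ∀ C : ConjClasses G, (1 / ((Nat.card G / Nat.card C.carrier : ℕ) : ℚ)) =
        (Nat.card C.carrier : ℚ) / (Nat.card G : ℚ) := fun C => by
      rw [Nat.cast_div (card_carrier_dvd_card C) (by exact_mod_cast (hCpos C).ne'), one_div_div]
    rw [Finset.sum_congr rfl (fun C _ => h1 C), ← Finset.sum_div]
    have h2 := Group.sum_card_conj_classes_eq_card G
    rw [finsum_eq_sum_of_fintype] at h2
    have h3 : ∑ C : ConjClasses G, (Nat.card C.carrier : ℚ) = (Nat.card G : ℚ) := by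
      rw [← h2]
      push_cast
      refine Finset.sum_congr rfl fun C _ => ?_
      rw [Nat.card_coe_set_eq]
    rw [h3, div_self hGQ]
    simp
  have key := hf (Nat.card (ConjClasses G)) (ConjClasses G) Finset.univ
    (fun C => Nat.card G / Nat.card C.carrier) one_pos
    (by rw [Finset.card_univ, Nat.card_eq_fintype_card])
    (fun C _ => Nat.div_pos (Nat.le_of_dvd hGpos (card_carrier_dvd_card C)) (hCpos C))
    ⟨1, hsum⟩ (ConjClasses.mk 1) (Finset.mem_univ _)
  simp only [card_carrier_mk_one, Nat.div_one] at key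
  exact key.trans (Finset.single_le_sum (f := f) (fun _ _ => Nat.zero_le _)
    (Finset.mem_range.mpr (by omega)))

end Cfsg.Agent.Helper82
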