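import Mathlib
import Cfsg.Prelude.Def_GeometricClasses
import Cfsg.Prelude.Def_Classical
import Cfsg.Agent.Helper58.TSDefs
import Cfsg.Agent.Helper65.TSOBDefs
import Cfsg.Agent.Helper98.OPar
import Cfsg.Agent.Helper46.BGLIRR

/-!
# Sub-CALL OB (helper65) of CALL TS (helper58), piece GB (helper82, double)
-/

set_option autoImplicit false

namespace Cfsg.Agent.Helper82.OB

open Module Cfsg Cfsg.Geo Cfsg.Agent.Helper58.TS Cfsg.Agent.Helper65.TSOB

section model

variable {F : Type*} [Field F] [Fintype F]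

open Polynomial in
/-- The case `a = 1`: the matrix of the multiplication by a root of an irreducible factor of
`∑ X^j` in `K = AdjoinRoot f`, and the matrix of the trace form. -/
theorem ob_gb_one (r : ℕ) [Fact r.Prime] (hrF : (r : F) ≠ 0) (i : ℕ)
    (hi : i = orderOf ((Fintype.card F : ℕ) : ZMod r)) :
    ∃ g B : Matrix (Fin i) (Fin i) F, IsUnit B ∧ B * g = g.transpose * B ∧
      ∑ j ∈ Finset.range r, g ^ j = 0 := by
  classical
  have hrp : r.Prime := Fact.out
  have hmul : (∑ j ∈ Finset.range r, (X : F[X]) ^ j) * (X - C 1) = X ^ r - C 1 := by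
    rw [C_1]; exact geom_sum_mul X r
  have hΦ0 : (∑ j ∈ Finset.range r, (X : F[X]) ^ j) ≠ 0 := by
    intro h
    rw [h, zero_mul] at hmul
    have h1 := congrArg natDegree hmul
    rw [natDegree_zero, natDegree_X_pow_sub_C] at h1
    exact hrp.ne_zero h1.symm
  have hdegΦ : (∑ j ∈ Finset.range r, (X : F[X]) ^ j).natDegree + 1 = r := by
    have h1 := congrArg natDegree hmul
    rw [natDegree_mul hΦ0 (X_sub_C_ne_zero 1), natDegree_X_sub_C, natDegree_X_pow_sub_C] at h1
    exact h1
  have hpos : 0 < (∑ j ∈ Finset.range r, (X : F[X]) ^ j).natDegree := by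
    have := hrp.two_le; omega
  obtain ⟨f, hf, hfd⟩ := Polynomial.exists_irreducible_of_natDegree_pos hpos
  have hdeg : f.natDegree = i := by
    rw [hi]; exact Cfsg.Agent.Helper46.bgl_irr_factor_degree r hrF f hf hfd
  have : Fact (Irreducible f) := ⟨hf⟩
  have hfin : Module.Finite F (AdjoinRoot f) := (AdjoinRoot.powerBasis hf.ne_zero).finite
  have hrank : Module.finrank F (AdjoinRoot f) = i := by
    rw [(AdjoinRoot.powerBasis hf.ne_zero).finrank, AdjoinRoot.powerBasis_dim, hdeg]
  let b : Basis (Fin i) F (AdjoinRoot f) := Module.finBasisOfFinrankEq F (AdjoinRoot f) hrank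
  have : Algebra.IsSeparable F (AdjoinRoot f) := inferInstance
  have hsum : ∑ j ∈ Finset.range r, (AdjoinRoot.root f) ^ j = 0 := by
    have h1 : AdjoinRoot.mk f (∑ j ∈ Finset.range r, (X : F[X]) ^ j) = 0 :=
      AdjoinRoot.mk_eq_zero.mpr hfd
    rw [← AdjoinRoot.aeval_eq] at h1
    simpa using h1
  have key : (Algebra.traceForm F (AdjoinRoot f)).compRight
        (Algebra.lmul F (AdjoinRoot f) (AdjoinRoot.root f)) =
      (Algebra.traceForm F (AdjoinRoot f)).compLeft
        (Algebra.lmul F (AdjoinRoot f) (AdjoinRoot.root f)) := by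
    ext u v
    simp only [LinearMap.BilinForm.compRight_apply, LinearMap.BilinForm.compLeft_apply,
      Algebra.traceForm_apply]
    congr 1
    show u * (AdjoinRoot.root f * v) = AdjoinRoot.root f * u * v
    ring
  refine ⟨Algebra.leftMulMatrix b (AdjoinRoot.root f),
    LinearMap.BilinForm.toMatrix b (Algebra.traceForm F (AdjoinRoot f)), ?_, ?_, ?_⟩
  · rw [Matrix.isUnit_iff_isUnit_det]
    exact (det_traceForm_ne_zero b).isUnit
  · rw [Algebra.leftMulMatrix_apply, ← LinearMap.BilinForm.toMatrix_compRight,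
      ← LinearMap.BilinForm.toMatrix_compLeft, key]
  · simp only [← map_pow, ← map_sum]
    rw [hsum, map_zero]

/-- GB. -/
theorem ob_gb (r : ℕ) [Fact r.Prime] (hrF : (r : F) ≠ 0) (i a : ℕ)
    (hi : i = orderOf ((Fintype.card F : ℕ) : ZMod r)) :
    ∃ g B : Matrix (Fin (i * a)) (Fin (i * a)) F, IsUnit B ∧ B * g = g.transpose * B ∧
      ∑ j ∈ Finset.range r, g ^ j = 0 := by
  classical
  obtain ⟨g₁, B₁, hB₁, hBg, hsum⟩ := ob_gb_one r hrF i hi
  let φ : (Fin a → Matrix (Fin i) (Fin i) F) →+* Matrix (Fin (i * a)) (Fin (i * a)) F :=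
    (Matrix.reindexAlgEquiv F F
      (finProdFinEquiv : Fin i × Fin a ≃ Fin (i * a))).toAlgHom.toRingHom.comp
      (Matrix.blockDiagonalRingHom (Fin i) (Fin a) F)
  have hφ : ∀ x : Fin a → Matrix (Fin i) (Fin i) F,
      φ x = Matrix.reindex finProdFinEquiv finProdFinEquiv (Matrix.blockDiagonal x) :=
    fun x => rfl
  have hφT : ∀ x : Fin a → Matrix (Fin i) (Fin i) F,
      (φ x).transpose = φ (fun k => (x k).transpose) := by
    intro x
    rw [hφ, hφ, Matrix.transpose_reindex, Matrix.blockDiagonal_transpose]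
  refine ⟨φ (fun _ => g₁), φ (fun _ => B₁), ?_, ?_, ?_⟩
  · exact (Pi.isUnit_iff.mpr (fun _ => hB₁)).map φ
  · rw [hφT, ← map_mul, ← map_mul]
    congr 1
    funext k
    exact hBg
  · simp only [← map_pow, ← map_sum]
    have h0 : (∑ j ∈ Finset.range r, (fun _ : Fin a => g₁) ^ j) = 0 := by
      funext k
      simp only [Finset.sum_apply, Pi.pow_apply, Pi.zero_apply]
      exact hsum
    rw [h0, map_zero]

end model

end Cfsg.Agent.Helper82.OB
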