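import Mathlib
import Cfsg.Agent.Helper8.S4504Defs
import Cfsg.Agent.Helper76.CentralChar
import Cfsg.Agent.Helper74.IrrRep

/-!
# S4504, piece LIFT (helper82)

`G = H Z(G)` and `Z(H) = H ∩ Z(G)` for the normal closure `H` of a Sylow `p`-subgroup, once
`H` has exactly `p + 1` Sylow `p`-subgroups: `G / Z(G) ≃* H / Z(H)`.
-/

set_option autoImplicit false
open Cfsg Cfsg.Agent.Helper8
open scoped commutatorElement Pointwise

universe u

namespace Cfsg.Agent.Helper82

/-- An element centralizing a subgroup on which a faithful character restricts irreducibly is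
central. -/
theorem s4504_lift_cent {G : Type u} [Group G] [Finite G] (χ : G → ℂ)
    (hχ : Cfsg.IsCharacter G χ) (hfaith : ∀ g : G, χ g = χ 1 → g = 1)
    (H : Subgroup G) (hirr : Cfsg.IsIrrCharacter H (fun h : H => χ (h : G)))
    (c : G) (hc : ∀ h ∈ H, c * h = h * c) : c ∈ Subgroup.center G := by
  classical
  letI : Fintype H := Fintype.ofFinite H
  obtain ⟨n, ρ, hρ⟩ := hχ
  let σ : Representation ℂ H (Fin n → ℂ) := ρ.comp H.subtype
  have hσ : σ.character = fun h : H => χ (h : G) := by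
    funext h
    rw [← hρ]
    rfl
  have hσirr : σ.IsIrreducible :=
    Helper74.isIrreducible_of_irr_character σ (by rw [hσ]; exact hirr)
  haveI := hσirr
  obtain ⟨l, hl⟩ := Helper76.schur_scalar σ (ρ c) (fun h => by
    show ρ c * ρ (h : G) = ρ (h : G) * ρ c
    rw [← map_mul, ← map_mul, hc h.1 h.2])
  rw [Subgroup.mem_center_iff]
  intro g
  have hcomm : ρ (c * g) = ρ (g * c) := by
    rw [map_mul, map_mul, hl, smul_mul_assoc, mul_smul_comm, one_mul, mul_one]
  have h1 : ρ (c * g * c⁻¹ * g⁻¹) = ρ 1 := by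
    have : c * g * c⁻¹ * g⁻¹ = (c * g) * (c⁻¹ * g⁻¹) := by group
    rw [this, map_mul, hcomm, ← map_mul]
    congr 1
    group
  have h2 : χ (c * g * c⁻¹ * g⁻¹) = χ 1 := by
    rw [← hρ]
    show LinearMap.trace ℂ _ (ρ (c * g * c⁻¹ * g⁻¹)) = LinearMap.trace ℂ _ (ρ 1)
    rw [h1]
  have h3 := hfaith _ h2
  have h4 : c * g * c⁻¹ * g⁻¹ * (g * c) = g * c := by rw [h3, one_mul]
  rw [← h4]; group

theorem s4504_lift_x_not_central {H : Type u} [Group H] (p : ℕ) (x : H) (hg : S4504Grp p x) :
    x ∉ Subgroup.center H := by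
  intro hx
  apply hg.hnn
  constructor
  intro n hn g
  have hle : Subgroup.zpowers x ≤ Subgroup.center H := by
    rw [Subgroup.zpowers_le]; exact hx
  have hnc := hle hn
  rw [Subgroup.mem_center_iff] at hnc
  rw [hnc g, mul_inv_cancel_right]
  exact hn

theorem s4504_lift_perfect {H : Type u} [Group H] (p : ℕ) (x : H) (hg : S4504Grp p x) :
    commutator H = ⊤ := by
  apply hg.htop _ inferInstance
  by_contra hx
  have hcc : commutator H ≤ Subgroup.center H := hg.hcen _ inferInstance hx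
  have hLn : (Subgroup.zpowers x ⊔ commutator H).Normal := by
    constructor
    intro n hn g
    have h1 : g * n * g⁻¹ = ⁅g, n⁆ * n := by
      rw [commutatorElement_def]; group
    rw [h1]
    apply mul_mem _ hn
    apply le_sup_right (a := Subgroup.zpowers x)
    rw [commutator_def]
    exact Subgroup.commutator_mem_commutator (Subgroup.mem_top g) (Subgroup.mem_top n)
  have hL : Subgroup.zpowers x ⊔ commutator H = ⊤ :=
    hg.htop _ hLn (le_sup_left (b := commutator H) (Subgroup.mem_zpowers x))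
  apply s4504_lift_x_not_central p x hg
  rw [Subgroup.mem_center_iff]
  intro g
  have hg' : g ∈ Subgroup.zpowers x ⊔ commutator H := by rw [hL]; trivial
  have hle : Subgroup.zpowers x ⊔ commutator H ≤ Subgroup.centralizer {x} := by
    rw [sup_le_iff]
    constructor
    · rw [Subgroup.zpowers_le, Subgroup.mem_centralizer_iff]
      intro y hy; rw [Set.mem_singleton_iff] at hy; rw [hy]
    · intro k hk
      rw [Subgroup.mem_centralizer_iff]
      intro y hy; rw [Set.mem_singleton_iff] at hy; rw [hy]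
      have := hcc hk
      rw [Subgroup.mem_center_iff] at this
      exact this x
  have := hle hg'
  rw [Subgroup.mem_centralizer_iff] at this
  exact (this x rfl).symm

/-- An automorphism of `H` fixing `x` is conjugation by an element of `⟨x⟩`. -/
theorem s4504_lift_aut {H : Type u} [Group H] [Finite H] (p : ℕ) [Fact p.Prime] (x : H)
    (hg : S4504Grp p x) (hsyl : Nat.card (Sylow p H) = p + 1)
    (Φ : MulAut H) (hΦ : Φ x = x) :
    ∃ y ∈ Subgroup.zpowers x, ∀ h : H, Φ h = y * h * y⁻¹ := by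
  classical
  have hp : p.Prime := Fact.out
  have hxcard : Nat.card (Subgroup.zpowers x) = p := by rw [Nat.card_zpowers, hg.hx]
  have hxP : IsPGroup p (Subgroup.zpowers x) :=
    IsPGroup.of_card (n := 1) (by rw [hxcard, pow_one])
  -- every Sylow has order p
  have hcardR : ∀ R : Sylow p H, Nat.card R = p := by
    have hk : (Nat.card H).factorization p = 1 := by
      have hdvd : p ∣ Nat.card H := by rw [← hg.hx]; exact orderOf_dvd_natCard x
      have hpos : Nat.card H ≠ 0 := Nat.card_pos.ne'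
      have h1le : 1 ≤ (Nat.card H).factorization p :=
        (hp.dvd_iff_one_le_factorization hpos).mp hdvd
      have hlt : (Nat.card H).factorization p < 2 := by
        by_contra hcon
        rw [not_lt] at hcon
        apply hg.hsq
        exact (hp.pow_dvd_iff_le_factorization hpos).mpr hcon
      omega
    intro R
    rw [R.card_eq_multiplicity, hk, pow_one]
  have hR_of_mem : ∀ R : Sylow p H, x ∈ (R : Subgroup H) →
      (R : Subgroup H) = Subgroup.zpowers x := by
    intro R hxR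
    symm
    apply Subgroup.eq_of_le_of_card_ge
    · rw [Subgroup.zpowers_le]; exact hxR
    · rw [hxcard]; exact (hcardR R).le
  obtain ⟨P₀, hP₀⟩ : ∃ P₀ : Sylow p H, (P₀ : Subgroup H) = Subgroup.zpowers x := by
    obtain ⟨P₁, hP₁⟩ := hxP.exists_le_sylow
    exact ⟨P₁, hR_of_mem P₁ (hP₁ (Subgroup.mem_zpowers x))⟩
  have hP₀_unique : ∀ R : Sylow p H, x ∈ (R : Subgroup H) → R = P₀ := by
    intro R hxR
    apply Sylow.ext
    rw [hR_of_mem R hxR, hP₀]
  -- automorphisms fixing `x` fix `P₀`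
  have hstar : ∀ Ψ : MulAut H, Ψ x = x → Ψ • P₀ = P₀ := by
    intro Ψ hΨ
    apply hP₀_unique
    rw [Sylow.pointwise_smul_def]
    have : Ψ • x ∈ Ψ • (P₀ : Subgroup H) :=
      Subgroup.smul_mem_pointwise_smul x Ψ _ (by rw [hP₀]; exact Subgroup.mem_zpowers x)
    rwa [MulAut.smul_def, hΨ] at this
  -- `⟨x⟩` acts freely on the other Sylow subgroups
  have hfree : ∀ R : Sylow p H, R ≠ P₀ → ∀ h ∈ Subgroup.zpowers x, h • R = R → h = 1 := by
    intro R hR h hh hfix
    by_contra hne
    apply hR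
    apply hP₀_unique
    have hN := Sylow.smul_eq_iff_mem_normalizer.mp hfix
    have hinf2 := hxP.inf_normalizer_sylow R
    have hinf : h ∈ Subgroup.zpowers x ⊓ (R : Subgroup H) := by
      rw [← hinf2]; exact ⟨hh, hN⟩
    have hhR : h ∈ (R : Subgroup H) := hinf.2
    have hzh : Subgroup.zpowers h = Subgroup.zpowers x := by
      apply Subgroup.eq_of_le_of_card_ge
      · rw [Subgroup.zpowers_le]; exact hh
      · rw [hxcard, Nat.card_zpowers]
        have hdvd : orderOf h ∣ p := by
          have := orderOf_dvd_natCard (⟨h, hh⟩ : Subgroup.zpowers x)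
          rw [hxcard] at this
          rwa [Subgroup.orderOf_mk] at this
        rcases (Nat.dvd_prime hp).mp hdvd with h1 | h1
        · exact absurd (orderOf_eq_one_iff.mp h1) hne
        · exact h1.ge
    have : x ∈ Subgroup.zpowers h := by rw [hzh]; exact Subgroup.mem_zpowers x
    exact (Subgroup.zpowers_le.mpr hhR) this
  obtain ⟨Q, hQ⟩ : ∃ Q : Sylow p H, Q ≠ P₀ := by
    haveI : Nontrivial (Sylow p H) := by
      rw [← Finite.one_lt_card_iff_nontrivial, hsyl]; have := hp.two_le; omega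
    exact exists_ne P₀
  have hP₀fix : ∀ h ∈ Subgroup.zpowers x, h • P₀ = P₀ := by
    intro h hh
    rw [Sylow.smul_eq_iff_mem_normalizer]
    exact Subgroup.le_normalizer (by rw [hP₀]; exact hh)
  have hne : ∀ h ∈ Subgroup.zpowers x, h • Q ≠ P₀ := by
    intro h hh heq
    apply hQ
    calc Q = h⁻¹ • (h • Q) := by rw [smul_smul, inv_mul_cancel, one_smul]
      _ = h⁻¹ • P₀ := by rw [heq]
      _ = P₀ := hP₀fix _ (inv_mem hh)
  -- the orbit of `Q` under `⟨x⟩` is everything but `P₀`
  have horb : ∀ R : Sylow p H, R ≠ P₀ → ∃ h ∈ Subgroup.zpowers x, h • Q = R := by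
    let f : Option (Subgroup.zpowers x) → Sylow p H := fun o =>
      match o with
      | none => P₀
      | some h => (h : H) • Q
    have hinj : Function.Injective f := by
      intro a b hab
      cases a with
      | none =>
        cases b with
        | none => rfl
        | some h => exact absurd hab.symm (hne h.1 h.2)
      | some h₁ =>
        cases b with
        | none => exact absurd hab (hne h₁.1 h₁.2)
        | some h₂ =>
          have h1 : ((h₂ : H)⁻¹ * (h₁ : H)) • Q = Q := by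
            rw [mul_smul]
            have : (h₁ : H) • Q = (h₂ : H) • Q := hab
            rw [this, smul_smul, inv_mul_cancel, one_smul]
          have h2 := hfree Q hQ _ (mul_mem (inv_mem h₂.2) h₁.2) h1
          have h3 : (h₁ : H) = h₂ := by
            have := inv_mul_eq_one.mp h2
            exact this.symm
          rw [Subtype.ext h3]
    have hbij : Function.Bijective f := by
      apply hinj.bijective_of_nat_card_le
      rw [Finite.card_option, hxcard, hsyl]
    intro R hR
    obtain ⟨o, ho⟩ := hbij.2 R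
    cases o with
    | none => exact absurd ho.symm hR
    | some h => exact ⟨h.1, h.2, ho⟩
  have hΦinv : Φ⁻¹ x = x := by
    calc Φ⁻¹ x = Φ⁻¹ (Φ x) := by rw [hΦ]
      _ = x := MulAut.inv_apply_self H Φ x
  have hΦQ : Φ • Q ≠ P₀ := by
    intro heq
    apply hQ
    calc Q = Φ⁻¹ • (Φ • Q) := by rw [inv_smul_smul]
      _ = Φ⁻¹ • P₀ := by rw [heq]
      _ = P₀ := hstar Φ⁻¹ hΦinv
  obtain ⟨y, hy, hyQ⟩ := horb (Φ • Q) hΦQ
  refine ⟨y, hy, ?_⟩
  set Ψ : MulAut H := (MulAut.conj y)⁻¹ * Φ with hΨdef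
  have hyx : y * x = x * y := by
    obtain ⟨k, rfl⟩ := Subgroup.mem_zpowers_iff.mp hy
    exact (Commute.zpow_left (Commute.refl x) k).eq
  have hΨx : Ψ x = x := by
    rw [hΨdef, MulAut.mul_apply, hΦ, MulAut.conj_inv_apply, mul_assoc, ← hyx,
      inv_mul_cancel_left]
  have hΨP : Ψ • P₀ = P₀ := hstar Ψ hΨx
  have hΨQ : Ψ • Q = Q := by
    rw [hΨdef, mul_smul, ← hyQ, Sylow.smul_def, inv_smul_smul]
  have hΨh : ∀ h ∈ Subgroup.zpowers x, Ψ h = h := by
    intro h hh
    obtain ⟨k, rfl⟩ := Subgroup.mem_zpowers_iff.mp hh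
    rw [map_zpow, hΨx]
  have hΨall : ∀ R : Sylow p H, Ψ • R = R := by
    intro R
    by_cases hR : R = P₀
    · rw [hR]; exact hΨP
    · obtain ⟨h, hh, rfl⟩ := horb R hR
      rw [Sylow.smul_def, ← mul_smul]
      have hcomm : Ψ * MulAut.conj h = MulAut.conj h * Ψ := by
        ext k
        simp only [MulAut.mul_apply, MulAut.conj_apply, map_mul, map_inv, hΨh h hh]
      rw [hcomm, mul_smul, hΨQ]
  have hperf := s4504_lift_perfect p x hg
  let T : Subgroup H := (MulAction.toPermHom H (Sylow p H)).ker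
  have hTmem : ∀ k : H, k ∈ T ↔ ∀ R : Sylow p H, k • R = R := by
    intro k
    rw [MonoidHom.mem_ker]
    constructor
    · intro hk R
      have := congrArg (fun π : Equiv.Perm (Sylow p H) => π R) hk
      simpa using this
    · intro hk
      apply Equiv.ext
      intro R
      simpa using hk R
  have hxT : x ∉ T := by
    intro hxT
    have h1 := hfree Q hQ x (Subgroup.mem_zpowers x) ((hTmem x).mp hxT Q)
    have h2 := hg.hx
    rw [h1, orderOf_one] at h2
    exact hp.one_lt.ne h2
  have hTc : T ≤ Subgroup.center H := hg.hcen T inferInstance hxT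
  have hΨinv : ∀ R' : Sylow p H, Ψ⁻¹ • R' = R' := fun R' => by
    rw [inv_smul_eq_iff]; exact (hΨall R').symm
  have hkT : ∀ h : H, Ψ h * h⁻¹ ∈ T := by
    intro h
    rw [hTmem]
    intro R
    have hconj : MulAut.conj (Ψ h * h⁻¹) = Ψ * MulAut.conj h * Ψ⁻¹ * (MulAut.conj h)⁻¹ := by
      ext k
      simp only [MulAut.mul_apply, MulAut.conj_apply, MulAut.conj_inv_apply, map_mul, map_inv,
        MulAut.apply_inv_self, mul_inv_rev, inv_inv, mul_assoc]
    rw [Sylow.smul_def, hconj, mul_smul, mul_smul, mul_smul, hΨinv, smul_inv_smul, hΨall]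
  have hφmul : ∀ a b : H, (⟨Ψ (a * b) * (a * b)⁻¹, hTc (hkT (a * b))⟩ : Subgroup.center H) =
      ⟨Ψ a * a⁻¹, hTc (hkT a)⟩ * ⟨Ψ b * b⁻¹, hTc (hkT b)⟩ := by
    intro a b
    apply Subtype.ext
    show Ψ (a * b) * (a * b)⁻¹ = Ψ a * a⁻¹ * (Ψ b * b⁻¹)
    have hb := hTc (hkT b)
    rw [Subgroup.mem_center_iff] at hb
    have hb' := hb a⁻¹
    rw [map_mul, mul_inv_rev]
    calc Ψ a * Ψ b * (b⁻¹ * a⁻¹) = Ψ a * ((Ψ b * b⁻¹) * a⁻¹) := by group
      _ = Ψ a * (a⁻¹ * (Ψ b * b⁻¹)) := by rw [hb']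
      _ = Ψ a * a⁻¹ * (Ψ b * b⁻¹) := by group
  let φ : H →* Subgroup.center H :=
    MonoidHom.mk' (fun h => (⟨Ψ h * h⁻¹, hTc (hkT h)⟩ : Subgroup.center H)) hφmul
  have hle : commutator H ≤ φ.ker := by
    rw [commutator_def, Subgroup.commutator_le]
    intro g₁ _ g₂ _
    rw [MonoidHom.mem_ker, map_commutatorElement, commutatorElement_eq_one_iff_commute]
    show φ g₁ * φ g₂ = φ g₂ * φ g₁
    apply Subtype.ext
    show (φ g₁ : H) * (φ g₂ : H) = (φ g₂ : H) * (φ g₁ : H)
    have hc2 := (φ g₂).2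
    rw [Subgroup.mem_center_iff] at hc2
    exact hc2 (φ g₁).1
  have hΨid : ∀ h : H, Ψ h = h := by
    intro h
    have hmem : h ∈ φ.ker := hle (by rw [hperf]; trivial)
    rw [MonoidHom.mem_ker] at hmem
    have h2 : Ψ h * h⁻¹ = 1 := congrArg Subtype.val hmem
    exact mul_inv_eq_one.mp h2
  intro h
  have h1 := hΨid h
  rw [hΨdef, MulAut.mul_apply, MulAut.conj_inv_apply] at h1
  calc Φ h = y * (y⁻¹ * Φ h * y) * y⁻¹ := by group
    _ = y * h * y⁻¹ := by rw [h1]

/-- LIFT -/
theorem s4504_lift {G : Type u} [Group G] [Finite G] (p : ℕ) [Fact p.Prime] (χ : G → ℂ)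
    (hχ : Cfsg.IsCharacter G χ) (hfaith : ∀ g : G, χ g = χ 1 → g = 1)
    (H : Subgroup G) (hH : H.Normal) (x : H) (h : S4504Hyp p x (fun h : H => χ (h : G)))
    (hfrat : ∀ g : G, ∃ h ∈ H, ∃ n : G,
      n * (x : G) * n⁻¹ ∈ Subgroup.zpowers (x : G) ∧ g = h * n)
    (hsyl : Nat.card (Sylow p H) = p + 1)
    (hnorm : ∀ b : ℕ, ¬ p ∣ b → χ ((x : G) ^ b) = χ (x : G) → ∃ n : H, n * x * n⁻¹ = x ^ b) :
    Nonempty ((G ⧸ Subgroup.center G) ≃* (H ⧸ Subgroup.center H)) := by
  classical
  have hp : p.Prime := Fact.out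
  have hcls : ∀ g a : G, χ (a * g * a⁻¹) = χ g := by
    obtain ⟨n, ρ, hρ⟩ := hχ
    intro g a
    rw [← hρ]; exact Representation.char_conj ρ g a
  -- `C_G(x) ≤ H Z(G)`
  have hC : ∀ c : G, c * (x : G) = (x : G) * c → ∃ y ∈ H, y * c ∈ Subgroup.center G := by
    intro c hc
    let Φ : MulAut H := MulAut.conjNormal c
    have hΦ : Φ x = x := by
      apply Subtype.ext
      show ((MulAut.conjNormal c x : H) : G) = x
      rw [MulAut.conjNormal_apply, hc, mul_inv_cancel_right]
    obtain ⟨y, hy, hyΦ⟩ := s4504_lift_aut p x h.grp hsyl Φ hΦ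
    refine ⟨(y : G)⁻¹, inv_mem y.2, ?_⟩
    apply s4504_lift_cent χ hχ hfaith H h.hχ
    intro k hk
    have h1 : c * k * c⁻¹ = (y : G) * k * (y : G)⁻¹ := by
      have := congrArg Subtype.val (hyΦ ⟨k, hk⟩)
      rw [show ((Φ ⟨k, hk⟩ : H) : G) = c * k * c⁻¹ from MulAut.conjNormal_apply c ⟨k, hk⟩] at this
      rw [this]; rfl
    calc (y : G)⁻¹ * c * k = (y : G)⁻¹ * (c * k * c⁻¹) * c := by group
      _ = (y : G)⁻¹ * ((y : G) * k * (y : G)⁻¹) * c := by rw [h1]
      _ = k * ((y : G)⁻¹ * c) := by group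
  -- `G = H Z(G)`
  have hHZ : ∀ g : G, ∃ a ∈ H, ∃ z ∈ Subgroup.center G, g = a * z := by
    intro g
    obtain ⟨a, ha, n, hn, rfl⟩ := hfrat g
    rw [← mem_powers_iff_mem_zpowers] at hn
    obtain ⟨b, hb⟩ := (Submonoid.mem_powers_iff _ _).mp hn
    have hxG : orderOf (x : G) = p := by rw [Subgroup.orderOf_coe, h.grp.hx]
    have hpb : ¬ p ∣ b := by
      intro hpb
      have h1 : (x : G) ^ b = 1 := by
        rw [← hxG] at hpb; exact orderOf_dvd_iff_pow_eq_one.mp hpb
      rw [h1] at hb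
      have h2 : (x : G) = 1 := by
        have : n⁻¹ * (n * (x : G) * n⁻¹) * n = (x : G) := by group
        rw [← this, ← hb]; group
      rw [h2, orderOf_one] at hxG
      exact hp.one_lt.ne hxG
    have hχb : χ ((x : G) ^ b) = χ (x : G) := by rw [hb, hcls]
    obtain ⟨m, hm⟩ := hnorm b hpb hχb
    have hmG : (m : G) * (x : G) * (m : G)⁻¹ = (x : G) ^ b := by
      have := congrArg Subtype.val hm
      simpa using this
    have hc : ((m : G)⁻¹ * n) * (x : G) = (x : G) * ((m : G)⁻¹ * n) := by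
      have h1 : n * (x : G) = (x : G) ^ b * n := by rw [hb]; group
      have h2 : (m : G)⁻¹ * (x : G) ^ b = (x : G) * (m : G)⁻¹ := by rw [← hmG]; group
      calc ((m : G)⁻¹ * n) * (x : G) = (m : G)⁻¹ * (n * (x : G)) := by group
        _ = (m : G)⁻¹ * ((x : G) ^ b * n) := by rw [h1]
        _ = ((m : G)⁻¹ * (x : G) ^ b) * n := by group
        _ = ((x : G) * (m : G)⁻¹) * n := by rw [h2]
        _ = (x : G) * ((m : G)⁻¹ * n) := by group
    obtain ⟨y, hy, hyz⟩ := hC _ hc
    exact ⟨a * m * y⁻¹, mul_mem (mul_mem ha m.2) (inv_mem hy), y * ((m : G)⁻¹ * n), hyz,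
      by group⟩
  let f : H →* G ⧸ Subgroup.center G := (QuotientGroup.mk' (Subgroup.center G)).comp H.subtype
  have hf : Function.Surjective f := by
    intro q
    induction q using QuotientGroup.induction_on with
    | H g =>
      obtain ⟨a, ha, z, hz, rfl⟩ := hHZ g
      refine ⟨⟨a, ha⟩, ?_⟩
      show ((a : G) : G ⧸ Subgroup.center G) = ((a * z : G) : G ⧸ Subgroup.center G)
      rw [QuotientGroup.eq]
      simpa using hz
  have hker : f.ker = Subgroup.center H := by
    ext k
    rw [MonoidHom.mem_ker]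
    show ((k : G) : G ⧸ Subgroup.center G) = 1 ↔ _
    rw [QuotientGroup.eq_one_iff, Subgroup.mem_center_iff, Subgroup.mem_center_iff]
    constructor
    · intro hk a
      exact Subtype.ext (hk a)
    · intro hk g
      obtain ⟨a, ha, z, hz, rfl⟩ := hHZ g
      have h1 : a * (k : G) = (k : G) * a := congrArg Subtype.val (hk ⟨a, ha⟩)
      rw [Subgroup.mem_center_iff] at hz
      have h2 := hz (k : G)
      calc a * z * (k : G) = a * (z * (k : G)) := by group
        _ = a * ((k : G) * z) := by rw [h2]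
        _ = (a * (k : G)) * z := by group
        _ = ((k : G) * a) * z := by rw [h1]
        _ = (k : G) * (a * z) := by group
  exact ⟨(QuotientGroup.quotientKerEquivOfSurjective f hf).symm.trans
    (QuotientGroup.quotientMulEquivOfEq hker)⟩

end Cfsg.Agent.Helper82
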