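import Mathlib
import Cfsg.Agent.Helper15.B42Defs
import Cfsg.Agent.Helper88.B42SHAPE

/-!
# S4504, sub-CALL STRUCT, piece PVA (helper82): a character of shape `(1, l₀)` detects
conjugacy inside `⟨x⟩`
-/

universe u
set_option autoImplicit false
open Cfsg Cfsg.Agent.Helper77 Cfsg.Agent.Helper15 Cfsg.Agent.Helper88
open scoped ComplexConjugate

namespace Cfsg.Agent.Helper82

variable {G : Type u} [Group G] [Finite G]

/-- PVA: `χ` of shape `(1, l₀)` detects conjugacy inside `⟨x⟩`. -/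
theorem s4504s_conj (p : ℕ) [Fact p.Prime] (x : G) (hx : orderOf x = p)
    (F : Subgroup (ZMod p)ˣ) (hF : (F : Set (ZMod p)ˣ) = normUnits p x)
    (χ : G → ℂ) (l₀ : ZMod p) (hl₀ : l₀ ≠ 0) (h1 : B42Shape p x χ 1 l₀) :
    (∀ b : ℕ, ¬ p ∣ b → (χ (x ^ b) = χ x ↔ ∃ n : G, n * x * n⁻¹ = x ^ b)) ∧
    ((Finset.range p).filter (fun b => b ≠ 0 ∧ χ (x ^ b) = χ x)).card = Nat.card F := by
  classical
  have hp : p.Prime := Fact.out
  have hζ : IsPrimitiveRoot (d1zeta p) p := Complex.isPrimitiveRoot_exp p hp.ne_zero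
  unfold B42Shape at h1
  generalize d1zeta p = ζ at hζ h1
  let Fs : Finset (ZMod p)ˣ := Finset.univ.filter (· ∈ F)
  have hmemFs : ∀ s : (ZMod p)ˣ, s ∈ Fs ↔ s ∈ F := fun s => by simp [Fs]
  have hfs : ∀ f : (ZMod p)ˣ → ℂ, ∑ᶠ s ∈ normUnits p x, f s = ∑ s ∈ Fs, f s := by
    intro f
    have hset : (F : Set (ZMod p)ˣ) = (Fs : Set (ZMod p)ˣ) := by
      ext s; simp [Fs]
    rw [← hF, hset, finsum_mem_coe_finset]
  have hcard : Fs.card = Nat.card F := by
    rw [Nat.card_eq_fintype_card]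
    exact (Fintype.card_of_subtype Fs hmemFs).symm
  have hmemF : ∀ u : (ZMod p)ˣ, u ∈ F ↔ u ∈ normUnits p x := fun u => by rw [← hF]; rfl
  -- the periods
  obtain ⟨per, hper⟩ : ∃ per : ZMod p → ℂ, ∀ c : ZMod p,
      per c = ∑ s ∈ Fs, ζ ^ (c * ((s : (ZMod p)ˣ) : ZMod p) * l₀).val := ⟨_, fun _ => rfl⟩
  have hval : ∀ b : ℕ, χ (x ^ b) = per (b : ZMod p) := by
    intro b
    rw [h1 b, Nat.cast_one, one_mul, hfs, hper]
  have hval1 : χ x = per 1 := by
    have := hval 1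
    rwa [pow_one, Nat.cast_one] at this
  -- invariance under `F`
  have hA : ∀ u ∈ F, ∀ c : ZMod p, per (((u : (ZMod p)ˣ) : ZMod p) * c) = per c := by
    intro u hu c
    rw [hper, hper]
    refine Finset.sum_equiv (Equiv.mulLeft u) ?_ ?_
    · intro s
      rw [hmemFs, hmemFs, Equiv.coe_mulLeft]
      exact (Subgroup.mul_mem_cancel_left F hu).symm
    · intro s _
      rw [Equiv.coe_mulLeft, Units.val_mul]
      congr 2
      ring
  -- detection
  have hB : ∀ c : ZMod p, c ≠ 0 → per c = per 1 →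
      ∃ s ∈ F, c = ((s : (ZMod p)ˣ) : ZMod p) := by
    intro c hc hpc
    have hinj : ∀ e : ZMod p, e ≠ 0 → ∀ a ∈ Fs, ∀ b ∈ Fs,
        e * ((a : (ZMod p)ˣ) : ZMod p) * l₀ = e * ((b : (ZMod p)ˣ) : ZMod p) * l₀ → a = b := by
      intro e he a _ b _ hab
      exact Units.ext (mul_left_cancel₀ he (mul_right_cancel₀ hl₀ hab))
    have hLsum : ∀ e : ZMod p, e ≠ 0 → per e
        = ∑ j : ZMod p, (if j ∈ Fs.image (fun s : (ZMod p)ˣ => e * (s : ZMod p) * l₀)
            then ζ ^ j.val else 0) := by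
      intro e he
      rw [hper, Finset.sum_ite_mem, Finset.univ_inter]
      exact (Finset.sum_image (f := fun j : ZMod p => ζ ^ j.val) (hinj e he)).symm
    have h0 : ∀ e : ZMod p, e ≠ 0 →
        (0 : ZMod p) ∉ Fs.image (fun s : (ZMod p)ˣ => e * (s : ZMod p) * l₀) := by
      intro e he h0
      obtain ⟨s', -, hs'⟩ := Finset.mem_image.mp h0
      rcases mul_eq_zero.mp hs' with h | h
      · rcases mul_eq_zero.mp h with h | h
        · exact he h
        · exact s'.ne_zero h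
      · exact hl₀ h
    obtain ⟨Lc, hLc⟩ : ∃ Lc : Finset (ZMod p),
        Lc = Fs.image (fun s : (ZMod p)ˣ => c * (s : ZMod p) * l₀) := ⟨_, rfl⟩
    obtain ⟨L1, hL1⟩ : ∃ L1 : Finset (ZMod p),
        L1 = Fs.image (fun s : (ZMod p)ˣ => 1 * (s : ZMod p) * l₀) := ⟨_, rfl⟩
    have e1 := hLsum c hc
    have e2 := hLsum 1 one_ne_zero
    have h0c := h0 c hc
    have h01 := h0 1 one_ne_zero
    rw [← hLc] at e1 h0c
    rw [← hL1] at e2 h01
    have hsum0 : ∑ j : ZMod p,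
        ((((if j ∈ Lc then 1 else 0) - (if j ∈ L1 then 1 else 0) : ℤ)) : ℂ) * ζ ^ j.val = 0 := by
      have hterm : ∀ j : ZMod p,
          ((((if j ∈ Lc then 1 else 0) - (if j ∈ L1 then 1 else 0) : ℤ)) : ℂ) * ζ ^ j.val
          = (if j ∈ Lc then ζ ^ j.val else 0) - (if j ∈ L1 then ζ ^ j.val else 0) := by
        intro j
        split_ifs <;> push_cast <;> ring
      rw [Finset.sum_congr rfl (fun j _ => hterm j), Finset.sum_sub_distrib, ← e1, ← e2]
      exact sub_eq_zero.mpr hpc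
    have hk := coeff_const88 p ζ hζ
      (fun j => (if j ∈ Lc then 1 else 0) - (if j ∈ L1 then 1 else 0)) hsum0 (c * 1 * l₀)
    simp only [if_neg h0c, if_neg h01] at hk
    have hcL : c * 1 * l₀ ∈ Lc := by
      rw [hLc]
      exact Finset.mem_image.mpr ⟨1, (hmemFs 1).mpr F.one_mem, by simp⟩
    rw [if_pos hcL] at hk
    have hcL1 : c * 1 * l₀ ∈ L1 := by
      by_contra hcon
      rw [if_neg hcon] at hk
      norm_num at hk
    rw [hL1] at hcL1
    obtain ⟨s, hs, hs'⟩ := Finset.mem_image.mp hcL1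
    refine ⟨s, (hmemFs s).mp hs, ?_⟩
    have h3 : ((s : (ZMod p)ˣ) : ZMod p) * l₀ = c * l₀ := by
      rw [one_mul, mul_one] at hs'; exact hs'
    exact (mul_right_cancel₀ hl₀ h3).symm
  have hxpow : ∀ b : ℕ, x ^ ((b : ZMod p)).val = x ^ b := by
    intro b
    rw [ZMod.val_natCast, ← hx, pow_mod_orderOf]
  have hb0 : ∀ b : ℕ, ¬ p ∣ b → (b : ZMod p) ≠ 0 := by
    intro b hb h0
    exact hb ((ZMod.natCast_eq_zero_iff b p).mp h0)
  have hfwd : ∀ b : ℕ, ¬ p ∣ b → χ (x ^ b) = χ x →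
      ∃ s ∈ F, (b : ZMod p) = ((s : (ZMod p)ˣ) : ZMod p) := by
    intro b hb hχ
    rw [hval b, hval1] at hχ
    exact hB _ (hb0 b hb) hχ
  have hiff : ∀ b : ℕ, ¬ p ∣ b → (χ (x ^ b) = χ x ↔ ∃ n : G, n * x * n⁻¹ = x ^ b) := by
    intro b hb
    constructor
    · intro hχ
      obtain ⟨s, hs, hbs⟩ := hfwd b hb hχ
      obtain ⟨n, hn⟩ := (hmemF s).mp hs
      refine ⟨n, ?_⟩
      rw [hn, ← hbs, hxpow]
    · rintro ⟨n, hn⟩
      have hu : Units.mk0 (b : ZMod p) (hb0 b hb) ∈ F := by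
        rw [hmemF]
        refine ⟨n, ?_⟩
        rw [hn, Units.val_mk0, hxpow]
      rw [hval b, hval1]
      have h4 := hA _ hu 1
      rwa [mul_one, Units.val_mk0] at h4
  refine ⟨hiff, ?_⟩
  rw [← hcard]
  symm
  refine Finset.card_bij (fun s _ => ((s : (ZMod p)ˣ) : ZMod p).val) ?_ ?_ ?_
  · intro s hs
    rw [Finset.mem_filter, Finset.mem_range]
    have hsv : ((s : (ZMod p)ˣ) : ZMod p).val ≠ 0 := by
      rw [Ne, ZMod.val_eq_zero]; exact s.ne_zero
    have hlt := ZMod.val_lt ((s : (ZMod p)ˣ) : ZMod p)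
    refine ⟨hlt, hsv, ?_⟩
    have hnd : ¬ p ∣ ((s : (ZMod p)ˣ) : ZMod p).val :=
      Nat.not_dvd_of_pos_of_lt (Nat.pos_of_ne_zero hsv) hlt
    rw [hiff _ hnd]
    exact (hmemF s).mp ((hmemFs s).mp hs)
  · intro a _ b _ hab
    exact Units.ext (ZMod.val_injective p hab)
  · intro b hb
    rw [Finset.mem_filter, Finset.mem_range] at hb
    obtain ⟨hlt, hne, hχ⟩ := hb
    have hnd : ¬ p ∣ b := Nat.not_dvd_of_pos_of_lt (Nat.pos_of_ne_zero hne) hlt
    obtain ⟨s, hs, hbs⟩ := hfwd b hnd hχ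
    refine ⟨s, (hmemFs s).mpr hs, ?_⟩
    rw [← hbs, ZMod.val_natCast_of_lt hlt]

end Cfsg.Agent.Helper82
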