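import Mathlib
import Cfsg.Agent.Helper15.B42Defs
import Cfsg.Agent.Helper77.D1Final
import Cfsg.Agent.Helper66.B42GAL

/-!
# S4705, sub-CALL S4705B (BLK), piece AGREE (helper82): the exceptional characters agree on the
`p`-regular elements
-/

universe u
set_option autoImplicit false
open Cfsg Cfsg.Agent.Helper77 Cfsg.Agent.Helper15
open scoped ComplexConjugate

namespace Cfsg.Agent.Helper82

variable {H : Type u} [Group H] [Finite H]

/-- AGREE: the exceptional characters agree on the `p`-regular elements. -/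
theorem s4705b_agree (p : ℕ) [Fact p.Prime] (hp : 5 < p) (x : H) (K : Subgroup H)
    (h : D1Hyp p x K) (θ : Cfsg.IrrCharacter K)
    (hstab : Nat.card (stabUnits p x K (θ : K → ℂ)) = 2)
    (X Y : Finset (Cfsg.IrrCharacter H))
    (hXY : ∀ χ : Cfsg.IrrCharacter H, (χ ∈ X ∨ χ ∈ Y) ↔ χ ∈ blkTheta K x (θ : K → ℂ))
    (hX : X.card = 2)
    (hXval : ∀ χ ∈ X, (χ : H → ℂ) x = 1 ∨ (χ : H → ℂ) x = -1)
    (hYval : ∀ ψ ∈ Y, (ψ : H → ℂ) x ≠ 1 ∧ (ψ : H → ℂ) x ≠ -1) :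
    ∀ ψ ∈ Y, ∀ ψ' ∈ Y, ∀ g : H, ¬ p ∣ orderOf g → (ψ' : H → ℂ) g = (ψ : H → ℂ) g := by
  classical
  have hpp : p.Prime := Fact.out
  have hp6 : p ≠ 6 := by
    rintro rfl
    exact absurd hpp (by norm_num)
  have hpG : p ∣ Nat.card H := by rw [← h.hx]; exact orderOf_dvd_natCard x
  obtain ⟨M₀, hM₀⟩ := hpG
  have hM₀p : ¬ p ∣ M₀ := by
    rintro ⟨c, hc⟩
    exact h.hsq ⟨c, by rw [hM₀, hc]; ring⟩
  have hM₀0 : M₀ ≠ 0 := by rintro rfl; exact hM₀p (dvd_zero p)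
  obtain ⟨-, XA, YA, cA, εA, hblk, hdisj, hXA, hYA, -, -, hfix, horb, -, -, -⟩ :=
    d1_main_all p x K M₀ h hM₀p (by rw [hM₀]) θ
  rw [hstab] at hXA hYA
  -- `X ⊆ XA`
  have hsub : ∀ χ ∈ X, χ ∈ XA := by
    intro χ hχ
    have h1 : χ ∈ blkTheta K x (θ : K → ℂ) := (hXY χ).1 (Or.inl hχ)
    rw [hblk] at h1
    rcases h1 with h1 | h1
    · exact h1
    · exfalso
      have h2 : YA ⊆ (X : Set (Cfsg.IrrCharacter H)) := by
        intro ψ hψ
        obtain ⟨τ, -, hτ⟩ := (horb χ h1 ψ).2 hψ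
        have h3 : (ψ : H → ℂ) x = 1 ∨ (ψ : H → ℂ) x = -1 := by
          rw [hτ x]
          rcases hXval χ hχ with h4 | h4 <;> rw [h4] <;> simp
        have h5 : ψ ∈ blkTheta K x (θ : K → ℂ) := by rw [hblk]; exact Or.inr hψ
        rcases (hXY ψ).2 h5 with h6 | h6
        · exact h6
        · have h7 := hYval ψ h6
          tauto
      have h7 : Nat.card YA ≤ Nat.card (X : Set (Cfsg.IrrCharacter H)) :=
        Nat.card_mono (Finset.finite_toSet X) h2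
      rw [hYA] at h7
      have h8 : Nat.card (X : Set (Cfsg.IrrCharacter H)) = 2 := by
        rw [Nat.card_coe_set_eq, Set.ncard_coe_finset, hX]
      rw [h8] at h7
      omega
  have hXeq : (X : Set (Cfsg.IrrCharacter H)) = XA := by
    apply Set.eq_of_subset_of_ncard_le (fun χ hχ => hsub χ hχ) _ (Set.toFinite XA)
    rw [← Nat.card_coe_set_eq, hXA, Set.ncard_coe_finset, hX]
  have hYA' : ∀ ψ ∈ Y, ψ ∈ YA := by
    intro ψ hψ
    have h1 : ψ ∈ blkTheta K x (θ : K → ℂ) := (hXY ψ).1 (Or.inr hψ)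
    rw [hblk] at h1
    rcases h1 with h1 | h1
    · exfalso
      rw [← hXeq] at h1
      have h2 := hXval ψ h1
      have h3 := hYval ψ hψ
      tauto
    · exact h1
  intro ψ hψ ψ' hψ' g hg
  obtain ⟨τ, hτ, hτψ⟩ := (horb ψ (hYA' ψ hψ) ψ').2 (hYA' ψ' hψ')
  rw [hτψ g]
  apply Cfsg.Agent.Helper66.b42gal_fix τ M₀ hM₀0 hτ ψ g
  have h1 : orderOf g ∣ p * M₀ := by rw [← hM₀]; exact orderOf_dvd_natCard g
  have h3 : (orderOf g).Coprime p := ((Nat.Prime.coprime_iff_not_dvd hpp).mpr hg).symm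
  exact orderOf_dvd_iff_pow_eq_one.mp (h3.dvd_of_dvd_mul_left h1)

end Cfsg.Agent.Helper82
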