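import Mathlib
import Cfsg.Agent.Helper79.S4705Defs
import Cfsg.Agent.Helper79.Basic
import Cfsg.Agent.Helper77.D1Defs2
import Cfsg.Agent.Helper76.CentralChar

/-!
# S4705, sub-CALL S4705B (BLK), piece DCO (helper82): the `θ`-coefficients for the central
character `θ` of an irreducible character
-/

universe u
set_option autoImplicit false
open Cfsg Cfsg.Agent.Helper79 Cfsg.Agent.Helper77
open scoped ComplexConjugate

namespace Cfsg.Agent.Helper82

variable {H : Type u} [Group H] [Finite H]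

/-- DCO: the linear character `θ` of the centre under `ζ₀`; the `θ`-coefficient of an
irreducible character `ξ` is `ξ` itself if `ξ` lies over `ζ₀`, and `0` otherwise. -/
theorem s4705b_dco (ζ₀ : Cfsg.IrrCharacter H) :
    ∃ θ : Cfsg.IrrCharacter (Subgroup.center H),
      ∀ (ξ : Cfsg.IrrCharacter H) (y : H),
        (S4705Over (ζ₀ : H → ℂ) (ξ : H → ℂ) →
          dco (Subgroup.center H) (θ : Subgroup.center H → ℂ) (ξ : H → ℂ) y = (ξ : H → ℂ) y) ∧
        (¬ S4705Over (ζ₀ : H → ℂ) (ξ : H → ℂ) →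
          dco (Subgroup.center H) (θ : Subgroup.center H → ℂ) (ξ : H → ℂ) y = 0) := by
  classical
  let _ : Fintype (Subgroup.center H) := Fintype.ofFinite _
  have hι : ∀ z : Subgroup.center H, (Subgroup.center H).subtype z ∈ Subgroup.center H :=
    fun z => z.2
  have key : ∀ ξ : Cfsg.IrrCharacter H, ∃ c : Subgroup.center H → ℂ,
      (∀ (z : Subgroup.center H) (g : H), (ξ : H → ℂ) (g * (z : H)) = c z * (ξ : H → ℂ) g) ∧
      c 1 = 1 ∧ (∀ z w, c (z * w) = c z * c w) ∧ (∀ z, c z * conj (c z) = 1) := by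
    intro ξ
    obtain ⟨c, hc⟩ :=
      Cfsg.Agent.Helper76.exists_central_scalar (Subgroup.center H).subtype hι ξ
    obtain ⟨h1, hmul⟩ := Cfsg.Agent.Helper76.scalar_mul (Subgroup.center H).subtype
      (ξ : H → ℂ) (Cfsg.Agent.Helper76.irr_one_ne_zero ξ) c hc
    exact ⟨c, hc, h1, hmul, Cfsg.Agent.Helper76.scalar_norm c h1 hmul⟩
  obtain ⟨c₀, hc₀, h01, h0mul, h0norm⟩ := key ζ₀
  have hc₀ne : ∀ z, c₀ z ≠ 0 := by
    intro z hz
    have h2 := h0norm z
    rw [hz, zero_mul] at h2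
    exact zero_ne_one h2
  obtain ⟨f, hf⟩ : ∃ f : Subgroup.center H →* ℂˣ, ∀ z, (f z : ℂ) = c₀ z := by
    refine ⟨{ toFun := fun z => Units.mk0 (c₀ z) (hc₀ne z), map_one' := ?_, map_mul' := ?_ },
      fun z => rfl⟩
    · apply Units.ext
      simpa using h01
    · intro z w
      apply Units.ext
      simpa using h0mul z w
  refine ⟨⟨fun z => (f z : ℂ), Cfsg.Agent.Helper79.isIrrCharacter_of_hom f⟩, ?_⟩
  intro ξ y
  obtain ⟨c, hc, h1, hmul, hnorm⟩ := key ξ
  have hξ1 : (ξ : H → ℂ) 1 ≠ 0 := Cfsg.Agent.Helper76.irr_one_ne_zero ξ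
  have hζ1 : (ζ₀ : H → ℂ) 1 ≠ 0 := Cfsg.Agent.Helper76.irr_one_ne_zero ζ₀
  have hdco : dco (Subgroup.center H) (fun z => (f z : ℂ)) (ξ : H → ℂ) y
      = (Nat.card (Subgroup.center H) : ℂ)⁻¹ *
        ((ξ : H → ℂ) y * ∑ k : Subgroup.center H, c k * conj (c₀ k)) := by
    unfold dco
    rw [finsum_eq_sum_of_fintype]
    congr 1
    rw [Finset.mul_sum]
    apply Finset.sum_congr rfl
    intro k _
    rw [hc k y]
    show c k * (ξ : H → ℂ) y * conj ((f k : ℂˣ) : ℂ) = _
    rw [hf k]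
    ring
  have hover : S4705Over (ζ₀ : H → ℂ) (ξ : H → ℂ) ↔ ∀ z, c z = c₀ z := by
    constructor
    · intro hov z
      have h2 := hov (z : H) z.2
      have h3 := hc z 1
      have h4 := hc₀ z 1
      rw [one_mul] at h3 h4
      rw [h3, h4] at h2
      have h5 : (c z - c₀ z) * ((ξ : H → ℂ) 1 * (ζ₀ : H → ℂ) 1) = 0 := by
        linear_combination h2
      rcases mul_eq_zero.mp h5 with h6 | h6
      · exact sub_eq_zero.mp h6
      · exact absurd h6 (mul_ne_zero hξ1 hζ1)
    · intro hz z hzc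
      have h3 := hc ⟨z, hzc⟩ 1
      have h4 := hc₀ ⟨z, hzc⟩ 1
      rw [one_mul] at h3 h4
      simp only at h3 h4
      rw [h3, h4, hz]
      ring
  have hcard : (Nat.card (Subgroup.center H) : ℂ) ≠ 0 := by
    exact_mod_cast Nat.card_pos.ne'
  constructor
  · intro hov
    show dco (Subgroup.center H) (fun z => (f z : ℂ)) (ξ : H → ℂ) y = _
    rw [hdco]
    have h2 : ∑ k : Subgroup.center H, c k * conj (c₀ k)
        = (Nat.card (Subgroup.center H) : ℂ) := by
      rw [Finset.sum_congr rfl (fun k _ => by rw [(hover.mp hov) k, h0norm k])]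
      simp [Nat.card_eq_fintype_card]
    rw [h2]
    field_simp
  · intro hov
    show dco (Subgroup.center H) (fun z => (f z : ℂ)) (ξ : H → ℂ) y = _
    rw [hdco]
    rcases Cfsg.Agent.Helper76.sum_scalar_dichotomy c c₀ hmul h0mul h0norm with h2 | h2
    · rw [h2, mul_zero, mul_zero]
    · exact absurd (hover.mpr h2) hov

end Cfsg.Agent.Helper82
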