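import Mathlib
import Cfsg.Agent.Helper79.S4705Defs
import Cfsg.Agent.Helper79.Basic
import Cfsg.Agent.Helper15.B42Defs
import Cfsg.Agent.Helper91.B42STRONG
import Cfsg.Agent.Helper77.D1Final
import Cfsg.Agent.Helper80.CharIrr
import Cfsg.Agent.Helper72.S4705BD1
import Cfsg.Agent.Helper72.S4705BSTAB
import Cfsg.Agent.Helper39.S4705BVALY
import Cfsg.Agent.Helper82.S4705BAGREE
import Cfsg.Agent.Helper82.S4705BDCO
import Cfsg.Agent.Helper80.S4705BCOL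

/-!
# S4705 (Brauer 1966, degree `p - 2`), piece BLK (helper82): the block over a central character

Assembly of the sub-CALL S4705B: `s4705b_d1`, `s4705b_stab` (helper72), `s4705b_valY` (helper39),
`s4705b_col` (helper80), `s4705b_agree`, `s4705b_dco` (helper82), on top of
`Helper91.b42_d1_strong`.
-/

universe u
set_option autoImplicit false
open Cfsg Cfsg.Agent.Helper79 Cfsg.Agent.Helper77 Cfsg.Agent.Helper15
open scoped ComplexConjugate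

namespace Cfsg.Agent.Helper82

variable {H : Type u} [Group H] [Finite H]


/-- `ω + ω⁻¹ ≠ ± 1` for a primitive `p`-th root of unity, `p > 5` prime. -/
theorem s4705b_irrat (p : ℕ) (hpp : p.Prime) (hp : 5 < p) (ω : ℂ) (hω : IsPrimitiveRoot ω p) :
    ω + ω⁻¹ ≠ 1 ∧ ω + ω⁻¹ ≠ -1 := by
  have hω0 : ω ≠ 0 := hω.ne_zero (by omega)
  constructor
  · intro h1
    have h2 : ω ^ 2 - ω + 1 = 0 := by
      have : ω * (ω + ω⁻¹) = ω * 1 := by rw [h1]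
      rw [mul_add, mul_inv_cancel₀ hω0] at this
      linear_combination this
    have h3 : ω ^ 6 = 1 := by linear_combination (ω ^ 4 + ω ^ 3 - ω - 1) * h2
    have h4 := hω.dvd_of_pow_eq_one 6 h3
    have h5 := Nat.le_of_dvd (by norm_num) h4
    have h6 : p = 6 := by omega
    rw [h6] at hpp
    exact absurd hpp (by norm_num)
  · intro h1
    have h2 : ω ^ 2 + ω + 1 = 0 := by
      have : ω * (ω + ω⁻¹) = ω * (-1) := by rw [h1]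
      rw [mul_add, mul_inv_cancel₀ hω0] at this
      linear_combination this
    have h3 : ω ^ 3 = 1 := by linear_combination (ω - 1) * h2
    have h4 := hω.dvd_of_pow_eq_one 3 h3
    have h5 := Nat.le_of_dvd (by norm_num) h4
    omega

/-- BLK (the piece of CALL S4705). -/
theorem s4705_blk (p : ℕ) [Fact p.Prime] (x : H)
    (ζ : H → ℂ) (h : S4705Wk p x ζ) (S : S4705Shape p x ζ) (ζ₀ : Cfsg.IrrCharacter H) :
    ∃ (χ₁ χ₂ : Cfsg.IrrCharacter H) (c₁ c₂ ε : ℤ) (Y : Finset (Cfsg.IrrCharacter H)),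
      S4705Blk p x (ζ₀ : H → ℂ) χ₁ χ₂ c₁ c₂ ε Y := by
  classical
  have hp : p.Prime := Fact.out
  have hD := Cfsg.Agent.Helper72.s4705b_d1 p x ζ h S
  obtain ⟨θ, hθ⟩ := s4705b_dco ζ₀
  obtain ⟨hstabmem, hstabcard⟩ := Cfsg.Agent.Helper72.s4705b_stab p x ζ h S (θ : Subgroup.center H → ℂ)
  obtain ⟨X, Y, c, ε, hXY, hdisj, hXcard, hYne, hc, hε, hXv, hYv, hdeg⟩ :=
    Cfsg.Agent.Helper91.b42_d1_strong p x (Subgroup.center H) hD θ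
  rw [hstabcard] at hXcard
  obtain ⟨χ₁, χ₂, hne, rfl⟩ := Finset.card_eq_two.mp hXcard
  have hblk : ∀ ξ : Cfsg.IrrCharacter H,
      ξ ∈ blkTheta (Subgroup.center H) x (θ : Subgroup.center H → ℂ) ↔
        (S4705Over (ζ₀ : H → ℂ) (ξ : H → ℂ) ∧ (ξ : H → ℂ) x ≠ 0) := by
    intro ξ
    show dco _ _ _ x ≠ 0 ↔ _
    by_cases hov : S4705Over (ζ₀ : H → ℂ) (ξ : H → ℂ)
    · rw [(hθ ξ x).1 hov]; exact ⟨fun h => ⟨hov, h⟩, fun h => h.2⟩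
    · rw [(hθ ξ x).2 hov]; exact ⟨fun h => absurd rfl h, fun h => absurd h.1 hov⟩
  have hpow : ∀ b : ℕ, x ^ ((b : ZMod p).val) = x ^ b := by
    intro b
    rw [ZMod.val_natCast]
    have := pow_mod_orderOf x b
    rwa [h.hx] at this
  have hb0 : ∀ b : ℕ, ¬ p ∣ b → (b : ZMod p) ≠ 0 :=
    fun b hb h0 => hb ((ZMod.natCast_eq_zero_iff b p).mp h0)
  have hm₁ : χ₁ ∈ ({χ₁, χ₂} : Finset (Cfsg.IrrCharacter H)) := by simp
  have hm₂ : χ₂ ∈ ({χ₁, χ₂} : Finset (Cfsg.IrrCharacter H)) := by simp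
  have ov₁ := ((hblk χ₁).1 ((hXY χ₁).1 (Or.inl hm₁))).1
  have ov₂ := ((hblk χ₂).1 ((hXY χ₂).1 (Or.inl hm₂))).1
  have ovY : ∀ ψ ∈ Y, S4705Over (ζ₀ : H → ℂ) (ψ : H → ℂ) :=
    fun ψ hψ => ((hblk ψ).1 ((hXY ψ).1 (Or.inr hψ))).1
  have val₁ : ∀ b : ℕ, ¬ p ∣ b → (χ₁ : H → ℂ) (x ^ b) = (c χ₁ : ℂ) := by
    intro b hb
    have := hXv χ₁ hm₁ (b : ZMod p) (hb0 b hb)
    rwa [(hθ χ₁ _).1 ov₁, hpow] at this
  have val₂ : ∀ b : ℕ, ¬ p ∣ b → (χ₂ : H → ℂ) (x ^ b) = (c χ₂ : ℂ) := by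
    intro b hb
    have := hXv χ₂ hm₂ (b : ZMod p) (hb0 b hb)
    rwa [(hθ χ₂ _).1 ov₂, hpow] at this
  have valY : ∀ ψ ∈ Y, ∃ ω : ℂ, IsPrimitiveRoot ω p ∧
      ∀ b : ℕ, ¬ p ∣ b → (ψ : H → ℂ) (x ^ b) = (ε : ℂ) * (ω ^ b + ω⁻¹ ^ b) := by
    intro ψ hψ
    obtain ⟨l₀, hl₀, hv⟩ := hYv ψ hψ
    obtain ⟨ω, hω, hωv⟩ := Cfsg.Agent.Helper39.s4705b_valY p h.hp _ hstabmem l₀ hl₀
    refine ⟨ω, hω, fun b hb => ?_⟩
    have := hv (b : ZMod p) (hb0 b hb)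
    rwa [(hθ ψ _).1 (ovY ψ hψ), hpow, hωv b hb] at this
  have h1p : ¬ p ∣ 1 := fun h1 => hp.one_lt.ne' (Nat.dvd_one.mp h1)
  have hc₁ := hc χ₁ hm₁
  have hc₂ := hc χ₂ hm₂
  have hx₁ : (χ₁ : H → ℂ) x = (c χ₁ : ℂ) := by simpa using val₁ 1 h1p
  have hx₂ : (χ₂ : H → ℂ) x = (c χ₂ : ℂ) := by simpa using val₂ 1 h1p
  have hXval : ∀ χ ∈ ({χ₁, χ₂} : Finset (Cfsg.IrrCharacter H)),
      (χ : H → ℂ) x = 1 ∨ (χ : H → ℂ) x = -1 := by
    intro χ hχ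
    rw [Finset.mem_insert, Finset.mem_singleton] at hχ
    rcases hχ with rfl | rfl
    · rw [hx₁]; rcases hc₁ with h1 | h1 <;> rw [h1] <;> simp
    · rw [hx₂]; rcases hc₂ with h1 | h1 <;> rw [h1] <;> simp
  have hYval : ∀ ψ ∈ Y, (ψ : H → ℂ) x ≠ 1 ∧ (ψ : H → ℂ) x ≠ -1 := by
    intro ψ hψ
    obtain ⟨ω, hω, hωv⟩ := valY ψ hψ
    have h1 := hωv 1 h1p
    rw [pow_one, pow_one, pow_one] at h1
    obtain ⟨hi1, hi2⟩ := s4705b_irrat p hp h.hp ω hω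
    rw [h1]
    rcases hε with h2 | h2 <;> rw [h2] <;> constructor <;> intro h3
    · apply hi1; simpa using h3
    · apply hi2; simpa using h3
    · apply hi2; have : ω + ω⁻¹ = -(((-1 : ℤ) : ℂ) * (ω + ω⁻¹)) := by push_cast; ring
      rw [this, h3]
    · apply hi1; have : ω + ω⁻¹ = -(((-1 : ℤ) : ℂ) * (ω + ω⁻¹)) := by push_cast; ring
      rw [this, h3]; simp
  have n₁ : χ₁ ∉ Y := fun h1 => (hYval χ₁ h1).elim (fun a b => (hXval χ₁ hm₁).elim a b)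
  have n₂ : χ₂ ∉ Y := fun h1 => (hYval χ₂ h1).elim (fun a b => (hXval χ₂ hm₂).elim a b)
  have hagree := s4705b_agree p h.hp x (Subgroup.center H) hD θ hstabcard _ Y hXY hXcard
    hXval hYval
  -- the full set
  obtain ⟨T, hTdef⟩ : ∃ T : Finset (Cfsg.IrrCharacter H), T = insert χ₁ (insert χ₂ Y) := ⟨_, rfl⟩
  have hT : ∀ ξ : Cfsg.IrrCharacter H, ξ ∈ T ↔
      (S4705Over (ζ₀ : H → ℂ) (ξ : H → ℂ) ∧ (ξ : H → ℂ) x ≠ 0) := by
    intro ξ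
    rw [← hblk, ← hXY, hTdef]
    simp only [Finset.mem_insert, Finset.mem_singleton]
    tauto
  obtain ⟨hcol0, hcolp⟩ := Cfsg.Agent.Helper80.s4705b_col p x hD ζ₀ T hT
  have hsumT : ∀ f : Cfsg.IrrCharacter H → ℂ,
      ∑ ξ ∈ T, f ξ = f χ₁ + f χ₂ + ∑ ψ ∈ Y, f ψ := by
    intro f
    rw [hTdef, Finset.sum_insert, Finset.sum_insert n₂, add_assoc]
    rw [Finset.mem_insert]
    rintro (h1 | h1)
    · exact hne h1
    · exact n₁ h1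
  have hcc : ∀ χ ∈ ({χ₁, χ₂} : Finset (Cfsg.IrrCharacter H)),
      ((c χ : ℤ) : ℂ) * conj ((c χ : ℤ) : ℂ) = 1 := by
    intro χ hχ
    rcases hc χ hχ with h1 | h1 <;> rw [h1] <;> simp
  obtain ⟨ψ₀, hψ₀⟩ := hYne
  -- Ysq
  have Ysq : ∑ ψ ∈ Y, (ψ : H → ℂ) x * conj ((ψ : H → ℂ) x) = (p : ℂ) - 2 := by
    have h1 := hcolp
    rw [hsumT, hx₁, hx₂, hcc χ₁ hm₁, hcc χ₂ hm₂] at h1
    linear_combination h1
  -- Ysum
  have hdeg' : (c χ₁ : ℂ) * (χ₁ : H → ℂ) 1 + (c χ₂ : ℂ) * (χ₂ : H → ℂ) 1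
      = (ε : ℂ) * (ψ₀ : H → ℂ) 1 := by
    have h1 := hdeg ψ₀ hψ₀
    rw [Finset.sum_pair hne] at h1
    rw [Cfsg.Agent.Helper80.irr_one_eq χ₁, Cfsg.Agent.Helper80.irr_one_eq χ₂,
      Cfsg.Agent.Helper80.irr_one_eq ψ₀]
    exact_mod_cast h1
  have hconjc : ∀ n : ℤ, conj ((n : ℤ) : ℂ) = (n : ℂ) := fun n => map_intCast (starRingEnd ℂ) n
  have hYfac : ∀ g : H, ¬ p ∣ orderOf g →
      ∑ ψ ∈ Y, (ψ : H → ℂ) g * conj ((ψ : H → ℂ) x)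
        = (ψ₀ : H → ℂ) g * conj (∑ ψ ∈ Y, (ψ : H → ℂ) x) := by
    intro g hg
    rw [map_sum, Finset.mul_sum]
    apply Finset.sum_congr rfl
    intro ψ hψ
    rw [hagree ψ₀ hψ₀ ψ hψ g hg]
  have ho1 : ¬ p ∣ orderOf (1 : H) := by rw [orderOf_one]; exact h1p
  have Ysum : ∑ ψ ∈ Y, (ψ : H → ℂ) x = -(ε : ℂ) := by
    have h1 := hcol0 1 ho1
    rw [hsumT, hYfac 1 ho1, hx₁, hx₂, hconjc, hconjc] at h1
    have h2 : (ψ₀ : H → ℂ) 1 * ((ε : ℂ) + conj (∑ ψ ∈ Y, (ψ : H → ℂ) x)) = 0 := by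
      linear_combination h1 - hdeg'
    have h3 : (ψ₀ : H → ℂ) 1 ≠ 0 := Cfsg.Agent.Helper76.irr_one_ne_zero ψ₀
    have h4 : conj (∑ ψ ∈ Y, (ψ : H → ℂ) x) = -(ε : ℂ) := by
      rcases mul_eq_zero.mp h2 with h5 | h5
      · exact absurd h5 h3
      · linear_combination h5
    have h5 := congrArg conj h4
    rw [Complex.conj_conj, map_neg, hconjc] at h5
    exact h5
  refine ⟨χ₁, χ₂, c χ₁, c χ₂, ε, Y, ?_⟩
  refine
    { hc₁ := hc₁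
      hc₂ := hc₂
      hε := hε
      ne := hne
      ov₁ := ov₁
      ov₂ := ov₂
      ovY := ovY
      val₁ := val₁
      val₂ := val₂
      n₁ := n₁
      n₂ := n₂
      Yne := ⟨ψ₀, hψ₀⟩
      valY := valY
      reg := ?_
      Ysum := Ysum
      Ysq := Ysq
      compl := ?_ }
  · intro ψ hψ g hg
    have h1 := hcol0 g hg
    rw [hsumT, hYfac g hg, hx₁, hx₂, hconjc, hconjc, Ysum, map_neg, hconjc,
      hagree ψ hψ ψ₀ hψ₀ g hg] at h1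
    linear_combination h1
  · intro ξ hov h1 h2 h3
    by_contra h4
    have h5 := (hXY ξ).2 ((hblk ξ).2 ⟨hov, h4⟩)
    rw [Finset.mem_insert, Finset.mem_singleton] at h5
    tauto

end Cfsg.Agent.Helper82
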