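import Mathlib
import Cfsg.Agent.Helper95.UBNDefs
import Cfsg.Agent.Helper40.BNStD
import Cfsg.Agent.Helper6.BN
set_option autoImplicit false

namespace Cfsg.Agent.Helper82.UBN

theorem gst1_stab_iff {G : Type*} [Group G] (P : Cfsg.BNPair G) (n₀ : G) (hn₀ : n₀ ∈ P.N)
    (hstab : ∀ c ∈ P.B, n₀⁻¹ * c * n₀ ∈ P.B → c ∈ P.N) (c : ↥P.B) :
    c ∈ MulAction.stabilizer ↥P.B ((n₀ : G) : G ⧸ P.B) ↔ c.1 ∈ P.N := by
  rw [MulAction.mem_stabilizer_iff]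
  have h1 : c • ((n₀ : G) : G ⧸ P.B) = ((c.1 * n₀ : G) : G ⧸ P.B) := rfl
  rw [h1, QuotientGroup.eq]
  have h2 : (c.1 * n₀)⁻¹ * n₀ = (n₀⁻¹ * c.1 * n₀)⁻¹ := by group
  rw [h2, inv_mem_iff]
  constructor
  · exact hstab c.1 c.2
  · intro h
    have := P.conj_mem n₀⁻¹ (inv_mem hn₀) c.1 ⟨c.2, h⟩
    simpa using this

theorem p_GST1 {G : Type*} [Group G] [Finite G] (P : Cfsg.BNPair G) (p : ℕ) [Fact p.Prime]
    (U : Subgroup G) (hUB : U ≤ P.B) (hU : IsPGroup p U)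
    (hBUT : ∀ b ∈ P.B, ∃ u ∈ U, ∃ t ∈ P.B ⊓ P.N, b = u * t)
    (hT : ¬ p ∣ Nat.card ↥(P.B ⊓ P.N))
    (n₀ : G) (hn₀ : n₀ ∈ P.N) (hstab : ∀ c ∈ P.B, n₀⁻¹ * c * n₀ ∈ P.B → c ∈ P.N) :
    Nat.card (↥P.B ⧸ MulAction.stabilizer ↥P.B ((n₀ : G) : G ⧸ P.B)) = Nat.card U := by
  symm
  apply Nat.card_eq_of_bijective
    (fun u : U => ((⟨u.1, hUB u.2⟩ : ↥P.B) :
      ↥P.B ⧸ MulAction.stabilizer ↥P.B ((n₀ : G) : G ⧸ P.B)))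
  constructor
  · intro u₁ u₂ h
    simp only at h
    rw [QuotientGroup.eq, gst1_stab_iff P n₀ hn₀ hstab] at h
    have hx : (u₁⁻¹ * u₂ : U).1 ∈ P.B ⊓ P.N := ⟨hUB (u₁⁻¹ * u₂).2, by simpa using h⟩
    obtain ⟨k, hk⟩ := hU (u₁⁻¹ * u₂)
    have ho : orderOf (⟨(u₁⁻¹ * u₂ : U).1, hx⟩ : ↥(P.B ⊓ P.N)) ∣ Nat.card ↥(P.B ⊓ P.N) :=
      orderOf_dvd_natCard _
    have ho2 : orderOf (⟨(u₁⁻¹ * u₂ : U).1, hx⟩ : ↥(P.B ⊓ P.N)) ∣ p ^ k := by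
      apply orderOf_dvd_of_pow_eq_one
      apply Subtype.ext
      have := congrArg Subtype.val hk
      simpa using this
    have hcop : Nat.Coprime (p ^ k) (Nat.card ↥(P.B ⊓ P.N)) :=
      Nat.Coprime.pow_left k ((Nat.Prime.coprime_iff_not_dvd Fact.out).mpr hT)
    have h1 : orderOf (⟨(u₁⁻¹ * u₂ : U).1, hx⟩ : ↥(P.B ⊓ P.N)) = 1 :=
      Nat.eq_one_of_dvd_coprimes hcop ho2 ho
    rw [orderOf_eq_one_iff] at h1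
    have h2 : (u₁⁻¹ * u₂ : U).1 = 1 := congrArg Subtype.val h1
    have h3 : u₁⁻¹ * u₂ = 1 := Subtype.ext h2
    exact inv_mul_eq_one.mp h3
  · intro q
    induction q using QuotientGroup.induction_on with
    | H b =>
      obtain ⟨u, hu, t, ht, hbt⟩ := hBUT b.1 b.2
      refine ⟨⟨u, hu⟩, ?_⟩
      show ((⟨u, hUB hu⟩ : ↥P.B) : ↥P.B ⧸ MulAction.stabilizer ↥P.B ((n₀ : G) : G ⧸ P.B)) = b
      rw [QuotientGroup.eq, gst1_stab_iff P n₀ hn₀ hstab]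
      have : u⁻¹ * b.1 = t := by rw [hbt]; group
      show u⁻¹ * b.1 ∈ P.N
      rw [this]; exact ht.2

end Cfsg.Agent.Helper82.UBN
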